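import Cfsg.Agent.H7.RO2
import Cfsg.Agent.H7.Recog

/-! Groups whose involution centralisers are elementary abelian. -/

set_option autoImplicit false

namespace Cfsg.Agent.H7

open Cfsg Subgroup MulAction H2

variable {G : Type*} [Group G] [Finite G]

/-- the hypotheses -/
structure EA (T : Sylow 2 G) : Prop where
  nc : ¬ IsCyclic (T : Subgroup G)
  nn : ¬ (T : Subgroup G).Normal
  cen : ∀ t : G, orderOf t = 2 → IsMulCommutative (centralizer ({t} : Set G)) ∧
    ∀ c ∈ centralizer ({t} : Set G), c ^ 2 = 1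

theorem mem_of_normal_sylow {T : Sylow 2 G} {s : G} (hs : s ∈ normalizer ((T : Subgroup G) : Set G))
    (h2 : s * s = 1) : s ∈ (T : Subgroup G) := by
  have h1 : IsPGroup 2 ↥(zpowers s ⊔ (T : Subgroup G)) :=
    (L.isPGroup_of_forall_pow_eq_one (H8.isElementaryAbelian_zpowers (p := 2)
      (by rw [sq, h2])).2).to_sup_of_normal_right' T.isPGroup' ((zpowers_le).2 hs)
  exact T.is_maximal' h1 le_sup_right ▸ mem_sup_left (mem_zpowers s)

namespace EA
variable {T : Sylow 2 G} {u : G}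

theorem ne_bot (h : EA T) : (T : Subgroup G) ≠ ⊥ := fun e => h.nc (e ▸ inferInstance)

theorem sc (h : EA T) : SC (T : Subgroup G) := by
  have key : ∀ s, orderOf s = 2 → (T : Subgroup G) ≤ centralizer {s} → centralizer {s} = (T : Subgroup G) :=
    fun s hs hle => T.is_maximal' (L.isPGroup_of_forall_pow_eq_one (h.cen s hs).2) hle
  haveI := T.isPGroup'.isNilpotent
  obtain ⟨z, hz, h2, h3⟩ := exists_central_inv (Q := (T : Subgroup G)) inferInstance (by
    obtain ⟨n, hn⟩ := IsPGroup.iff_card.1 T.isPGroup'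
    rw [hn]
    rcases n with _ | n
    · exact absurd (Subgroup.card_eq_one.1 hn) h.ne_bot
    · exact (Nat.even_pow' (by omega)).2 even_two)
  have h4 := key z h2 fun x hx => mem_centralizer_singleton_iff.2 (h3 x hx).symm
  obtain ⟨h5, h6⟩ := h.cen z h2
  rw [h4] at h5 h6
  exact fun s hs hs1 => key s (ord2_of (by rw [← sq, h6 s hs]) hs1) fun x hx =>
    mem_centralizer_singleton_iff.2 (L.mul_comm_of_isMulCommutative hx hs)

theorem ord (h : EA T) {s : G} (hs : s ∈ (T : Subgroup G)) (h1 : s ≠ 1) : orderOf s = 2 := by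
  obtain ⟨z, hz, h2⟩ := exists_ord2_mem_of_even (H := (T : Subgroup G)) (by
    obtain ⟨n, hn⟩ := IsPGroup.iff_card.1 T.isPGroup'
    rw [hn]
    rcases n with _ | n
    · exact absurd (Subgroup.card_eq_one.1 hn) h.ne_bot
    · exact (Nat.even_pow' (by omega)).2 even_two)
  have := (h.cen z h2).2 s (h.sc z hz (ord2_ne_one h2) ▸ hs)
  exact ord2_of (by rw [← sq, this]) h1

theorem se (h : EA T) : IsStronglyEmbedded (normalizer ((T : Subgroup G) : Set G)) := by
  obtain ⟨z, hz, h1⟩ := H8.exists_mem_ne_one h.ne_bot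
  refine se_of (fun e => h.nn (normalizer_eq_top_iff.1 e))
    (even_card_of_ord2_mem (le_normalizer hz) (h.ord hz h1)) fun g s hs h2 hg => ?_
  have h3 := h.sc s (mem_of_normal_sylow hs (ord2_mul_self h2)) (ord2_ne_one h2)
  have h4 := h.sc _ (mem_of_normal_sylow hg (ord2_mul_self (ord2_conj h2 g)))
    (ord2_ne_one (ord2_conj h2 g))
  refine L.mem_normalizer_of_forall fun x hx => ?_
  rw [← h3, mem_centralizer_singleton_iff] at hx
  rw [← h4, mem_centralizer_singleton_iff]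
  calc g * x * g⁻¹ * (g * s * g⁻¹) = g * (x * s) * g⁻¹ := by group
    _ = _ := by rw [hx]; group

theorem exists_two (h : EA T) : ∃ x ∈ (T : Subgroup G), ∃ y ∈ (T : Subgroup G),
    x ≠ 1 ∧ y ≠ 1 ∧ x ≠ y := by
  obtain ⟨z, hz, h1⟩ := H8.exists_mem_ne_one h.ne_bot
  by_contra! h2
  refine h.nc (isCyclic_iff_exists_zpowers_eq_top.2 ⟨⟨z, hz⟩, eq_top_iff.2 fun y _ => ?_⟩)
  by_cases e : y = 1
  · exact e ▸ one_mem _
  · rw [← show (⟨z, hz⟩ : (T : Subgroup G)) = y from
      Subtype.ext (h2 z hz y y.2 h1 fun e' => e (Subtype.ext e'))]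
    exact mem_zpowers _

theorem inverts (h : EA T) (hu : u * u = 1) (huH : u ∉ normalizer ((T : Subgroup G) : Set G))
    {d : G} (h1 : d ∈ normalizer ((T : Subgroup G) : Set G))
    (h2 : u⁻¹ * d * u ∈ normalizer ((T : Subgroup G) : Set G)) : u * d * u⁻¹ = d⁻¹ := by
  have hodd := h.se.2.2 u huH
  obtain ⟨y, hy, h3, z, hz, rfl⟩ := exists_cent_mul_inv hodd hu (fun x hx => ⟨by
    have := mem_map_conj_iff.1 hx.2
    rwa [inv_eq_of_sq hu] at this ⊢, conj_mem_map_conj u hx.1⟩) (x := d) ⟨h1, mem_map_conj_iff.2 h2⟩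
  have h4 := (h.cen u (ord2_of hu fun e => huH (e ▸ one_mem _))).2 y
    (mem_centralizer_singleton_iff.2 h3)
  rw [eq_one_of_sq (odd_orderOf_of_mem hodd hy) (by rw [← sq, h4]), one_mul]
  exact hz.2

theorem card_D (h : EA T) (hu : u * u = 1) (huH : u ∉ normalizer ((T : Subgroup G) : Set G)) :
    Nat.card ↥(normalizer ((T : Subgroup G) : Set G) ⊓
      (normalizer ((T : Subgroup G) : Set G)).map (MulAut.conj u).toMonoidHom) =
      Nat.card (T : Subgroup G) - 1 := by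
  have h1 := se_card_inverted h.se hu huH
  have h2 : Nat.card {t : G // orderOf t = 2 ∧ t ∈ normalizer ((T : Subgroup G) : Set G)} =
      Nat.card {t : (T : Subgroup G) // t ≠ 1} := by
    refine Nat.card_congr ⟨fun t => ⟨⟨t, mem_of_normal_sylow t.2.2 (ord2_mul_self t.2.1)⟩,
      fun e => ord2_ne_one t.2.1 (congrArg Subtype.val e)⟩, fun t => ⟨t.1,
        h.ord t.1.2 fun e => t.2 (Subtype.ext e), le_normalizer t.1.2⟩, fun _ => rfl, fun _ => rfl⟩
  rw [h2, show Nat.card {t : (T : Subgroup G) // t ≠ 1} = Nat.card (T : Subgroup G) - 1 by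
    classical
    haveI := Fintype.ofFinite (T : Subgroup G)
    simp [Fintype.card_subtype_compl]] at h1
  rw [← h1]
  refine Nat.card_congr (Equiv.subtypeEquivRight fun x => ⟨fun hx => ⟨hx.1,
    h.inverts hu huH hx.1 (mem_map_conj_iff.1 hx.2)⟩, fun hx => ⟨hx.1, mem_map_conj_iff.2 ?_⟩⟩)
  have := hx.2
  rw [inv_eq_of_sq hu] at this ⊢
  exact this ▸ inv_mem hx.1

theorem card_H (h : EA T) : Nat.card (normalizer ((T : Subgroup G) : Set G)) =
    Nat.card (T : Subgroup G) * (Nat.card (T : Subgroup G) - 1) := by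
  obtain ⟨z, hz, h1⟩ := H8.exists_mem_ne_one h.ne_bot
  rw [h.sc.card_normalizer hz h1 fun t ht h2 => se_isConj h.se (h.ord hz h1) (h.ord ht h2), mul_comm]

theorem eq_one_of_mem (h : EA T) {g d : G} (hg : g ∉ normalizer ((T : Subgroup G) : Set G))
    (h1 : d ∈ (T : Subgroup G)) (h2 : g⁻¹ * d * g ∈ normalizer ((T : Subgroup G) : Set G)) :
    d = 1 := by
  by_contra e
  exact hg (se_mem h.se (le_normalizer h1) (h.ord h1 e) h2)

theorem compl (h : EA T) (hu : u * u = 1) (huH : u ∉ normalizer ((T : Subgroup G) : Set G)) :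
    IsComplement' ((normalizer ((T : Subgroup G) : Set G) ⊓
      (normalizer ((T : Subgroup G) : Set G)).map (MulAut.conj u).toMonoidHom).subgroupOf
        (normalizer ((T : Subgroup G) : Set G)))
      ((T : Subgroup G).subgroupOf (normalizer ((T : Subgroup G) : Set G))) := by
  refine isComplement'_of_card_mul_and_disjoint ?_ ?_
  · rw [L.card_subgroupOf inf_le_left, L.card_subgroupOf le_normalizer, h.card_D hu huH, h.card_H,
      mul_comm]
  · rw [disjoint_iff, eq_bot_iff]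
    rintro x ⟨h1, h2⟩
    exact Subtype.ext (h.eq_one_of_mem huH h2 (mem_map_conj_iff.1 h1.2))

theorem decomp (h : EA T) (hu : u * u = 1) (huH : u ∉ normalizer ((T : Subgroup G) : Set G))
    {x : G} (hx : x ∈ normalizer ((T : Subgroup G) : Set G)) :
    ∃ d ∈ normalizer ((T : Subgroup G) : Set G), u⁻¹ * d * u ∈ normalizer ((T : Subgroup G) : Set G) ∧
      ∃ τ ∈ (T : Subgroup G), x = d * τ := by
  obtain ⟨p, e⟩ := (h.compl hu huH).2 ⟨x, hx⟩
  exact ⟨p.1.1, p.1.1.2, mem_map_conj_iff.1 p.1.2.2, p.2.1, p.2.2, (congrArg Subtype.val e).symm⟩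

theorem exists_swap (h : EA T) {g₁ g₂ : G} (hg : g₁⁻¹ * g₂ ∉ normalizer ((T : Subgroup G) : Set G)) :
    ∃ i, i * i = 1 ∧ g₂⁻¹ * i * g₁ ∈ normalizer ((T : Subgroup G) : Set G) ∧
      ∀ d, g₁⁻¹ * d * g₁ ∈ normalizer ((T : Subgroup G) : Set G) →
        g₂⁻¹ * d * g₂ ∈ normalizer ((T : Subgroup G) : Set G) → i * d * i⁻¹ = d⁻¹ := by
  obtain ⟨s, hs, h2⟩ := se_exists_invol h.se
  obtain ⟨i, hi, hiH, h3, -⟩ := se_exists_inv h.se hs h2 (ord2_mul_self (ord2_conj h2 (g₁⁻¹ * g₂)))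
    (se_not_mem h.se hs h2 hg)
  have h4 : (g₁⁻¹ * g₂)⁻¹ * i ∈ normalizer ((T : Subgroup G) : Set G) :=
    se_mem' h.se hs h2 (by
      rw [show (g₁⁻¹ * g₂)⁻¹ * i * s * ((g₁⁻¹ * g₂)⁻¹ * i)⁻¹ =
        (g₁⁻¹ * g₂)⁻¹ * (i * s * i⁻¹) * (g₁⁻¹ * g₂) by group, h3]
      simpa [mul_assoc] using hs)
  refine ⟨g₁ * i * g₁⁻¹, ?_, by simpa [mul_assoc] using h4, fun d h5 h6 => ?_⟩
  · rw [show g₁ * i * g₁⁻¹ * (g₁ * i * g₁⁻¹) = g₁ * (i * i) * g₁⁻¹ by group, hi]; group
  · have := h.inverts hi hiH h5 (by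
      have := mul_mem (mul_mem (inv_mem h4) h6) h4
      convert this using 1; group)
    calc g₁ * i * g₁⁻¹ * d * (g₁ * i * g₁⁻¹)⁻¹ = g₁ * (i * (g₁⁻¹ * d * g₁) * i⁻¹) * g₁⁻¹ := by group
      _ = _ := by rw [this]; group

theorem fix3 (h : EA T) (hu : u * u = 1) (huH : u ∉ normalizer ((T : Subgroup G) : Set G))
    {d g : G} (h1 : d ∈ normalizer ((T : Subgroup G) : Set G))
    (h2 : u⁻¹ * d * u ∈ normalizer ((T : Subgroup G) : Set G)) (hd : d ≠ 1)
    (h3 : g⁻¹ * d * g ∈ normalizer ((T : Subgroup G) : Set G)) :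
    g ∈ normalizer ((T : Subgroup G) : Set G) ∨ u⁻¹ * g ∈ normalizer ((T : Subgroup G) : Set G) := by
  by_contra! h4
  obtain ⟨w, -, hw1, hw2⟩ := h.exists_swap h4.2
  obtain ⟨v, -, hv1, hv2⟩ := h.exists_swap (g₁ := g) (g₂ := 1)
    (fun e => h4.1 (by simpa using inv_mem e))
  obtain ⟨d', h5, h6, τ, h7, e⟩ := h.decomp hu huH (x := v * w * u) (by
    have := mul_mem hv1 hw1
    convert this using 1; group)
  have h8 : (v * w * u) * d * (v * w * u)⁻¹ = d⁻¹ := by
    calc (v * w * u) * d * (v * w * u)⁻¹ = v * (w * (u * d * u⁻¹) * w⁻¹) * v⁻¹ := by group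
      _ = _ := by rw [h.inverts hu huH h1 h2, inverts_inv (hw2 d h2 h3), hv2 d h3 (by simpa using h1)]
  have h9 : d' * d = d * d' := by
    have a1 := h.inverts hu huH h1 h2
    have a2 := h.inverts hu huH h5 h6
    have a3 := h.inverts hu huH (mul_mem h1 h5) (by
      have := mul_mem h2 h6
      convert this using 1; group)
    rw [← inv_inj, ← a3, mul_inv_rev, ← a1, ← a2]; group
  have h10 : d⁻¹ * d⁻¹ = τ * (d * τ⁻¹ * d⁻¹) := by
    rw [e] at h8
    calc d⁻¹ * d⁻¹ = (d' * d)⁻¹ * d' * d⁻¹ := by group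
      _ = d'⁻¹ * d⁻¹ * d' * d⁻¹ := by rw [h9]; group
      _ = _ := by rw [← h8]; group
  have h11 := h.eq_one_of_mem huH (d := d⁻¹ * d⁻¹)
    (h10 ▸ mul_mem h7 (L.conj_mem_of_mem_normalizer h1 (inv_mem h7))) (by
      have := mul_mem (inv_mem h2) (inv_mem h2)
      convert this using 1; group)
  exact hd (inv_eq_one.1 (eq_one_of_sq (odd_orderOf_of_mem (h.se.2.2 u huH)
    (inv_mem ⟨h1, mem_map_conj_iff.2 h2⟩)) h11))

theorem exists_ne_one (h : EA T) {g : G} (hg : g ∉ normalizer ((T : Subgroup G) : Set G)) :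
    ∃ d ∈ normalizer ((T : Subgroup G) : Set G), g⁻¹ * d * g ∈ normalizer ((T : Subgroup G) : Set G) ∧
      d ≠ 1 := by
  obtain ⟨i, h1, h2, -⟩ := h.exists_swap (g₁ := 1) (g₂ := g) (by simpa using hg)
  rw [mul_one] at h2
  obtain ⟨x, hx, y, hy, a1, a2, a3⟩ := h.exists_two
  obtain ⟨k, b1, b2, b3⟩ := se_exists_inverted h.se h1
    (fun e => hg (by simpa using mul_mem e (inv_mem h2))) (le_normalizer hx) (h.ord hx a1)
    (le_normalizer hy) (h.ord hy a2)
  refine ⟨k, b1, ?_, by rintro rfl; exact a3 (by simpa using b3)⟩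
  have := mul_mem (mul_mem h2 (inv_mem b1)) (inv_mem h2)
  rw [show g⁻¹ * i * k⁻¹ * (g⁻¹ * i)⁻¹ = g⁻¹ * (i * k⁻¹ * i⁻¹) * g by group, inverts_inv b2] at this
  exact this

theorem exists_T (h : EA T) (hu : u * u = 1) (huH : u ∉ normalizer ((T : Subgroup G) : Set G))
    {g : G} (hg : g ∉ normalizer ((T : Subgroup G) : Set G)) :
    ∃ τ ∈ (T : Subgroup G), u⁻¹ * (τ * g) ∈ normalizer ((T : Subgroup G) : Set G) := by
  obtain ⟨x, h1, h2, h3⟩ := h.exists_ne_one hg
  have hf : L.FPF (T : Subgroup G) (normalizer ((T : Subgroup G) : Set G) ⊓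
      (normalizer ((T : Subgroup G) : Set G)).map (MulAut.conj u).toMonoidHom) :=
    L.FPF.of_forall fun y hy hy1 k hk e => by
      by_contra hk1
      exact hy1 (h.eq_one_of_mem huH (h.sc k hk hk1 ▸ mem_centralizer_singleton_iff.2 e)
        (mem_map_conj_iff.1 hy.2))
  obtain ⟨d, a1, a2, τ, a3, e⟩ := h.decomp hu huH h1
  obtain ⟨k, hk, b⟩ := hf.exists_conj_mem inf_le_left (x := x)
    (e ▸ mul_mem (mem_sup_right ⟨a1, mem_map_conj_iff.2 a2⟩) (mem_sup_left a3))
    (fun e => h3 (h.eq_one_of_mem hg e h2))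
  refine ⟨k⁻¹, inv_mem hk, (h.fix3 hu huH b.1 (mem_map_conj_iff.1 b.2)
    (fun e => h3 (by simpa [mul_assoc] using congrArg (fun y => k * y * k⁻¹) e)) (g := k⁻¹ * g)
    (by simpa [mul_assoc] using h2)).resolve_left fun e => hg ?_⟩
  simpa using mul_mem (le_normalizer hk) e

theorem ker (h : EA T) : Ker (QuotientGroup.mk 1 : G ⧸ normalizer ((T : Subgroup G) : Set G))
    (T : Subgroup G) := by
  have hq : ∀ g : G, (QuotientGroup.mk g : G ⧸ normalizer ((T : Subgroup G) : Set G)) =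
      QuotientGroup.mk 1 ↔ g ∈ normalizer ((T : Subgroup G) : Set G) := fun g => by
    rw [eq_comm, QuotientGroup.eq]; simp
  refine ⟨fun u hu => (hq _).2 (by simpa using le_normalizer hu), fun g hg u hu =>
    L.conj_mem_of_mem_normalizer (by simpa using (hq _).1 hg) hu, fun y z hy hz => ?_⟩
  induction y using QuotientGroup.induction_on with | H y => ?_
  induction z using QuotientGroup.induction_on with | H z => ?_
  rw [Ne, hq] at hy hz
  obtain ⟨u, hu, h2⟩ := se_exists_invol_not_mem h.se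
  obtain ⟨τ, a1, a2⟩ := h.exists_T (ord2_mul_self h2) hu hy
  obtain ⟨σ, b1, b2⟩ := h.exists_T (ord2_mul_self h2) hu hz
  have e : (σ⁻¹ * τ) • (QuotientGroup.mk y : G ⧸ normalizer ((T : Subgroup G) : Set G)) =
      QuotientGroup.mk z := by
    rw [MulAction.Quotient.smul_mk, QuotientGroup.eq]
    have := mul_mem (inv_mem a2) b2
    convert this using 1; simp [mul_assoc]
  refine ⟨⟨_, mul_mem (inv_mem b1) a1⟩, e, fun w hw => Subtype.ext ?_⟩
  rw [← e, ← inv_smul_eq_iff, ← mul_smul, MulAction.Quotient.smul_mk, eq_comm, QuotientGroup.eq] at hw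
  have := h.eq_one_of_mem hy (mul_mem (inv_mem (mul_mem (inv_mem b1) a1)) w.2)
    (by simpa [mul_assoc] using hw)
  exact (inv_mul_eq_one.1 this).symm

theorem z3 (h : EA T) : Z3 G (G ⧸ normalizer ((T : Subgroup G) : Set G)) := by
  have k := h.ker
  have h2 : ∀ a b c d : G ⧸ normalizer ((T : Subgroup G) : Set G), a ≠ b → c ≠ d →
      ∃ g : G, g • a = c ∧ g • b = d := fun a b c d h1 h2 => by
    obtain ⟨g, rfl⟩ := exists_smul_eq G a c
    obtain ⟨w, e⟩ := exists_smul_eq G (QuotientGroup.mk 1 : G ⧸ _) (g • a)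
    have k' := k.conj w
    rw [e] at k'
    obtain ⟨v, hv, e2⟩ := k'.exists_smul (y := g • b) (fun e => h1 (smul_left_cancel g e).symm) h2.symm
    exact ⟨v * g, by rw [mul_smul, k'.fix v hv], by rw [mul_smul, e2]⟩
  refine ⟨is_two_pretransitive_iff.2 fun {a b c d} => h2 a b c d, fun g a b c h3 h4 h5 e1 e2 e3 => ?_⟩
  obtain ⟨u, hu, h6⟩ := se_exists_invol_not_mem h.se
  obtain ⟨w, rfl, rfl⟩ := h2 (QuotientGroup.mk 1) (QuotientGroup.mk u) a b
    (fun e => hu (by simpa using QuotientGroup.eq.1 e)) h3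
  obtain ⟨c, rfl⟩ : ∃ c', c = w • c' := ⟨w⁻¹ • c, by simp⟩
  induction c using QuotientGroup.induction_on with | H c => ?_
  have key : ∀ x : G, g • w • (QuotientGroup.mk x : G ⧸ normalizer ((T : Subgroup G) : Set G)) =
      w • QuotientGroup.mk x → x⁻¹ * (w⁻¹ * g * w) * x ∈ normalizer ((T : Subgroup G) : Set G) :=
    fun x e => by
      rw [← inv_smul_eq_iff, ← mul_smul, ← mul_smul, MulAction.Quotient.smul_mk, eq_comm,
        QuotientGroup.eq] at e
      simpa [mul_assoc] using e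
  by_contra hg
  rcases h.fix3 (ord2_mul_self h6) hu (by simpa using key 1 e1) (key u e2)
    (fun e => hg (by simpa [mul_assoc] using congrArg (fun y => w * y * w⁻¹) e)) (key c e3) with e | e
  · exact h5 (congrArg _ (QuotientGroup.eq.2 (by simpa using e)))
  · exact h4 (congrArg _ (QuotientGroup.eq.2 e))

theorem card_Ω (h : EA T) : Nat.card (G ⧸ normalizer ((T : Subgroup G) : Set G)) =
    Nat.card (T : Subgroup G) + 1 := by
  obtain ⟨u, hu, -⟩ := se_exists_invol_not_mem h.se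
  have h1 := h.ker.card (b := QuotientGroup.mk u)
    (fun e => hu (by simpa using QuotientGroup.eq.1 e.symm))
  have : 0 < Nat.card (G ⧸ normalizer ((T : Subgroup G) : Set G)) := Nat.card_pos
  omega

theorem card_G (h : EA T) :
    Nat.card G = Nat.card (T : Subgroup G) * (Nat.card (T : Subgroup G) ^ 2 - 1) := by
  rw [card_eq_card_quotient_mul_card_subgroup (normalizer ((T : Subgroup G) : Set G)), h.card_Ω,
    h.card_H]
  obtain ⟨m, hm⟩ : ∃ m, Nat.card (T : Subgroup G) = m + 1 :=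
    ⟨_, (Nat.succ_pred_eq_of_pos Nat.card_pos).symm⟩
  rw [hm, show (m + 1) ^ 2 - 1 = m * (m + 2) by
    rw [show (m + 1) ^ 2 = m * (m + 2) + 1 by ring]; omega, Nat.add_sub_cancel]
  ring

end EA

end Cfsg.Agent.H7
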