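import Mathlib

/-! Reduction of complex representations modulo `p`; nilpotent matrices and `ad`. -/

namespace Cfsg.Agent.H7

open Module

theorem exists_valuationSubring (p : ℕ) [hp : Fact p.Prime] :
    ∃ O : ValuationSubring ℂ, CharP (IsLocalRing.ResidueField O) p := by
  let A : Subring ℂ := ⊥
  have hI : Ideal.span {(p : A)} ≠ ⊤ := by
    rw [Ne, Ideal.span_singleton_eq_top, isUnit_iff_exists_inv]
    rintro ⟨⟨b, n, rfl⟩, hb⟩
    have h1 : ((p : ℤ) * n : ℂ) = (1 : ℤ) := by simpa using congrArg Subtype.val hb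
    have h2 : (p : ℤ) * n = 1 := by exact_mod_cast h1
    exact hp.out.one_lt.ne' (by exact_mod_cast Int.eq_one_of_mul_eq_one_right (by positivity) h2)
  obtain ⟨O, -, hO⟩ := Ideal.image_subset_nonunits_valuationSubring _ hI
  refine ⟨O, (CharP.charP_iff_prime_eq_zero hp.out).2 ?_⟩
  have h1 : ((p : O) : ℂ) ∈ O.nonunits := by
    simpa using hO ⟨p, Ideal.mem_span_singleton_self _, rfl⟩
  rw [ValuationSubring.coe_mem_nonunits_iff] at h1
  rw [← map_natCast (IsLocalRing.residue O), IsLocalRing.residue_eq_zero_iff]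
  exact h1

theorem exists_reduction {G : Type*} [Group G] [Finite G] (p : ℕ) [hp : Fact p.Prime] {d : ℕ}
    (ρ : Representation ℂ G (Fin d → ℂ)) :
    ∃ (k : Type) (_ : Field k) (_ : IsAlgClosed k) (_ : CharP k p) (r : ℕ)
      (σ : G →* Matrix (Fin r) (Fin r) k), r ≤ d ∧ ∀ g, σ g = 1 → ¬ p ∣ orderOf g → ρ g = 1 := by
  classical
  obtain ⟨O, hO⟩ := exists_valuationSubring p
  let L : Submodule O (Fin d → ℂ) := Submodule.span O (Set.range fun z : G × Fin d => ρ z.1 (Pi.single z.2 1))
  have hL : ∀ g, ∀ v ∈ L, ρ g v ∈ L := fun g v hv => by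
    induction hv using Submodule.span_induction with
    | mem v hv =>
      obtain ⟨z, rfl⟩ := hv
      exact Submodule.subset_span ⟨(g * z.1, z.2), by simp⟩
    | zero => simp
    | add a b _ _ ha hb => rw [map_add]; exact L.add_mem ha hb
    | smul c a _ ha => rw [LinearMap.map_smul_of_tower]; exact L.smul_mem c ha
  have : Module.Finite O L := Module.Finite.span_of_finite _ (Set.finite_range _)
  have : Module.Flat O L := by
    rw [Module.Flat.flat_iff_torsion_eq_bot_of_isBezout, ← Submodule.isTorsionFree_iff_torsion_eq_bot]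
    infer_instance
  have : Module.Free O L := Module.free_of_flat_of_isLocalRing
  let b := Module.finBasis O L
  let τ : G →* Module.End O L :=
    { toFun g := ((ρ g).restrictScalars O).restrict (hL g)
      map_one' := by ext; simp
      map_mul' a b := by ext; simp; rfl }
  let k := AlgebraicClosure (IsLocalRing.ResidueField O)
  let π : O →+* k := (algebraMap _ k).comp (IsLocalRing.residue O)
  let T : G →* Matrix _ _ O := (LinearMap.toMatrixAlgEquiv b).toAlgHom.toMonoidHom.comp τ
  refine ⟨k, inferInstance, inferInstance, inferInstance, _, π.mapMatrix.toMonoidHom.comp T, ?_, fun g hg hq => ?_⟩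
  · have h1 : LinearIndependent ℂ fun i => (b i : Fin d → ℂ) := by
      rw [← LinearIndependent.iff_fractionRing (R := O)]
      exact b.linearIndependent.map' L.subtype L.ker_subtype
    simpa using h1.fintype_card_le_finrank
  · have h1 : π.mapMatrix (T g) = 1 := hg
    have h2 : π.mapMatrix (∑ i ∈ Finset.range (orderOf g), T g ^ i) = (orderOf g : Matrix _ _ k) := by
      simp [map_sum, map_pow, h1]
    have h3 : IsUnit (∑ i ∈ Finset.range (orderOf g), T g ^ i) := by
      rw [Matrix.isUnit_iff_isUnit_det]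
      by_contra h
      have h4 : π (∑ i ∈ Finset.range (orderOf g), T g ^ i).det = 0 := by
        simp only [π, RingHom.comp_apply, (IsLocalRing.residue_eq_zero_iff _).2 h, map_zero]
      rw [RingHom.map_det, h2, ← Matrix.diagonal_natCast, Matrix.det_diagonal, Finset.prod_const] at h4
      exact hq ((CharP.cast_eq_zero_iff k p _).1 (eq_zero_of_pow_eq_zero h4))
    have h4 : T g = 1 := by
      have := mul_geom_sum (T g) (orderOf g)
      rw [← map_pow, pow_orderOf_eq_one, map_one, sub_self, h3.mul_left_eq_zero, sub_eq_zero] at this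
      exact this
    have h5 : τ g = 1 := (LinearMap.toMatrixAlgEquiv b).injective (by rw [map_one]; exact h4)
    refine (Pi.basisFun ℂ _).ext fun i => ?_
    have h6 : (Pi.single i 1 : Fin d → ℂ) ∈ L := Submodule.subset_span ⟨(1, i), by simp⟩
    rw [Pi.basisFun_apply]
    exact congrArg Subtype.val (LinearMap.congr_fun h5 ⟨_, h6⟩)

section ring

variable {k R : Type*} [Field k] [Ring R] [Algebra k R] {p : ℕ} [CharP k p]

theorem pow_comm_der {y b z : R} (hz : y * b - b * y = z) (hc : Commute y z) (i : ℕ) :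
    y ^ (i + 1) * b - b * y ^ (i + 1) = (i + 1 : ℕ) • (y ^ i * z) := by
  induction i with
  | zero => simpa using hz
  | succ i ih =>
    have : y ^ (i + 1 + 1) * b - b * y ^ (i + 1 + 1) =
        y ^ (i + 1) * (y * b - b * y) + (y ^ (i + 1) * b - b * y ^ (i + 1)) * y := by
      rw [pow_succ y (i + 1)]; noncomm_ring
    rw [this, ih, hz, succ_nsmul _ (i + 1), smul_mul_assoc, mul_assoc, ← hc.eq, ← mul_assoc, ← pow_succ, add_comm]

include k in
theorem eq_zero_of_nsmul {n : ℕ} (hn : ¬ p ∣ n) {a : R} (h : n • a = 0) : a = 0 := by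
  rw [← Nat.cast_smul_eq_nsmul k, smul_eq_zero_iff_right] at h
  · exact h
  · exact fun h => hn ((CharP.cast_eq_zero_iff k p n).1 h)

include k in
theorem nilp_der {y b z : R} (hz : y * b - b * y = z) (hc : Commute y z) {m : ℕ} (hm : m < p)
    (hy : y ^ m = 0) : IsNilpotent z := by
  have key : ∀ i, i < p → ∀ N, y ^ i * z ^ N = 0 → IsNilpotent z := by
    intro i
    induction i with
    | zero => exact fun _ N h => ⟨N, by simpa using h⟩
    | succ i ih =>
      intro hi N h
      refine ih (by omega) (N + 1 + N) (eq_zero_of_nsmul (k := k) (p := p) (n := i + 1)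
        (Nat.not_dvd_of_pos_of_lt i.succ_pos hi) ?_)
      have h1 := congrArg (fun a => z ^ N * a * z ^ N) (pow_comm_der hz hc i)
      have h2 : z ^ N * y ^ (i + 1) = 0 := by rw [← (hc.pow_pow _ _).eq, h]
      simp only [mul_sub, sub_mul, ← mul_assoc, h2, zero_mul, mul_smul_comm, smul_mul_assoc] at h1
      rw [mul_assoc _ (y ^ (i + 1)), h, mul_zero, sub_zero, ← (hc.pow_pow i N).eq] at h1
      rw [pow_add, pow_succ, ← mul_assoc, ← mul_assoc]; exact h1.symm
  exact key m hm 0 (by simpa using hy)

include k in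
theorem nilp_mul_der {y b z : R} (hz : y * b - b * y = z) (hc : Commute y z) {m : ℕ} (hm : m < p)
    (hy : y ^ m = 0) : IsNilpotent (y * b) := by
  obtain ⟨N, hN⟩ := nilp_der (k := k) hz hc hm hy
  have h1 : ∀ i a, y * b * (y ^ i * a) = y ^ (i + 1) * (b * a) - i • (y ^ i * (z * a)) := by
    intro i a
    cases i with
    | zero => simp [mul_assoc]
    | succ i =>
      have := congrArg (fun c => y * c * a) (pow_comm_der hz hc i)
      simp only [mul_sub, sub_mul, mul_smul_comm, smul_mul_assoc, ← mul_assoc, ← pow_succ'] at this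
      simp only [← mul_assoc]
      rw [← this]; abel
  have h2 : ∀ (i n : ℕ) a, ∃ a', (y * b) ^ n * (y ^ i * a) = y ^ (i + 1) * a' + (-(i : ℤ)) ^ n • (y ^ i * (z ^ n * a)) := by
    intro i n a
    induction n with
    | zero => exact ⟨0, by simp⟩
    | succ n ih =>
      obtain ⟨a', h⟩ := ih
      refine ⟨y * (b * a') - (i + 1) • (z * a') + (-(i : ℤ)) ^ n • (b * (z ^ n * a)), ?_⟩
      rw [pow_succ', mul_assoc, h, mul_add, h1, mul_smul_comm, h1, pow_succ' z, pow_succ y (i + 1), pow_succ (-(i : ℤ))]
      simp only [mul_add, mul_sub, mul_smul_comm, mul_assoc, smul_sub, mul_smul, neg_smul, natCast_zsmul, smul_neg]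
      abel
  have h3 : ∀ i, ∃ a, (y * b) ^ (N * i) = y ^ i * a := by
    intro i
    induction i with
    | zero => exact ⟨1, by simp⟩
    | succ i ih =>
      obtain ⟨a, h⟩ := ih
      obtain ⟨a', h'⟩ := h2 i N a
      exact ⟨a', by rw [mul_add, mul_one, add_comm, pow_add, h, h', hN, zero_mul, mul_zero, smul_zero, add_zero]⟩
  obtain ⟨a, h⟩ := h3 m
  exact ⟨_, by rw [h, hy, zero_mul]⟩

include k in
theorem eq_zero_of_ad_three {y a w z : R} (hw : y * a - a * y = w) (hz : y * w - w * y = z)
    (hy : y * z - z * y = y) {m : ℕ} (hm : m + 1 < p) (h3 : 3 < p) (hp : p.Prime) (h0 : y ^ m = 0) : y = 0 := by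
  have h1 : ∀ s : ℕ, z * y ^ s = y ^ s * z - (s : k) • y ^ s := by
    intro s
    induction s with
    | zero => simp
    | succ s ih =>
      have e := congrArg (y ^ s * ·) hy
      simp only [mul_sub, ← mul_assoc, ← pow_succ] at e
      rw [pow_succ, ← mul_assoc, ih, sub_mul, smul_mul_assoc, ← pow_succ]
      push_cast; linear_combination (norm := module) -e
  have h2 : ∀ t : ℕ, (2 : k) • (y ^ (t + 1) * w - w * y ^ (t + 1)) =
      (2 * (t + 1) : k) • (y ^ t * z) - ((t + 1) * t : k) • y ^ t := by
    intro t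
    induction t with
    | zero => simp [hz]
    | succ t ih =>
      have e := congrArg (y * ·) ih
      have e' := congrArg (· * y ^ (t + 1)) hz
      simp only [mul_sub, mul_smul_comm, ← mul_assoc, ← pow_succ'] at e
      simp only [sub_mul, h1, mul_assoc w, ← pow_succ'] at e'
      push_cast at *; linear_combination (norm := module) e + (2 : k) • e'
  have h4 : ∀ t : ℕ, (6 : k) • (y ^ (t + 2) * a - a * y ^ (t + 2)) =
      (6 * (t + 2) : k) • (y ^ (t + 1) * w) - (3 * (t + 2) * (t + 1) : k) • (y ^ t * z) +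
        ((t + 2) * (t + 1) * t : k) • y ^ t := by
    intro t
    induction t with
    | zero =>
      have : y ^ 2 * a - a * y ^ 2 = y * w + y * w - z := by rw [← hz, ← hw]; noncomm_ring
      simp only [zero_add, this, pow_one, pow_zero, one_mul]
      push_cast; module
    | succ t ih =>
      have e := congrArg (y * ·) ih
      have e' := congrArg (· * y ^ (t + 2)) hw
      have e'' := h2 (t + 1)
      simp only [mul_sub, mul_add, mul_smul_comm, ← mul_assoc, ← pow_succ'] at e
      simp only [sub_mul, mul_assoc a, ← pow_succ'] at e'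
      simp only [add_assoc, Nat.reduceAdd] at *
      push_cast at *; linear_combination (norm := module) e + (6 : k) • e' - (3 : k) • e''
  have key : ∀ t, t + 3 < p → y ^ (t + 2) = 0 → y ^ (t + 1) = 0 := by
    intro t ht h
    have e1 := h2 (t + 1)
    have e2 := h4 (t + 1)
    rw [pow_succ y (t + 2)] at e2
    simp only [h, zero_mul, mul_zero, sub_zero, zero_sub] at e1 e2
    refine eq_zero_of_nsmul (k := k) (p := p) (n := (t + 3) * (t + 2) * (t + 1)) (fun hd => ?_) ?_
    · rcases (hp.dvd_mul.1 hd) with hd | hd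
      · rcases (hp.dvd_mul.1 hd) with hd | hd <;> exact Nat.not_dvd_of_pos_of_lt (by omega) (by omega) hd
      · exact Nat.not_dvd_of_pos_of_lt (by omega) (by omega) hd
    · rw [← Nat.cast_smul_eq_nsmul k]
      push_cast at *; linear_combination (norm := module) (2 : k) • e2 + (3 * (t + 3) : k) • e1
  have key2 : ∀ t, t + 2 < p → y ^ (t + 1) = 0 → y = 0 := by
    intro t
    induction t with
    | zero => simp
    | succ t ih => exact fun ht h => ih (by omega) (key t ht h)
  cases m with
  | zero => rw [← mul_one y, ← pow_zero y, h0, mul_zero]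
  | succ m => exact key2 m hm h0

end ring

theorem exists_ad_two {k n : Type*} [Field k] [Fintype n] [DecidableEq n] {p : ℕ} [CharP k p]
    {y : Matrix n n k} {m : ℕ} (hm : m < p) (hy : y ^ m = 0) :
    ∃ a w, y * a - a * y = w ∧ y * w - w * y = y := by
  let T : Matrix n n k →ₗ[k] Matrix n n k := LinearMap.mulLeft k y - LinearMap.mulRight k y
  by_contra hn
  have h1 : y ∉ LinearMap.range (T ∘ₗ T) := fun ⟨a, ha⟩ => hn ⟨a, _, rfl, ha⟩
  obtain ⟨f, hf, hf'⟩ := Submodule.exists_dual_map_eq_bot_of_notMem h1 inferInstance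
  obtain ⟨b, hb⟩ : ∃ b : Matrix n n k, ∀ a, f a = (a * b).trace := by
    refine ⟨Matrix.of fun i j => f (Matrix.single j i 1), fun a => ?_⟩
    conv_lhs => rw [Matrix.matrix_eq_sum_single a]
    simp only [map_sum, Matrix.trace, Matrix.diag, Matrix.mul_apply, Matrix.of_apply]
    refine Finset.sum_congr rfl fun i _ => Finset.sum_congr rfl fun j _ => ?_
    rw [← smul_eq_mul, ← map_smul, Matrix.smul_single, smul_eq_mul, mul_one]
  have h2 : y * (y * b - b * y) - (y * b - b * y) * y = 0 := by
    rw [Matrix.ext_iff_trace_mul_left]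
    intro a
    have h3 : f (T (T a)) = 0 := (Submodule.mem_bot k).1 (hf' ▸ ⟨_, ⟨a, rfl⟩, rfl⟩)
    rw [hb] at h3
    simp only [T, LinearMap.sub_apply, LinearMap.mulLeft_apply, LinearMap.mulRight_apply, mul_sub, sub_mul,
      Matrix.trace_sub, mul_assoc] at h3
    simp only [mul_zero, Matrix.trace_zero, mul_sub, sub_mul, Matrix.trace_sub, mul_assoc]
    rw [Matrix.trace_mul_comm y (y * _), Matrix.trace_mul_comm y (a * _)] at h3
    simp only [mul_assoc] at h3
    rw [Matrix.trace_mul_comm y (a * _)] at h3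
    simp only [mul_assoc] at h3
    linear_combination h3
  exact hf (by rw [hb]; exact (Matrix.isNilpotent_trace_of_isNilpotent
    (nilp_mul_der (k := k) rfl (sub_eq_zero.1 h2) hm hy)).eq_zero)

end Cfsg.Agent.H7
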