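import Mathlib
import Cfsg.Agent.H7.Fe1
import Cfsg.Agent.H4.Dick1

/-! Relative traces over a subgroup of order `p`; three-dimensional orthogonal representations. -/

namespace Cfsg.Agent.H7

open Module Finset Cfsg.Agent.H4
open scoped MatrixGroups

theorem sum_eq_sum_fixed {G X W : Type*} [Group G] [MulAction G X] [Fintype X] [DecidableEq X] [AddCommGroup W]
    {p : ℕ} (hp : p.Prime) {x : G} (hx : x ^ p = 1) (F : X → W)
    (h : ∀ q, x • q ≠ q → ∑ i ∈ range p, F (x ^ i • q) = 0) :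
    ∑ q, F q = ∑ q with x • q = q, F q := by
  rw [← sum_filter_add_sum_filter_not univ (fun q => x • q = q), add_eq_left]
  have key : ∀ s : Finset X, (∀ q, q ∈ s ↔ x • q ∈ s) → (∀ q ∈ s, x • q ≠ q) → ∑ q ∈ s, F q = 0 := by
    intro s
    induction s using Finset.strongInduction with
    | H s ih =>
      intro h1 h2
      rcases s.eq_empty_or_nonempty with rfl | ⟨q, hq⟩
      · simp
      have h3 : Function.minimalPeriod (x • ·) q = p := by
        have := Fact.mk hp
        refine Function.minimalPeriod_eq_prime ?_ (h2 q hq)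
        rw [Function.IsPeriodicPt, Function.IsFixedPt, smul_iterate_apply, hx, one_smul]
      have h4 : Set.InjOn (fun i : ℕ => x ^ i • q) (range p) := fun i hi j hj e =>
        Function.iterate_injOn_Iio_minimalPeriod (f := (x • ·)) (x := q) (by simpa [h3] using hi)
          (by simpa [h3] using hj) (by simpa [smul_iterate_apply] using e)
      have h5 : ∀ i : ℕ, x ^ i • q ∈ s := fun i => by
        induction i with
        | zero => simpa
        | succ i ih => rw [pow_succ', mul_smul]; exact (h1 _).1 ih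
      have h6 : ∀ i : ℕ, x ^ i • q ∈ (range p).image fun i : ℕ => x ^ i • q := fun i =>
        mem_image.2 ⟨i % p, mem_range.2 (Nat.mod_lt _ hp.pos), by rw [← pow_eq_pow_mod _ hx]⟩
      have h7 : (range p).image (fun i : ℕ => x ^ i • q) ⊆ s := fun r hr => by
        obtain ⟨i, -, rfl⟩ := mem_image.1 hr; exact h5 i
      rw [← sum_sdiff h7, sum_image h4, h q (h2 q hq), add_zero]
      refine ih _ (sdiff_ssubset h7 ⟨_, h6 0⟩) (fun r => ?_) fun r hr => h2 r (mem_sdiff.1 hr).1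
      rw [mem_sdiff, mem_sdiff, ← h1]
      refine and_congr_right fun _ => not_congr ⟨fun hr => ?_, fun hr => ?_⟩
      · obtain ⟨i, -, rfl⟩ := mem_image.1 hr
        rw [← mul_smul, ← pow_succ']; exact h6 _
      · obtain ⟨i, -, e⟩ := mem_image.1 hr
        have : r = x ^ (p - 1 + i) • q := by
          rw [pow_add, mul_smul, e, ← mul_smul, ← pow_succ, Nat.sub_add_cancel hp.pos, hx, one_smul]
        exact this ▸ h6 _
  refine key _ (fun q => ?_) fun q hq => (mem_filter.1 hq).2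
  simp

section O3

variable {k W G : Type*} [Field k] [AddCommGroup W] [Module k W] [Group G]

theorem exists_sq_of_iso [IsAlgClosed k] {X Y Z : k} (h : X * Z = Y ^ 2) : ∃ a c, X = a ^ 2 ∧ Y = a * c ∧ Z = c ^ 2 := by
  obtain ⟨a, ha⟩ := IsAlgClosed.exists_pow_nat_eq X two_pos
  by_cases h0 : a = 0
  · obtain ⟨c, hc⟩ := IsAlgClosed.exists_pow_nat_eq Z two_pos
    refine ⟨a, c, ha.symm, ?_, hc.symm⟩
    rw [← ha, h0] at h
    rw [h0, zero_mul]; exact eq_zero_of_pow_eq_zero (n := 2) (by rw [← h]; ring)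
  · refine ⟨a, Y / a, ha.symm, by field_simp, ?_⟩
    field_simp; rw [← h, ← ha]; ring

theorem eq_or_neg_of_sq {s t s' t' : k} (h1 : s ^ 2 = s' ^ 2) (h2 : s * t = s' * t') (h3 : t ^ 2 = t' ^ 2) :
    (s' = s ∧ t' = t) ∨ (s' = -s ∧ t' = -t) := by
  by_cases h : s = 0
  · subst h
    obtain rfl : s' = 0 := eq_zero_of_pow_eq_zero (n := 2) (by rw [← h1]; ring)
    simpa using sq_eq_sq_iff_eq_or_eq_neg.1 h3.symm
  · rcases sq_eq_sq_iff_eq_or_eq_neg.1 h1.symm with rfl | rfl
    · exact Or.inl ⟨rfl, (mul_left_cancel₀ h h2).symm⟩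
    · exact Or.inr ⟨rfl, mul_left_cancel₀ h (by linear_combination h2)⟩

theorem exists_pgl_of_form [IsAlgClosed k] (h2 : (2 : k) ≠ 0) (ρ : Representation k G W) (B : W →ₗ[k] W →ₗ[k] k)
    (hB : ∀ g a b, B (ρ g a) (ρ g b) = B a b) (hs : ∀ a b, B a b = B b a) {e₁ e₂ e₃ : W} {β : k} (hβ : β ≠ 0)
    (h11 : B e₁ e₁ = 0) (h12 : B e₁ e₂ = 0) (h23 : B e₂ e₃ = 0) (h33 : B e₃ e₃ = 0) (h13 : B e₁ e₃ = β)
    (h22 : B e₂ e₂ = -(2 * β))
    (hS : ∀ g, ∀ v ∈ Submodule.span k {e₁, e₂, e₃}, ρ g v ∈ Submodule.span k {e₁, e₂, e₃}) :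
    ∃ φ : G →* PGL(2, k), ∀ g, φ g = 1 → ∃ c : k, ρ g e₁ = c • e₁ ∧ ρ g e₃ = c • e₃ := by
  have hP : ∀ X Y Z X' Y' Z' : k, B (X • e₁ + Y • e₂ + Z • e₃) (X' • e₁ + Y' • e₂ + Z' • e₃) =
      β * (X * Z' + Z * X' - 2 * Y * Y') := by
    intro X Y Z X' Y' Z'
    simp only [map_add, map_smul, LinearMap.add_apply, LinearMap.smul_apply, smul_eq_mul, h11, h12, h23, h33, h13, h22,
      hs e₂ e₁, hs e₃ e₁, hs e₃ e₂]
    ring
  have hI : ∀ X Y Z X' Y' Z' : k, X • e₁ + Y • e₂ + Z • e₃ = X' • e₁ + Y' • e₂ + Z' • e₃ →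
      X = X' ∧ Y = Y' ∧ Z = Z' := by
    intro X Y Z X' Y' Z' h
    have a1 := hP X Y Z 0 0 1
    have a2 := hP X Y Z 0 1 0
    have a3 := hP X Y Z 1 0 0
    rw [h, hP] at a1 a2 a3
    refine ⟨?_, mul_left_cancel₀ h2 ?_, ?_⟩
    · linear_combination -mul_left_cancel₀ hβ a1
    · linear_combination mul_left_cancel₀ hβ a2
    · linear_combination -mul_left_cancel₀ hβ a3
  let v : k → k → W := fun s t => s ^ 2 • e₁ + (s * t) • e₂ + t ^ 2 • e₃
  have hex : ∀ g, ∃ a b c d : k, a * d - b * c ≠ 0 ∧ ∀ s t, ρ g (v s t) = v (a * s + b * t) (c * s + d * t) := by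
    intro g
    obtain ⟨X1, Y1, Z1, e1⟩ := Submodule.mem_span_triple.1 (hS g e₁ (Submodule.subset_span (by simp)))
    obtain ⟨X, Y, Z, e2⟩ := Submodule.mem_span_triple.1 (hS g e₂ (Submodule.subset_span (by simp)))
    obtain ⟨X3, Y3, Z3, e3⟩ := Submodule.mem_span_triple.1 (hS g e₃ (Submodule.subset_span (by simp)))
    have a11 := hB g e₁ e₁
    have a33 := hB g e₃ e₃
    rw [← e1, hP, h11, mul_eq_zero_iff_left hβ] at a11
    rw [← e3, hP, h33, mul_eq_zero_iff_left hβ] at a33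
    obtain ⟨a, c, rfl, rfl, rfl⟩ := exists_sq_of_iso (X := X1) (Y := Y1) (Z := Z1)
      (mul_left_cancel₀ h2 (by linear_combination a11))
    obtain ⟨b, d, rfl, rfl, rfl⟩ := exists_sq_of_iso (X := X3) (Y := Y3) (Z := Z3)
      (mul_left_cancel₀ h2 (by linear_combination a33))
    have a13 := hB g e₁ e₃
    have a12 := hB g e₁ e₂
    have a23 := hB g e₂ e₃
    have a22 := hB g e₂ e₂
    rw [← e1, ← e3, hP, h13] at a13
    rw [← e1, ← e2, hP, h12, mul_eq_zero_iff_left hβ] at a12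
    rw [← e2, ← e3, hP, h23, mul_eq_zero_iff_left hβ] at a23
    rw [← e2, hP, h22] at a22
    have hδ : (a * d - b * c) ^ 2 = 1 := mul_left_cancel₀ hβ (by linear_combination a13)
    have h0 : a * d - b * c ≠ 0 := fun h => by simp [h] at hδ
    have hQ : X * Z - Y ^ 2 = -1 := mul_left_cancel₀ h2 (mul_left_cancel₀ hβ (by linear_combination a22))
    set l := -(a * b * Z - (a * d + b * c) * Y + c * d * X) with hl
    have hX : X = l * (2 * a * b) := by linear_combination b ^ 2 * a12 + a ^ 2 * a23 - X * hδ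
    have hZ : Z = l * (2 * c * d) := by linear_combination d ^ 2 * a12 + c ^ 2 * a23 - Z * hδ
    have hY : Y = l * (a * d + b * c) := by
      linear_combination b * d * a12 + a * c * a23 - Y * hδ
    have hl2 : (l - 1) * (l + 1) = 0 := by
      rw [hX, hY, hZ] at hQ
      linear_combination -hQ - l ^ 2 * hδ
    rcases mul_eq_zero.1 hl2 with h | h
    · refine ⟨a, b, c, d, h0, fun s t => ?_⟩
      rw [sub_eq_zero.1 h] at hX hY hZ
      simp only [v, map_add, map_smul, ← e1, ← e2, ← e3, hX, hY, hZ]; module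
    · refine ⟨a, -b, c, -d, fun h => h0 (by linear_combination -h), fun s t => ?_⟩
      rw [eq_neg_of_add_eq_zero_left h] at hX hY hZ
      simp only [v, map_add, map_smul, ← e1, ← e2, ← e3, hX, hY, hZ]; module
  choose a b c d hd hv using hex
  have huniq : ∀ {a b c d a' b' c' d' : k} (h : a * d - b * c ≠ 0) (h' : a' * d' - b' * c' ≠ 0),
      (∀ s t, v (a * s + b * t) (c * s + d * t) = v (a' * s + b' * t) (c' * s + d' * t)) →
        pm a b c d h = pm a' b' c' d' h' := by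
    intro a b c d a' b' c' d' h h' e
    obtain ⟨x1, x2, x3⟩ := hI _ _ _ _ _ _ (e 1 0)
    obtain ⟨y1, y2, y3⟩ := hI _ _ _ _ _ _ (e 0 1)
    obtain ⟨z1, z2, z3⟩ := hI _ _ _ _ _ _ (e 1 1)
    have w1 : a * b = a' * b' := mul_left_cancel₀ h2 (by linear_combination z1 - x1 - y1)
    have w3 : c * d = c' * d' := mul_left_cancel₀ h2 (by linear_combination z3 - x3 - y3)
    have w2 : a * d + b * c = a' * d' + b' * c' := by linear_combination z2 - x2 - y2
    simp only [mul_one, mul_zero, add_zero, zero_add] at x1 x2 x3 y1 y2 y3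
    have hm : a * b = -(a * b) → c * d = -(c * d) → a * d + b * c = -(a * d + b * c) → False := fun u1 u2 u3 =>
      h (eq_zero_of_pow_eq_zero (n := 2) (mul_left_cancel₀ h2 (by
        linear_combination (a * d + b * c) * u3 - 4 * c * d * u1)))
    rcases eq_or_neg_of_sq x1 x2 x3 with ⟨rfl, rfl⟩ | ⟨rfl, rfl⟩ <;>
      rcases eq_or_neg_of_sq y1 y2 y3 with ⟨rfl, rfl⟩ | ⟨rfl, rfl⟩
    · rfl
    · exact (hm (by linear_combination w1) (by linear_combination w3) (by linear_combination w2)).elim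
    · exact (hm (by linear_combination w1) (by linear_combination w3) (by linear_combination w2)).elim
    · exact pm_eq_pm.2 ⟨-1, by simp⟩
  refine ⟨MonoidHom.mk' (fun g => pm (a g) (b g) (c g) (d g) (hd g)) fun g h => ?_, fun g hg => ?_⟩
  · rw [pm_mul]
    refine huniq _ _ fun s t => ?_
    rw [← hv, map_mul, Module.End.mul_apply, hv, hv]
    congr 1 <;> ring
  · obtain ⟨h1, h3, h4⟩ := pm_eq_one.1 hg
    have e1 := hv g 1 0
    have e3 := hv g 0 1
    refine ⟨a g ^ 2, ?_, ?_⟩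
    · simpa [v, h1, h3] using e1
    · simpa [v, h1, h3, ← h4] using e3

end O3

end Cfsg.Agent.H7
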