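import Mathlib
import Cfsg.Agent.H7.Fe2

/-! Green correspondence by hand: a three-dimensional summand. -/

namespace Cfsg.Agent.H7

open Module Finset Cfsg.Agent.H4 Subgroup
open scoped MatrixGroups

variable {k W G : Type*} [Field k] [AddCommGroup W] [Module k W] [Group G] {p : ℕ}

theorem out_smul (P : Subgroup G) (g : G) (q : G ⧸ P) : ∃ u ∈ P, (g • q).out = g * q.out * u := by
  obtain ⟨u, hu⟩ := QuotientGroup.mk_out_eq_mul P (g * q.out)
  exact ⟨u, u.2, by rw [← hu, ← smul_eq_mul, MulAction.Quotient.mk_smul_out]⟩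

theorem geom_sum_char [hp : Fact p.Prime] [CharP k p] {R : Type*} [Ring R] [Algebra k R] (t : R) :
    ∑ i ∈ range p, t ^ i = (t - 1) ^ (p - 1) := by
  have h : ∑ i ∈ range p, (Polynomial.X : Polynomial k) ^ i = (Polynomial.X - 1) ^ (p - 1) := by
    refine mul_right_cancel₀ (Polynomial.X_sub_C_ne_zero (1 : k)) ?_
    rw [map_one, geom_sum_mul, ← pow_succ, Nat.sub_add_cancel hp.out.pos, sub_pow_char, one_pow]
  simpa [map_sum] using congrArg (Polynomial.aeval t) h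

theorem exists_pow_of_fixed [Finite G] {x : G} (hp : p.Prime) (hx : orderOf x = p) {q : G ⧸ zpowers x}
    (hq : x • q = q) : ∃ a a' : ℕ, q.out * x * q.out⁻¹ = x ^ a ∧ q.out⁻¹ * x * q.out⁻¹⁻¹ = x ^ a' := by
  obtain ⟨u, hu, e⟩ := out_smul _ x q
  rw [hq] at e
  have h1 : q.out⁻¹ * x * q.out⁻¹⁻¹ ∈ zpowers x := by
    have : q.out⁻¹ * x * q.out⁻¹⁻¹ = u⁻¹ := by rw [eq_inv_iff_mul_eq_one, inv_inv, mul_assoc, mul_assoc, ← mul_assoc x, ← e]; simp
    exact this ▸ inv_mem hu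
  have h2 : zpowers (q.out⁻¹ * x * q.out⁻¹⁻¹) = zpowers x := eq_of_le_of_card_ge (zpowers_le.2 h1) (by
    rw [Nat.card_zpowers, Nat.card_zpowers]
    exact ((MulAut.conj q.out⁻¹).orderOf_eq x).ge)
  obtain ⟨a, ha⟩ := mem_powers_iff_mem_zpowers.2 (h2.ge (mem_zpowers x))
  obtain ⟨a', ha'⟩ := mem_powers_iff_mem_zpowers.2 h1
  refine ⟨a, a', ?_, ha'.symm⟩
  simp only [conj_pow] at ha
  generalize q.out = h at ha ⊢
  exact (congrArg (h * · * h⁻¹) ha).symm.trans (by group)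

theorem card_fixed_ne_zero [Finite G] [hp : Fact p.Prime] [CharP k p] {x : G} (hx : orderOf x = p)
    (hidx : ¬ p ∣ (zpowers x).index) [Fintype (G ⧸ zpowers x)] [DecidableEq (G ⧸ zpowers x)] :
    ((#{q : G ⧸ zpowers x | x • q = q} : ℕ) : k) ≠ 0 := by
  have h := (IsPGroup.of_card (G := zpowers x) (n := 1) (by rw [Nat.card_zpowers, hx, pow_one])
    ).card_modEq_card_fixedPoints (G ⧸ zpowers x)
  rw [Ne, CharP.cast_eq_zero_iff k p]
  refine fun hd => hidx ((h.dvd_iff dvd_rfl).2 ?_)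
  convert hd
  rw [← Fintype.card_subtype, ← Nat.card_eq_fintype_card]
  refine Nat.card_congr (Equiv.subtypeEquivRight fun q => ⟨fun h => h ⟨x, mem_zpowers x⟩, fun h g => ?_⟩)
  exact zpowers_le.2 (show x ∈ MulAction.stabilizer G q from h) g.2

theorem exists_pgl_of_green [Finite G] [hp : Fact p.Prime] [CharP k p] [IsAlgClosed k] [FiniteDimensional k W]
    (ρ : Representation k G W) {x : G} (hx : orderOf x = p) (hidx : ¬ p ∣ (zpowers x).index) (h3 : 3 < p)
    (hD : (ρ x - 1) ^ (p - 1) = 0) {E F : W} (hE : ∀ (h : G) (a : ℕ), h * x * h⁻¹ = x ^ a → ρ h E = (a : k) • E)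
    (hF : (ρ x - 1) ((ρ x - 1) F) = E) (hn : ∀ a, (ρ x - 1) ((ρ x - 1) ((ρ x - 1) a)) ≠ E) :
    ∃ φ : G →* PGL(2, k), φ x ≠ 1 ∧ ∀ g, φ g = 1 → ∃ c : k, ρ g E = c • E := by
  classical
  have := Fintype.ofFinite (G ⧸ zpowers x)
  have h2 : (2 : k) ≠ 0 := fun h => Nat.not_dvd_of_pos_of_lt two_pos (by omega)
    ((CharP.cast_eq_zero_iff k p 2).1 (by exact_mod_cast h))
  have hxp : x ^ p = 1 := hx ▸ pow_orderOf_eq_one x
  set D := ρ x - 1 with hDd
  have hxD : ∀ a, ρ x a = a + D a := fun a => by simp [hDd]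
  have hxE : ρ x E = E := by simpa using hE x 1 (by simp)
  have hDE : D E = 0 := by simp [hDd, hxE]
  have hE0 : E ≠ 0 := fun h => hn 0 (by simp [h])
  have hinv : ∀ g a, ρ g (ρ g⁻¹ a) = a := fun g a => by rw [← End.mul_apply, ← map_mul]; simp
  have hmul : ∀ g h a, ρ (g * h) a = ρ g (ρ h a) := fun g h a => by rw [map_mul]; rfl
  have hN : ∀ a, ∑ i ∈ range p, ρ (x ^ i) a = (D ^ (p - 1)) a := fun a => by
    rw [← geom_sum_char (k := k)]; simp [map_pow]
  have hfix : ∀ w, ρ x w = w → ∀ i : ℕ, ρ (x ^ i) w = w := fun w hw i => by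
    induction i with
    | zero => simp
    | succ i ih => rw [pow_succ, hmul, hw, ih]
  obtain ⟨ψ, hψ, hψ'⟩ : ∃ ψ : Dual k W, ψ E = 1 ∧ ∀ a, ψ (D (D (D a))) = 0 := by
    obtain ⟨f, hf, hf'⟩ := Submodule.exists_dual_map_eq_bot_of_notMem
      (show E ∉ LinearMap.range (D ∘ₗ D ∘ₗ D) from fun ⟨a, ha⟩ => hn a ha) inferInstance
    refine ⟨(f E)⁻¹ • f, by simp [hf], fun a => ?_⟩
    have h3 : f (D (D (D a))) = 0 := (Submodule.mem_bot k).1 (hf' ▸ ⟨_, ⟨a, rfl⟩, rfl⟩)
    simp [h3]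
  have hc := card_fixed_ne_zero (k := k) hx hidx
  set c : k := ((#{q : G ⧸ zpowers x | x • q = q} : ℕ) : k) with hcd
  -- the endomorphism
  obtain ⟨f, hf1, hf2, hf3⟩ : ∃ f : End k W, (∀ g a, f (ρ g a) = ρ g (f a)) ∧
      (∀ w, D w = 0 → ∃ c' : k, f w = c' • E) ∧ f E = c • E := by
    let e : End k W := ψ.smulRight E + (ψ ∘ₗ D).smulRight (D F) + (ψ ∘ₗ D ∘ₗ D).smulRight F
    have he : ∀ u ∈ zpowers x, ∀ a, e (ρ u a) = ρ u (e a) := by
      intro u hu
      obtain ⟨i, rfl⟩ := mem_powers_iff_mem_zpowers.2 hu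
      induction i with
      | zero => simp
      | succ i ih =>
        intro a
        simp only [pow_succ', hmul, ← ih (pow_mem (mem_zpowers x) i)]
        simp [hxD, e, hDE, hF, hψ']; module
    have hT : ∀ g (q : G ⧸ zpowers x) a, ρ (g • q).out (e (ρ (g • q).out⁻¹ a)) =
        ρ g (ρ q.out (e (ρ q.out⁻¹ (ρ g⁻¹ a)))) := by
      intro g q a
      obtain ⟨u, hu, h⟩ := out_smul _ g q
      simp only [h, mul_inv_rev, hmul, he _ (inv_mem hu), hinv]
    have hfx : ∀ w, D w = 0 → (∑ q : G ⧸ zpowers x, ρ q.out * e * ρ q.out⁻¹) w =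
        ∑ q : G ⧸ zpowers x with x • q = q, ψ (ρ q.out⁻¹ w) • ρ q.out E := by
      intro w hw
      have hw' : ρ x w = w := by rw [hxD, hw, add_zero]
      rw [LinearMap.sum_apply, sum_eq_sum_fixed hp.out hxp]
      · refine sum_congr rfl fun q hq => ?_
        obtain ⟨a, a', h1, -⟩ := exists_pow_of_fixed hp.out hx (mem_filter.1 hq).2
        have : D (ρ q.out⁻¹ w) = 0 := by
          rw [hDd, LinearMap.sub_apply, ← hmul, show x * q.out⁻¹ = q.out⁻¹ * x ^ a by rw [← h1]; group, hmul,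
            hfix w hw']; simp
        simp [e, this]
      · intro q _
        have : ∀ i : ℕ, ρ (x ^ i)⁻¹ w = w := fun i => by
          conv_lhs => rw [← hfix w hw' i, ← hmul]
          simp
        simp only [End.mul_apply, hT, this, hN, hD, LinearMap.zero_apply]
    refine ⟨∑ q : G ⧸ zpowers x, ρ q.out * e * ρ q.out⁻¹, fun g a => ?_, fun w hw => ?_, ?_⟩
    · simp only [LinearMap.sum_apply, map_sum, End.mul_apply]
      rw [← Equiv.sum_comp (MulAction.toPerm g)]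
      refine sum_congr rfl fun q _ => ?_
      rw [MulAction.toPerm_apply, hT, ← hmul g⁻¹]; simp
    · have : ∑ q : G ⧸ zpowers x with x • q = q, ψ (ρ q.out⁻¹ w) • ρ q.out E ∈ Submodule.span k {E} :=
        Submodule.sum_mem _ fun q hq => by
          obtain ⟨a, a', h1, -⟩ := exists_pow_of_fixed hp.out hx (mem_filter.1 hq).2
          rw [hE _ _ h1]
          exact Submodule.smul_mem _ _ (Submodule.smul_mem _ _ (Submodule.mem_span_singleton_self E))
      rw [hfx w hw]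
      exact (Submodule.mem_span_singleton.1 this).imp fun _ h => h.symm
    · rw [hfx E hDE, hcd, ← nsmul_one, ← sum_const, sum_smul]
      refine sum_congr rfl fun q hq => ?_
      obtain ⟨a, a', -, h1⟩ := exists_pow_of_fixed hp.out hx (mem_filter.1 hq).2
      conv_rhs => rw [← hinv q.out E]
      rw [hE _ _ h1]; simp [hψ]
  -- the form
  obtain ⟨B, hB1, hB2, hB3⟩ : ∃ B : W →ₗ[k] W →ₗ[k] k, (∀ g a b, B (ρ g a) (ρ g b) = B a b) ∧ (∀ a b, B a b = B b a) ∧
      ∀ F', D (D F') = E → B E F' = 2 * c := by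
    let m : Dual k W → Dual k W → W →ₗ[k] W →ₗ[k] k := fun α β => (LinearMap.mul k k).compl₁₂ α β
    let B₀ : W →ₗ[k] W →ₗ[k] k := (2 : k) • (m ψ (ψ ∘ₗ D ∘ₗ D) + m (ψ ∘ₗ D ∘ₗ D) ψ - m (ψ ∘ₗ D) (ψ ∘ₗ D)) +
      m (ψ ∘ₗ D) (ψ ∘ₗ D ∘ₗ D) + m (ψ ∘ₗ D ∘ₗ D) (ψ ∘ₗ D)
    have hB₀ : ∀ a b, B₀ a b = 2 * (ψ a * ψ (D (D b)) + ψ (D (D a)) * ψ b - ψ (D a) * ψ (D b)) +
      ψ (D a) * ψ (D (D b)) + ψ (D (D a)) * ψ (D b) := fun a b => by simp [B₀, m]
    have he : ∀ u ∈ zpowers x, ∀ a b, B₀ (ρ u a) (ρ u b) = B₀ a b := by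
      intro u hu
      obtain ⟨i, rfl⟩ := mem_powers_iff_mem_zpowers.2 hu
      induction i with
      | zero => simp
      | succ i ih =>
        intro a b
        rw [← ih (pow_mem (mem_zpowers x) i) a b]
        simp only [pow_succ', hmul]
        rw [hB₀, hB₀]
        simp only [hxD, map_add, hψ']; ring
    have hT : ∀ g (q : G ⧸ zpowers x) a b, B₀ (ρ (g • q).out⁻¹ a) (ρ (g • q).out⁻¹ b) =
        B₀ (ρ q.out⁻¹ (ρ g⁻¹ a)) (ρ q.out⁻¹ (ρ g⁻¹ b)) := by
      intro g q a b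
      obtain ⟨u, hu, h⟩ := out_smul _ g q
      simp only [h, mul_inv_rev, hmul, he _ (inv_mem hu)]
    refine ⟨∑ q : G ⧸ zpowers x, B₀.compl₁₂ (ρ q.out⁻¹) (ρ q.out⁻¹), fun g a b => ?_, fun a b => ?_, fun F' hF' => ?_⟩
    · simp only [LinearMap.sum_apply, LinearMap.compl₁₂_apply]
      rw [← Equiv.sum_comp (MulAction.toPerm g)]
      refine sum_congr rfl fun q _ => ?_
      rw [MulAction.toPerm_apply, hT, ← hmul g⁻¹, ← hmul g⁻¹]; simp
    · simp only [LinearMap.sum_apply, LinearMap.compl₁₂_apply, hB₀]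
      exact sum_congr rfl fun q _ => by ring
    · simp only [LinearMap.sum_apply, LinearMap.compl₁₂_apply]
      rw [sum_eq_sum_fixed hp.out hxp, hcd, mul_comm, ← nsmul_eq_mul, ← sum_const]
      · refine sum_congr rfl fun q hq => ?_
        obtain ⟨a, a', h1, h1'⟩ := exists_pow_of_fixed hp.out hx (mem_filter.1 hq).2
        have h4 : ∀ b, D (ρ q.out⁻¹ b) = ρ q.out⁻¹ (∑ i ∈ range a, ρ (x ^ i) (D b)) := fun b => by
          rw [hDd, LinearMap.sub_apply, ← hmul, show x * q.out⁻¹ = q.out⁻¹ * x ^ a by rw [← h1]; group, hmul,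
            End.one_apply, ← map_sub, ← LinearMap.sum_apply, ← End.mul_apply (∑ _ ∈ _, _)]
          simp only [map_pow, geom_sum_mul]; rfl
        have h5 : ∀ i b, D (ρ (x ^ i) b) = ρ (x ^ i) (D b) := fun i b => by
          simp only [hDd, LinearMap.sub_apply, map_sub, ← hmul, End.one_apply, ← pow_succ, ← pow_succ']
        have h6 : (a : k) * a' = 1 := by
          have := hinv q.out E
          rw [hE _ _ h1', map_smul, hE _ _ h1, smul_smul, ← sub_eq_zero, ← one_smul k E, smul_smul, ← sub_smul,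
            smul_eq_zero_iff_left hE0] at this
          linear_combination this
        rw [hB₀, h4 F', h4, hE _ _ h1']
        simp only [map_sum, h5, hF', hfix E hxE, sum_const, card_range, map_smul, hDE, map_nsmul, hE _ _ h1', hψ,
          smul_zero, map_zero, smul_eq_mul, nsmul_eq_mul]
        linear_combination (2 * a * a' + 2) * h6
      · intro q _
        have : ∀ i : ℕ, ρ (x ^ i)⁻¹ E = E := fun i => by
          conv_lhs => rw [← hfix E hxE i, ← hmul]
          simp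
        simp only [hT, this]
        rw [← map_sum, ← map_sum, ← sum_range_reflect]
        have : ∑ i ∈ range p, ρ (x ^ (p - 1 - i))⁻¹ F' = ρ x (∑ i ∈ range p, ρ (x ^ i) F') := by
          rw [map_sum]
          refine sum_congr rfl fun i hi => ?_
          rw [← hmul, inv_eq_of_mul_eq_one_right (b := x * x ^ i) (by
            rw [← pow_succ', ← pow_add, show p - 1 - i + (i + 1) = p by have := mem_range.1 hi; omega, hxp])]
        rw [this, hN, hD]; simp
  -- Fitting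
  obtain ⟨N, hN1, hN2⟩ := ((Filter.eventually_ge_atTop 1).and f.eventually_isCompl_ker_pow_range_pow).exists
  have hfN : ∀ (n : ℕ) g a, (f ^ n) (ρ g a) = ρ g ((f ^ n) a) := fun n g a => by
    induction n with
    | zero => simp
    | succ n ih => rw [pow_succ', End.mul_apply, End.mul_apply, ih, hf1]
  have hfD : ∀ a, (f ^ N) (D a) = D ((f ^ N) a) := fun a => by simp [hDd, hfN]
  have hfE : ∀ n : ℕ, (f ^ n) E = c ^ n • E := fun n => by
    induction n with
    | zero => simp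
    | succ n ih => rw [pow_succ', End.mul_apply, ih, map_smul, hf3, smul_smul, pow_succ]
  set S := LinearMap.range (f ^ N) with hS
  have hSD : ∀ s ∈ S, D s ∈ S := by rintro _ ⟨a, rfl⟩; exact ⟨_, hfD a⟩
  have hSE : E ∈ S := ⟨(c ^ N)⁻¹ • E, by rw [map_smul, hfE, smul_smul, inv_mul_cancel₀ (pow_ne_zero _ hc), one_smul]⟩
  have hS1 : ∀ s ∈ S, D s = 0 → ∃ c' : k, s = c' • E := fun s hs h => by
    obtain ⟨c', h'⟩ := hf2 s h
    refine ⟨c' / c, sub_eq_zero.1 (Submodule.disjoint_def.1 hN2.disjoint _ ?_ (S.sub_mem hs (S.smul_mem _ hSE)))⟩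
    obtain ⟨n, rfl⟩ := Nat.exists_eq_add_of_le' hN1
    rw [LinearMap.mem_ker, pow_succ, End.mul_apply, map_sub, map_smul, h', hf3, smul_smul, div_mul_cancel₀ _ hc]
    simp
  obtain ⟨F', hF'S, hF'⟩ : ∃ F' ∈ S, D (D F') = E := ⟨(c ^ N)⁻¹ • (f ^ N) F, S.smul_mem _ ⟨_, rfl⟩, by
    rw [map_smul, map_smul, ← hfD, ← hfD, hF, hfE, smul_smul, inv_mul_cancel₀ (pow_ne_zero _ hc), one_smul]⟩
  have hS3 : ∀ s ∈ S, D (D (D s)) = 0 := by
    have key : ∀ n : ℕ, ∀ s ∈ S, (D ^ n) (D (D (D s))) = 0 → D (D (D s)) = 0 := by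
      intro n
      induction n with
      | zero => simp
      | succ n ih =>
        intro s hs h
        have h4 := ih (D s) (hSD s hs) h
        obtain ⟨c', h5⟩ := hS1 _ (hSD _ (hSD _ (hSD s hs))) h4
        by_contra h6
        have h7 : c' ≠ 0 := fun h => h6 (by rw [h5, h, zero_smul])
        exact hn (c'⁻¹ • s) (by simp [h5, smul_smul, h7])
    exact fun s hs => key (p - 1) s hs (by simp [hD])
  have hSsp : ∀ s ∈ S, ∃ a b c' : k, s = a • E + b • D F' + c' • F' := fun s hs => by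
    obtain ⟨c', h4⟩ := hS1 _ (hSD _ (hSD s hs)) (hS3 s hs)
    obtain ⟨b, h5⟩ := hS1 (D (s - c' • F')) (hSD _ (S.sub_mem hs (S.smul_mem _ hF'S))) (by simp [h4, hF'])
    obtain ⟨a, h6⟩ := hS1 (s - c' • F' - b • D F') (S.sub_mem (S.sub_mem hs (S.smul_mem _ hF'S))
      (S.smul_mem _ (hSD _ hF'S))) (by rw [map_sub, h5, map_smul, hF', sub_self])
    exact ⟨a, b, c', by rw [← h6]; abel⟩
  have g1 := hB3 F' hF'
  have g2 := hB1 x F' E
  have g3 := hB1 x (D F') E
  have g4 := hB1 x F' (D F')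
  have g5 := hB1 x F' F'
  simp only [hxD, hF', hDE, add_zero, map_add, LinearMap.add_apply] at g2 g3 g4 g5
  have g6 : B E (D F') = 0 := by rw [hB2]; linear_combination g2
  have g7 : B E E = 0 := by linear_combination g3
  have g8 : B (D F') (D F') = -(2 * c) := by linear_combination g4 - hB2 F' E - g1 - g2
  have g9 : B F' (D F') = c := mul_left_cancel₀ h2 (by linear_combination g5 - hB2 (D F') F' - g8)
  obtain ⟨φ, hφ⟩ := exists_pgl_of_form h2 ρ B hB1 hB2 (e₁ := E) (e₂ := D F' - (2 : k)⁻¹ • E)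
    (e₃ := (2 : k)⁻¹ • (F' - (B F' F' / (4 * c)) • E)) hc g7 (by simp [g6, g7])
    (by simp [hB2 (D F') F', hB2 (D F') E, g9, g1, g6, g7]; field_simp; simp)
    (by
      have h4 : (4 : k) ≠ 0 := by rw [show (4 : k) = 2 * 2 by norm_num]; exact mul_ne_zero h2 h2
      simp [hB2 F' E, g1, g7]; field_simp; ring_nf; simp) (by simp [g1, g7]; field_simp)
    (by simp [hB2 (D F') E, g8, g6, g7]) (fun g v hv => by
      have h4 : v ∈ S := Submodule.span_le.2 (by
        rintro _ (rfl | rfl | rfl)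
        exacts [hSE, S.sub_mem (hSD _ hF'S) (S.smul_mem _ hSE),
          S.smul_mem _ (S.sub_mem hF'S (S.smul_mem _ hSE))]) hv
      obtain ⟨a, b, c', h5⟩ := hSsp (ρ g v) (by obtain ⟨a, rfl⟩ := h4; exact ⟨_, hfN _ _ _⟩)
      refine Submodule.mem_span_triple.2 ⟨a + b * 2⁻¹ + c' * (B F' F' / (4 * c)), b, 2 * c', ?_⟩
      rw [h5]; match_scalars <;> field_simp <;> ring)
  refine ⟨φ, fun h => ?_, fun g h => (hφ g h).imp fun _ h => h.1⟩
  obtain ⟨c', h4, h5⟩ := hφ x h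
  rw [hxE, ← sub_eq_zero, ← one_smul k E, smul_smul, ← sub_smul, smul_eq_zero_iff_left hE0, mul_one, sub_eq_zero] at h4
  rw [← h4, one_smul, hxD, add_eq_left] at h5
  have h6 := congrArg D h5
  simp [hDE, hF', h2, hE0] at h6

end Cfsg.Agent.H7
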