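import Mathlib
import Cfsg.Agent.H7.Fe3
import Cfsg.Agent.H7.BR5
import Cfsg.Agent.H7.K1

/-! Feit: groups with a Sylow subgroup of order `p` acting with small minimal polynomial. -/

namespace Cfsg.Agent.H7

open Module Finset Cfsg.Agent.H4 Subgroup Polynomial MulAction
open scoped MatrixGroups

variable {G : Type*} [Group G] {p : ℕ}

theorem commute_of_aeval {k R : Type*} [Field k] [Ring R] [Algebra k R] {y t : R} {m : ℕ} (hy : y ^ m = 0)
    {ε : k[X]} (h : Commute t (aeval y (X * (1 + X * ε)))) : Commute t y := by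
  have key : ∀ j i, i + j = m → ∀ P : k[X], Commute t (aeval y (X ^ i * P)) := by
    intro j
    induction j with
    | zero => rintro i rfl P; simp [show y ^ i = 0 from hy]
    | succ j ih =>
      intro i hi P
      obtain ⟨Q, hQ⟩ : X ∣ P - C (P.coeff 0) * (1 + X * ε) ^ i := by
        rw [X_dvd_iff]; simp [coeff_zero_eq_eval_zero]
      have : X ^ i * P = X ^ (i + 1) * Q + C (P.coeff 0) * (X * (1 + X * ε)) ^ i := by
        rw [mul_pow]; linear_combination X ^ i * hQ
      rw [this, map_add, map_mul _ (C _), map_pow _ (X * _), aeval_C]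
      exact (ih _ (by omega) Q).add_right (Commute.mul_right (Algebra.commutes _ t).symm (h.pow_right i))
  simpa using key m 0 (zero_add m) X

theorem exists_log_poly (k : Type*) [Field k] [hp : Fact p.Prime] [CharP k p] (h2 : 2 < p) :
    ∃ ε : k[X], -∑ a : ZMod p, ZMod.castHom (dvd_refl p) k a⁻¹ • (X + 1 : k[X]) ^ a.val = X * (1 + X * ε) := by
  obtain ⟨ε, hε⟩ : (X : k[X]) ^ 2 ∣ -∑ a : ZMod p, ZMod.castHom (dvd_refl p) k a⁻¹ • (X + 1 : k[X]) ^ a.val - X := by
    rw [X_pow_dvd_iff]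
    intro d hd
    simp only [coeff_sub, coeff_neg, finsetSum_coeff, coeff_smul, coeff_X_add_one_pow, smul_eq_mul]
    interval_cases d
    · simp only [Nat.choose_zero_right, Nat.cast_one, mul_one, coeff_X_zero, sub_zero, neg_eq_zero]
      rw [← map_sum, show ∑ x : ZMod p, x⁻¹ = ∑ x, x from Equiv.sum_comp (Equiv.inv (ZMod p)) (fun a => a)]
      have := FiniteField.sum_pow_lt_card_sub_one (ZMod p) 1 (by rw [ZMod.card]; omega)
      simp only [pow_one] at this
      rw [this, map_zero]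
    · have : ∀ a : ZMod p, ZMod.castHom (dvd_refl p) k a⁻¹ * (a.val.choose 1 : ℕ) = 1 - if a = 0 then 1 else 0 := by
        intro a
        rw [Nat.choose_one_right, ← map_natCast (ZMod.castHom (dvd_refl p) k), ZMod.natCast_zmod_val, ← map_mul]
        split_ifs with h
        · simp [h]
        · simp [h]
      simp only [this]
      simp
  exact ⟨ε, by linear_combination hε⟩

theorem exists_pgl_of_matrix {k n : Type*} [Field k] [Fintype n] [DecidableEq n] [Finite G] [hp : Fact p.Prime]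
    [CharP k p] [IsAlgClosed k] {σ : G →* Matrix n n k} (hσ : Function.Injective σ) {x : G} {K : Subgroup G}
    (h : D1 p x K) (h3 : 3 < p) {m : ℕ} (hm : 2 * m ≤ p) (hy : (σ x - 1) ^ m = 0) :
    ∃ φ : G →* PGL(2, k), φ x ≠ 1 ∧ ∀ g, φ g = 1 → Commute x g := by
  let ρ : Representation k G (Matrix n n k) :=
    { toFun g := LinearMap.mulLeft k (σ g) * LinearMap.mulRight k (σ g⁻¹)
      map_one' := by ext1; simp
      map_mul' a b := by ext1; simp [mul_assoc] }
  have hρ : ∀ g a, ρ g a = σ g * a * σ g⁻¹ := fun g a => (mul_assoc _ _ _).symm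
  set y := σ x - 1 with hyd
  have hu : σ x = y + 1 := by simp [hyd]
  have hxp : x ^ p = 1 := h.ord ▸ pow_orderOf_eq_one x
  have hx1 : x ≠ 1 := fun e => hp.out.one_lt.ne' (by rw [← h.ord, e, orderOf_one])
  have hU : σ x * σ x⁻¹ = 1 := by rw [← map_mul]; simp
  have hU' : σ x⁻¹ * σ x = 1 := by rw [← map_mul]; simp
  have hyU : Commute y (σ x⁻¹) := Commute.sub_left (hU.trans hU'.symm) (Commute.one_left _)
  have hyu : Commute y (σ x) := Commute.sub_left rfl (Commute.one_left _)
  obtain ⟨ad, had0⟩ : ∃ ad : Matrix n n k → Matrix n n k, ∀ b, ad b = y * b - b * y := ⟨_, fun _ => rfl⟩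
  have hD : ∀ b, (ρ x - 1) b = ad b * σ x⁻¹ := fun b => by
    simp [had0, hρ, hyd, sub_mul, mul_sub, mul_assoc, hU]
  obtain ⟨ε, hε⟩ := exists_log_poly (p := p) k (by omega)
  have hyp : ∀ P : k[X], Commute y (aeval y P) := fun P => by
    simpa using (Commute.all X P).map (aeval y : k[X] →ₐ[k] _)
  set v := aeval y (1 + X * ε) with hv
  have hyv : Commute y v := hyp _
  have hE : -∑ a : ZMod p, ZMod.castHom (dvd_refl p) k a⁻¹ • σ (x ^ a.val) = y * v := by
    simpa [map_sum, ← hu, hv] using congrArg (aeval y) hε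
  have had : ∀ {c : Matrix n n k} (b : Matrix n n k), Commute y c → ad (c * b) = c * ad b := fun b h1 => by
    rw [had0, had0, ← mul_assoc y, h1.eq]; noncomm_ring
  have had' : ∀ {c : Matrix n n k} (b : Matrix n n k), Commute y c → ad (b * c) = ad b * c := fun b h1 => by
    rw [had0, had0, mul_assoc b, ← h1.eq]; noncomm_ring
  obtain ⟨a, w, ha, hw⟩ := exists_ad_two (p := p) (by omega : m < p) hy
  rw [← had0] at ha hw
  have hEg : ∀ (g : G) (b : ℕ), g * x * g⁻¹ = x ^ b → ρ g (y * v) = (b : k) • (y * v) := fun g b hb => by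
    have hb0 : (b : ZMod p) ≠ 0 := fun e => hx1 (by
      rw [h.pow_eq_one_iff.2 ((ZMod.natCast_eq_zero_iff b p).1 e)] at hb
      simpa using hb)
    rw [← hE, map_neg, map_sum, smul_neg, smul_sum]
    refine congrArg _ (Fintype.sum_equiv (Equiv.mulRight₀ (b : ZMod p) hb0) _ _ fun a => ?_)
    rw [map_smul, hρ, ← map_mul, ← map_mul, ← conj_pow, hb, ← pow_mul, smul_smul, Equiv.mulRight₀_apply]
    congr 1
    · rw [← map_natCast (ZMod.castHom (dvd_refl p) k), ← map_mul]; congr 1; field_simp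
    · rw [h.pow_eq_pow_iff.2]
      rw [← ZMod.natCast_eq_natCast_iff]; simp [mul_comm]
  obtain ⟨φ, h1, h2⟩ := exists_pgl_of_green ρ h.ord h.idx h3 (E := y * v) (F := v * (a * σ x * σ x)) (by
    have : ρ x - 1 = (LinearMap.mulLeft k y + LinearMap.mulRight k (-y)) * LinearMap.mulRight k (σ x⁻¹) := by
      ext1 b; rw [hD, had0]; simp [mul_assoc, hyU.eq, add_mul, sub_eq_add_neg]
    rw [this, Commute.mul_pow, Commute.add_pow_eq_zero_of_add_le_succ_of_pow_eq_zero (m := m) (n := m), zero_mul]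
    · exact LinearMap.commute_mulLeft_right _ _
    · rw [LinearMap.pow_mulLeft, hy]; simp
    · rw [LinearMap.pow_mulRight, neg_pow, hy]; simp
    · omega
    · ext1 b; simp [mul_assoc, hyU.eq, add_mul]) hEg (by
    simp only [hD, had _ hyv, had' _ hyu, had' _ hyU, ha, hw]
    rw [hyv.eq, mul_assoc v, mul_assoc _ (σ x) (σ x⁻¹), hU, mul_one, mul_assoc v, mul_assoc y, hU, mul_one])
    (fun b hb => by
    obtain ⟨v', hv'⟩ : IsUnit v := by
      rw [hv, map_add, map_one, map_mul, aeval_X]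
      exact IsNilpotent.isUnit_one_add (Commute.isNilpotent_mul_right (hyp ε) ⟨m, hy⟩)
    have hyv' : Commute y ↑v'⁻¹ := Commute.units_inv_right (hv' ▸ hyv)
    simp only [hD, had' _ hyU] at hb
    have := eq_zero_of_ad_three (k := k) (y := y) (a := v'⁻¹.val * (b * σ x⁻¹ * σ x⁻¹ * σ x⁻¹))
      rfl rfl (by
        simp only [← had0, had _ hyv', had' _ hyU, hb]
        rw [hyv.eq, ← hv', Units.inv_mul_cancel_left]) (m := m) (by omega) h3 hp.out hy
    exact hx1 (hσ (by rw [map_one, hu, this, zero_add])))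
  have hK : ¬ p ∣ Nat.card φ.ker := fun hd => h1 (h.mem_of_normal hd)
  refine ⟨φ, h1, fun g hg => ?_⟩
  obtain ⟨c, hc⟩ := h2 g hg
  have h4 : ρ (x * g * x⁻¹ * g⁻¹) (y * v) = y * v := by
    have e1 : ρ x (y * v) = y * v := by simpa using hEg x 1 (by simp)
    have e2 : ρ x⁻¹ (y * v) = y * v := by
      conv_lhs => rw [← e1, ← End.mul_apply, ← map_mul ρ, inv_mul_cancel, map_one, End.one_apply]
    have e3 : c • ρ g⁻¹ (y * v) = y * v := by
      rw [← map_smul, ← hc, ← End.mul_apply, ← map_mul ρ, inv_mul_cancel, map_one, End.one_apply]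
    by_cases hc0 : c = 0
    · rw [← e3, hc0]; simp
    · refine smul_right_injective _ hc0 ?_
      simp only [map_mul, End.mul_apply, ← map_smul, e3, e2, hc]
      rw [map_smul, e1]
  have h5 : Commute (x * g * x⁻¹ * g⁻¹) x := by
    refine hσ ?_
    have : Commute (σ (x * g * x⁻¹ * g⁻¹)) (aeval y (X * (1 + X * ε))) := by
      rw [map_mul (aeval y), aeval_X, ← hv, Commute, SemiconjBy]
      conv_rhs => rw [← h4, hρ, mul_assoc, ← map_mul, inv_mul_cancel, map_one, mul_one]
    rw [map_mul σ _ x, map_mul σ x, hu]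
    exact (commute_of_aeval hy this).add_right (.one_right _)
  have h6 : x * g * x⁻¹ * g⁻¹ ∈ φ.ker := by simp [MonoidHom.mem_ker, hg]
  have h7 : (x * g * x⁻¹ * g⁻¹) ^ p = 1 := by
    have := h5.symm.inv_left.mul_pow p
    rw [show x⁻¹ * (x * g * x⁻¹ * g⁻¹) = g * x⁻¹ * g⁻¹ by group, conj_pow, inv_pow, hxp] at this
    simpa using this.symm
  have h8 : x * g * x⁻¹ * g⁻¹ = 1 := by
    by_contra e
    exact hK (orderOf_eq_prime h7 e ▸ orderOf_dvd_natCard _ h6)
  exact commutatorElement_eq_one_iff_commute.1 h8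

end Cfsg.Agent.H7
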