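import Mathlib
import Cfsg.Agent.H7.Fe4

/-! Brauer's theorems on faithful characters of degree at most `(p - 1)/2`. -/

namespace Cfsg.Agent.H7

open Finset Cfsg.Agent.H4 Cfsg.Agent.H3 Subgroup MulAction
open scoped MatrixGroups

variable {G : Type*} [Group G] {p : ℕ} [hp : Fact p.Prime] {x : G} {K : Subgroup G}

theorem D1.mem_of_commute [Finite G] (h : D1 p x K) {z : G} (hz : Commute x z) (h1 : z ^ p = 1) : z ∈ zpowers x := by
  obtain ⟨j, y, hy, rfl⟩ := h.decomp z hz
  rw [((h.comm hy).pow_left j).mul_pow, ← pow_mul, h.pow_eq_one_iff.2 (dvd_mul_left _ _), one_mul] at h1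
  obtain rfl : y = 1 := by_contra fun e => ((h.mem y).1 hy).2 (orderOf_eq_prime h1 e).symm.dvd
  simpa using pow_mem (mem_zpowers x) j

omit hp in
theorem num_pgl {n e : ℕ} (h3 : 3 < p) (he : e ∣ p - 1) :
    ((n * p + 1) * e = (p + 1) * (p - 1) → e = p - 1) ∧
      (2 * ((n * p + 1) * e) = (p + 1) * (p - 1) → 2 * e = p - 1 ∧ n = 1) := by
  obtain ⟨q, rfl⟩ := Nat.exists_eq_add_of_le' (show 1 ≤ p by omega)
  simp only [Nat.add_sub_cancel] at he ⊢
  have h1 := Nat.le_of_dvd (by omega) he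
  refine ⟨fun h => ?_, fun h => ?_⟩
  · obtain ⟨c, hc⟩ : q + 1 ∣ e + 1 := (Nat.dvd_add_right (⟨n * e, by ring⟩ : q + 1 ∣ n * (q + 1) * e)).1
      ⟨q + 1, by linarith⟩
    rcases c with _ | _ | c <;> nlinarith
  · obtain ⟨c, hc⟩ : q + 1 ∣ 2 * e + 1 := (Nat.dvd_add_right (⟨2 * n * e, by ring⟩ : q + 1 ∣ 2 * n * (q + 1) * e)).1
      ⟨q + 1, by linarith⟩
    have h2 : 2 * e = q := by
      rcases c with _ | _ | _ | c
      · omega
      · omega
      · omega
      · nlinarith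
    refine ⟨h2, ?_⟩
    have h4 : (n * (q + 1) + 1) * q = (q + 1 + 1) * q := by rw [← h]; nth_rw 2 [← h2]; ring
    have h5 := Nat.eq_of_mul_eq_mul_right (by omega) h4
    exact Nat.eq_of_mul_eq_mul_right (show 0 < q + 1 by omega) (by omega)

theorem D1.card_G' [Finite G] (h : D1 p x K) :
    Nat.card G = Nat.card (Sylow p G) * Nat.card (Eg h) * (p * Nat.card K) := by
  rw [← h.card_cent, h.card_Eg, ← centralizer_closure {x}, ← zpowers_eq_closure, mul_assoc, h.syl.card_eq_index_normalizer,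
    show (h.syl : Set G) = zpowers x from rfl, relIndex, ← Nat.card_congr (subgroupOfEquivOfLe (centralizer_le_normalizer _)).toEquiv, index_mul_card, index_mul_card]

theorem D1.of_pgl [Finite G] {k : Type*} [Field k] [IsAlgClosed k] [CharP k p] (h : D1 p x K) (h3 : 3 < p)
    (hn : ¬ (zpowers x).Normal) {φ : G →* PGL(2, k)} (h1 : φ x ≠ 1) (h2 : ∀ g, φ g = 1 → Commute x g) :
    Nat.card (Eg h) = p - 1 ∨ (2 * Nat.card (Eg h) = p - 1 ∧ ∃ _ : K.Normal,
      (∀ M : Subgroup G, M.Normal → x ∈ M → M ⊔ K = ⊤) ∧ Nonempty (G ⧸ K ≃* PSL(2, ZMod p))) := by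
  classical
  have D := dact_closed (K := k) p
  have hxp : φ x ^ p = 1 := by rw [← map_pow, h.pow_eq_one_iff.2 dvd_rfl, map_one]
  obtain ⟨a, ha⟩ := D.fix (φ x)
  have hK : φ.ker = K := by
    have hK : ¬ p ∣ Nat.card φ.ker := fun hd => h1 (h.mem_of_normal hd)
    ext y
    rw [h.mem]
    refine ⟨fun hy => ⟨h2 y hy, fun e => hK (e.trans (orderOf_dvd_natCard _ hy))⟩, fun ⟨e1, e2⟩ => by_contra fun e => ?_⟩
    exact e2 ((D.orderOf_U (D.mem_U_of_comm h1 ⟨ha, hxp⟩ (e1.map φ).symm.eq) e).symm.dvd.trans (orderOf_map_dvd φ y))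
  have hU : ∀ M : Subgroup G, x ∈ M → D.Up (M.map φ) a = zpowers (φ x) := fun M hM => by
    refine le_antisymm ?_ (zpowers_le.2 ⟨mem_map_of_mem φ hM, ha, hxp⟩)
    rintro _ ⟨⟨g, -, rfl⟩, hg⟩
    obtain ⟨j, y, hy, rfl⟩ : ∃ j : ℕ, ∃ y ∈ K, g = x ^ j * y := by
      have h4 : φ (g * x * g⁻¹ * x⁻¹) = 1 := by
        simp [D.ucomm hg.1 hg.2 ha hxp]
      have h5 := h.mem_of_commute (z := g * x * g⁻¹) (by simpa using (h2 _ h4).mul_right (.refl x))
        (by rw [conj_pow, h.pow_eq_one_iff.2 dvd_rfl]; simp)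
      have h6 : g * x * g⁻¹ * x⁻¹ = 1 := by_contra fun e => ((h.mem _).1 (hK.le h4)).2 (by
        have := Subgroup.orderOf_dvd_natCard _ (mul_mem h5 (inv_mem (Subgroup.mem_zpowers x)))
        rw [Nat.card_zpowers, h.ord] at this
        exact ((Nat.dvd_prime hp.out).1 this).elim (fun e' => absurd (orderOf_eq_one_iff.1 e') e) fun e' => e'.symm.dvd)
      exact h.decomp g (commutatorElement_eq_one_iff_commute.1 h6).symm
    rw [map_mul, show φ y = 1 from hK.ge hy, mul_one, map_pow]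
    exact pow_mem (Subgroup.mem_zpowers _) _
  have hc : ∀ M : Subgroup G, M.Normal → x ∈ M → Nat.card (M.map φ) = p * ((p + 1) * (p - 1)) ∨
      2 * Nat.card (M.map φ) = p * ((p + 1) * (p - 1)) := fun M hM hx => by
    have : Finite (M.map φ) := Finite.of_surjective _ (φ.subgroupMap_surjective M)
    obtain ⟨z, hz⟩ := D.pcase (H := M.map φ) (x := a) (by rw [hU M hx]; simpa) fun e => hn ⟨fun u hu g => by
      obtain ⟨i, rfl⟩ := mem_zpowers_iff.1 hu
      rw [← conj_zpow]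
      refine zpow_mem ?_ i
      have h4 : (g * x * g⁻¹) ^ p = 1 := by rw [conj_pow, h.pow_eq_one_iff.2 dvd_rfl]; simp
      obtain ⟨j, hj⟩ := mem_zpowers_iff.1 ((hU M hx).le ⟨mem_map_of_mem φ (hM.conj_mem x hx g),
        e _ (mem_map_of_mem φ (hM.conj_mem x hx g)), by rw [← map_pow, h4, map_one]⟩)
      have h5 := h2 ((x ^ j)⁻¹ * (g * x * g⁻¹)) (by rw [map_mul, map_inv, map_zpow, hj, inv_mul_cancel])
      exact h.mem_of_commute (by simpa using ((Commute.refl x).zpow_right j).mul_right h5) h4⟩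
    have h4 := hz.num
    have h5 := orb_mul (M.map φ) a
    rw [hU M hx, Nat.card_zpowers, orderOf_eq_prime hxp h1] at h4
    rcases h4 with h4 | ⟨-, h4, h6, -⟩ | ⟨-, h4, h6, -⟩ | h4
    · omega
    · left; rw [← h5, h4, h6]; ring
    · right; rw [← h5, h4, mul_left_comm, h6]; ring
    · omega
  obtain ⟨n, hn'⟩ := exists_card_sylow p G
  have h4 : Nat.card ((⊤ : Subgroup G).map φ) = p * ((n * p + 1) * Nat.card (Eg h)) := by
    have := card_eq_card_quotient_mul_card_subgroup φ.ker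
    rw [Nat.card_congr (QuotientGroup.quotientKerEquivRange φ).toEquiv, hK, h.card_G', hn'] at this
    rw [← MonoidHom.range_eq_map]
    exact Nat.eq_of_mul_eq_mul_right (Nat.card_pos (α := K)) (by rw [← this]; ring)
  have := Fintype.ofFinite K
  have h5 := num_pgl (n := n) h3 (card_Eg_dvd h)
  rcases hc ⊤ inferInstance trivial with h6 | h6
  · exact Or.inl (h5.1 (Nat.eq_of_mul_eq_mul_left hp.out.pos (h4.symm.trans h6)))
  right
  have : Finite ((⊤ : Subgroup G).map φ) := Finite.of_surjective _ (φ.subgroupMap_surjective ⊤)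
  have h7 : ∀ M : Subgroup G, M.Normal → x ∈ M → M ⊔ φ.ker = ⊤ := fun M hM hx => by
    rw [← comap_map_eq, eq_of_le_of_card_ge (map_mono (le_top (a := M))) (by have := hc M hM hx; omega),
      comap_map_eq, top_sup_eq]
  have h8 := (h5.2 (Nat.eq_of_mul_eq_mul_left hp.out.pos (by rw [← h6, h4]; ring))).1
  subst hK
  refine ⟨h8, inferInstance, h7, ?_⟩
  have h9 := hU ⊤ trivial
  rw [← MonoidHom.range_eq_map] at h6 h9
  have : Finite φ.range := Finite.of_surjective _ φ.rangeRestrict_surjective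
  have ho : orderOf (φ.rangeRestrict x) = p := by
    rw [← orderOf_coe]; exact orderOf_eq_prime hxp h1
  obtain ⟨K', h', hK'⟩ := exists_D1_one ho (le_antisymm (fun g hg => by
    obtain ⟨j, hj⟩ := mem_zpowers_iff.1 (h9.le ⟨g.2, D.mem_U_of_comm h1 ⟨ha, hxp⟩
      (congrArg Subtype.val (mem_centralizer_singleton_iff.1 hg))⟩)
    exact ⟨j, Subtype.ext hj⟩) (zpowers_le.2 (mem_centralizer_singleton_iff.2 rfl)))
  obtain ⟨n', hn''⟩ := exists_card_sylow p φ.range
  have := Fintype.ofFinite K'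
  have h10 := (num_pgl (n := n') h3 (card_Eg_dvd h')).2 (Nat.eq_of_mul_eq_mul_left hp.out.pos (by
    rw [← h6, h'.card_G hK', hn'']; ring))
  obtain ⟨e⟩ := h'.psl hK' (by
    have := congrArg (map φ.rangeRestrict) (h7 _ inferInstance (h.mem_commutator (by omega)))
    rwa [Subgroup.map_sup, (Subgroup.map_eq_bot_iff φ.ker).2 (by simp), sup_bot_eq, map_top_of_surjective _
      φ.rangeRestrict_surjective, _root_.commutator_def, Subgroup.map_commutator, map_top_of_surjective _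
      φ.rangeRestrict_surjective] at this) (by rw [hn'', h10.2, one_mul]) h10.1 (ZMod p) (ZMod.card p)
  exact ⟨(QuotientGroup.quotientKerEquivRange φ).trans e⟩

theorem D1.of_char [Finite G] (h : D1 p x K) (h3 : 3 < p) (hn : ∀ H : Subgroup G, H.Normal → Nat.card H ≠ p)
    {χ : G → ℂ} (hχ : IsCharacter G χ) (hf : ∀ g, χ g = χ 1 → g = 1) (hd : 2 * charDegree χ ≤ p) :
    Nat.card (Eg h) = p - 1 ∨ (2 * Nat.card (Eg h) = p - 1 ∧ ∃ _ : K.Normal,
      (∀ M : Subgroup G, M.Normal → x ∈ M → M ⊔ K = ⊤) ∧ Nonempty (G ⧸ K ≃* PSL(2, ZMod p))) := by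
  obtain ⟨d, ρ, rfl⟩ := hχ
  obtain ⟨k, _, _, _, r, σ, hr, hσ⟩ := exists_reduction p ρ
  have hd' : charDegree ρ.character = d := by simp [charDegree]
  have hi : Function.Injective σ := by
    rw [← MonoidHom.ker_eq_bot_iff]
    have h1 : IsPGroup p σ.ker := fun g => ⟨(orderOf g.1).factorization p, Subtype.ext (hf _ (by
      simp only [Representation.character, SubmonoidClass.coe_pow]
      rw [hσ _ (pow_mem g.2 _), map_one ρ]
      rw [orderOf_pow_of_dvd (pow_ne_zero _ hp.out.ne_zero) (Nat.ordProj_dvd _ _)]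
      exact Nat.not_dvd_ordCompl hp.out (orderOf_pos _).ne'))⟩
    obtain ⟨i, hi⟩ := h1.exists_card_eq
    rcases i with _ | _ | i
    · exact card_eq_one.1 hi
    · exact absurd (hi.trans (pow_one p)) (hn _ inferInstance)
    · refine absurd (Nat.dvd_of_mul_dvd_mul_left hp.out.pos ?_) h.idx
      rw [← h.card_eq]
      exact (show p * p ∣ _ from ⟨p ^ i, by rw [hi]; ring⟩).trans (card_subgroup_dvd_card _)
  have h1 : (σ x - 1) ^ r = 0 := by
    have h1 : IsNilpotent (σ x - 1) := ⟨p, by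
      rw [show p = p - 1 + 1 by omega, pow_succ, ← geom_sum_char (k := k), geom_sum_mul, ← map_pow,
        h.pow_eq_one_iff.2 dvd_rfl, map_one, sub_self]⟩
    have := Matrix.aeval_self_charpoly (σ x - 1)
    rw [sub_eq_zero.1 (Matrix.isNilpotent_charpoly_sub_pow_of_isNilpotent h1).eq_zero] at this
    simpa using this
  obtain ⟨φ, h2, h4⟩ := exists_pgl_of_matrix hi h h3 (by omega) h1
  exact h.of_pgl h3 (fun e => hn _ e (by rw [Nat.card_zpowers, h.ord])) h2 h4

theorem D1.exists_mult [Finite G] (h : D1 p x K) {χ : G → ℂ} (hχ : IsCharacter G χ) (hf : χ x ≠ χ 1) :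
    ∃ j : (ZMod p)ˣ, charDegree (iso K x χ (j : ZMod p)) ≠ 0 ∧ ∀ i : (ZMod p)ˣ, charDegree (iso K x χ (0 : ZMod p)) +
      Nat.card (Eg h) * charDegree (iso K x χ (i : ZMod p)) ≤ charDegree χ := by
  classical
  have h1 : ∀ j : ZMod p, (charDegree (iso K x χ j) : ℂ) = four (fun a => χ (xp x a)) j := fun j => by
    rw [(h.isCharacter_iso hχ j).cast_charDegree]; simp [iso]
  have h2 : charDegree χ = charDegree (iso K x χ (0 : ZMod p)) + ∑ u : (ZMod p)ˣ, charDegree (iso K x χ (u : ZMod p)) := by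
    have := four_inv (fun a : ZMod p => χ (xp x a)) 0
    rw [xp_zero, ← hχ.cast_charDegree, sum_units] at this
    simp only [mul_zero, AddChar.map_zero_eq_one, mul_one, ← h1] at this
    exact_mod_cast this
  have h3 : ∀ i : (ZMod p)ˣ, ∀ u ∈ Eg h, charDegree (iso K x χ ((i * u : (ZMod p)ˣ) : ZMod p)) =
      charDegree (iso K x χ (i : ZMod p)) := fun i u hu => by
    refine Nat.cast_injective (R := ℂ) ?_
    obtain ⟨g, hg⟩ := isConj_iff.1 hu
    rw [h1, h1, Units.val_mul, ← four_mul_unit _ u i]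
    congr 1; funext a
    rw [mul_comm, ← h.conj_xp (a := 1) (by rw [h.xp_one]; exact hg) a, one_mul, hχ.isClassFunction]
  obtain ⟨j, hj⟩ : ∃ j : (ZMod p)ˣ, charDegree (iso K x χ (j : ZMod p)) ≠ 0 := by
    by_contra! e
    have := four_inv (fun a : ZMod p => χ (xp x a)) 1
    rw [h.xp_one, sum_units] at this
    simp only [← h1, e] at this
    simp only [e] at h2
    exact hf (by rw [this, ← hχ.cast_charDegree, h2]; simp)
  refine ⟨j, hj, fun i => ?_⟩
  rw [h2, add_le_add_iff_left, ← Equiv.sum_comp (Equiv.mulLeft i), ← card_filter_Eg, ← smul_eq_mul, ← sum_const]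
  refine (sum_congr rfl fun u hu => (h3 i u (mem_filter.1 hu).2).symm).trans_le
    (sum_le_sum_of_subset (filter_subset _ _))

theorem exists_D1_of_dvd [Finite G] (h1 : p ∣ Nat.card G) (h2 : ¬ p ^ 2 ∣ Nat.card G) :
    ∃ (x : G) (K : Subgroup G), D1 p x K := by
  obtain ⟨x, hx⟩ := exists_prime_orderOf_dvd_card' p h1
  refine ⟨x, exists_D1 hp.out hx fun e => h2 ?_⟩
  rw [← card_mul_index (zpowers x), Nat.card_zpowers, hx, sq]
  exact mul_dvd_mul_left _ e

end Cfsg.Agent.H7
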