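import Mathlib
import Cfsg.Agent.H7.MultiTrans
import Cfsg.Agent.H7.PD
import Cfsg.Agent.H7.Normal
import Cfsg.Agent.S4300

/-! Jordan's theorem on sharply multiply transitive groups. -/

namespace Cfsg.Agent.H7
open MulAction Function Finset

variable {G α : Type*} [Group G] [MulAction G α]

/-- sharply `k`-transitive -/
structure ST (G α : Type*) [Group G] [MulAction G α] (k : ℕ) : Prop where
  mt : IsMultiplyPretransitive G α k
  sharp : ∀ x : Fin k ↪ α, stabilizer G x = ⊥

namespace ST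
variable {k : ℕ}

theorem card [Finite α] (h : ST G α k) (hk : k ≤ Nat.card α) :
    Nat.card G = (Nat.card α).descFactorial k := by
  classical
  letI := Fintype.ofFinite α
  haveI : IsPretransitive G (Fin k ↪ α) := h.mt
  obtain ⟨x⟩ : Nonempty (Fin k ↪ α) := Embedding.nonempty_of_card_le (by
    rwa [Fintype.card_fin, ← Nat.card_eq_fintype_card])
  rw [card_eq_of_regular (h.sharp x), Nat.card_eq_fintype_card, Fintype.card_embedding_eq,
    Fintype.card_fin, Nat.card_eq_fintype_card]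

theorem finite [Finite α] (h : ST G α k) (hk : k ≤ Nat.card α) : Finite G :=
  Nat.finite_of_card_ne_zero (by rw [h.card hk]; exact (Nat.descFactorial_pos.2 hk).ne')

theorem faithful [Finite α] (h : ST G α k) (hk : k ≤ Nat.card α) : FaithfulSMul G α := by
  letI := Fintype.ofFinite α
  obtain ⟨x⟩ : Nonempty (Fin k ↪ α) := Embedding.nonempty_of_card_le (by
    rwa [Fintype.card_fin, ← Nat.card_eq_fintype_card])
  exact ⟨fun {g g'} e => inv_mul_eq_one.1 (sharp_fun h.sharp x x.injective _ fun i => by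
    rw [mul_smul, ← e, inv_smul_smul])⟩

theorem trans [Finite α] (h : ST G α (k + 1)) (hk : k + 1 ≤ Nat.card α) : IsPretransitive G α :=
  is_one_pretransitive_iff.1 (mt_le h.mt hk (by omega))

theorem stab [Finite α] (h : ST G α (k + 1)) (hk : k + 1 ≤ Nat.card α) (a : α) :
    ST (stabilizer G a) (SubMulAction.ofStabilizer G a) k := by
  haveI := h.trans hk
  refine ⟨SubMulAction.ofStabilizer.isMultiplyPretransitive.1 h.mt, sharp_of_fun fun x hx g hg => ?_⟩
  refine Subtype.ext (sharp_fun h.sharp (Fin.cons a fun i => (x i : α)) ?_ g fun i => ?_)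
  · refine Fin.cons_injective_iff.2 ⟨?_, Subtype.val_injective.comp hx⟩
    rintro ⟨i, hi⟩
    exact (x i).2 hi
  · refine Fin.cases g.2 (fun i => ?_) i
    exact congrArg Subtype.val (hg i)

theorem eq4 (h : ST G α 4) {a b c d : α} (hab : a ≠ b) (hac : a ≠ c) (had : a ≠ d) (hbc : b ≠ c)
    (hbd : b ≠ d) (hcd : c ≠ d) {g g' : G} (ha : g • a = g' • a) (hb : g • b = g' • b)
    (hc : g • c = g' • c) (hd : g • d = g' • d) : g = g' :=
  (inv_mul_eq_one.1 (sharp_four h.sharp hab hac had hbc hbd hcd (by rw [mul_smul, ha, inv_smul_smul])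
    (by rw [mul_smul, hb, inv_smul_smul]) (by rw [mul_smul, hc, inv_smul_smul])
    (by rw [mul_smul, hd, inv_smul_smul]))).symm

variable [Fintype α] [DecidableEq α]

theorem fix_le (h : ST G α 4) {g : G} (hg : g ≠ 1) : #{x : α | g • x = x} ≤ 3 := by
  by_contra e
  obtain ⟨s, hs, hc⟩ := exists_subset_card_eq (show 4 ≤ #{x : α | g • x = x} by omega)
  exact hg (sharp_finset h.sharp s hc g fun x hx => (mem_filter.1 (hs hx)).2)

theorem exists_moved (h : ST G α 4) (hn : 7 ≤ Fintype.card α) {u : G} (h1 : u ≠ 1) (h2 : u * u = 1) :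
    ∃ i j : α, i ≠ u • i ∧ i ≠ j ∧ i ≠ u • j ∧ u • i ≠ j ∧ u • i ≠ u • j ∧ j ≠ u • j := by
  have h3 := h.fix_le h1
  have h4 := card_filter_add_card_filter_not (s := univ) (fun x : α => u • x = x)
  rw [card_univ] at h4
  obtain ⟨i, hi⟩ := card_pos.1 (show 0 < #{x : α | ¬ u • x = x} by omega)
  obtain ⟨j, hj, hj'⟩ := exists_mem_notMem_of_card_lt_card (s := {i, u • i})
    (t := {x : α | ¬ u • x = x}) (card_le_two.trans_lt (by omega))
  simp only [mem_insert, mem_singleton, not_or, mem_filter, mem_univ, true_and] at hi hj hj'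
  refine ⟨i, j, Ne.symm hi, Ne.symm hj'.1, fun e => hj'.2 ?_, Ne.symm hj'.2,
    fun e => hj'.1 (smul_left_cancel u e).symm, Ne.symm hj⟩
  rw [e, smul_smul, h2, one_smul]

theorem fix_eq (h : ST G α 4) (hn : 7 ≤ Fintype.card α) {u v : G} (h1 : u ≠ 1) (h2 : u * u = 1)
    (h3 : v ≠ 1) (h4 : v * v = 1) : #{x : α | u • x = x} = #{x : α | v • x = x} := by
  obtain ⟨i, j, a1, a2, a3, a4, a5, a6⟩ := h.exists_moved hn h1 h2
  obtain ⟨i', j', b1, b2, b3, b4, b5, b6⟩ := h.exists_moved hn h3 h4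
  obtain ⟨g, c1, c2, c3, c4⟩ := mt_four h.mt a1 a2 a3 a4 a5 a6 b1 b2 b3 b4 b5 b6
  have e : g * u = v * g := h.eq4 a1 a2 a3 a4 a5 a6 (by rw [mul_smul, mul_smul, c1, c2])
    (by rw [mul_smul, mul_smul, c2, smul_smul u, smul_smul v, h2, h4, one_smul, one_smul, c1])
    (by rw [mul_smul, mul_smul, c3, c4])
    (by rw [mul_smul, mul_smul, c4, smul_smul u, smul_smul v, h2, h4, one_smul, one_smul, c3])
  refine card_bij (fun x _ => g • x) (fun x hx => ?_) (fun x _ y _ e => smul_left_cancel g e)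
    fun y hy => ⟨g⁻¹ • y, ?_, smul_inv_smul g y⟩
  · simp only [mem_filter, mem_univ, true_and] at hx ⊢
    rw [smul_smul, ← e, mul_smul, hx]
  · simp only [mem_filter, mem_univ, true_and] at hy ⊢
    rw [eq_inv_smul_iff, smul_smul, smul_smul, e, mul_inv_cancel_right, hy]

theorem key (h : ST G α 4) (hn : 7 ≤ Fintype.card α) {p q : α} (hpq : p ≠ q) {a c : G}
    (ap : a • p = q) (aq : a • q = p) (a2 : a * a = 1) (cp : c • p = p) (cq : c • q = q) (c1 : c ≠ 1)
    (c2 : c * c = 1) (ac : a * c = c * a) :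
    #{x ∈ ({x : α | a • x = x} : Finset α) | ¬ c • x = x} = 2 ∧
      #{x ∈ ({x : α | ¬ a • x = x ∧ x ≠ p ∧ x ≠ q} : Finset α) | c • x = a • x} = 2 := by
  have a1 : a ≠ 1 := by rintro rfl; exact hpq (by rw [← ap, one_smul])
  have aa : ∀ x : α, a • a • x = x := fun x => by rw [smul_smul, a2, one_smul]
  have e1 := h.fix_eq hn c1 c2 a1 a2
  have e2 := h.fix_eq hn (u := a * c) (by
    intro e; exact hpq (by rw [← ap, ← cp, smul_smul, e, one_smul, cp])) (by
    rw [mul_assoc, ← mul_assoc c, ← ac, mul_assoc, c2, mul_one, a2]) a1 a2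
  have e3 := card_filter_add_card_filter_not (s := ({x : α | a • x = x} : Finset α))
    (fun x : α => c • x = x)
  have e4 : ({x : α | c • x = x} : Finset α) =
      insert p (insert q {x ∈ ({x : α | a • x = x} : Finset α) | c • x = x}) := by
    ext x
    simp only [mem_insert, mem_filter, mem_univ, true_and]
    refine ⟨fun hx => ?_, by rintro (rfl | rfl | ⟨-, a⟩) <;> assumption⟩
    by_contra e
    simp only [not_or, not_and, hx, not_true, imp_false] at e
    refine c1 (sharp_four h.sharp hpq (Ne.symm e.1) (fun b => e.2.1 ?_) (Ne.symm e.2.1)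
      (fun b => e.1 ?_) (Ne.symm e.2.2) cp cq hx (by rw [smul_smul, ← ac, mul_smul, hx]))
    · rw [← ap, b, aa]
    · rw [← aq, b, aa]
  have e5 : ({x : α | (a * c) • x = x} : Finset α) = {x ∈ ({x : α | a • x = x} : Finset α) | c • x = x} ∪
      {x ∈ ({x : α | ¬ a • x = x ∧ x ≠ p ∧ x ≠ q} : Finset α) | c • x = a • x} := by
    ext x
    simp only [mem_union, mem_filter, mem_univ, true_and, mul_smul]
    constructor
    · intro hx
      have : c • x = a • x := by rw [← hx, aa, hx]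
      by_cases b : a • x = x
      · exact Or.inl ⟨b, this.trans b⟩
      · refine Or.inr ⟨⟨b, ?_, ?_⟩, this⟩ <;> rintro rfl
        · exact hpq (by rw [← ap, ← this, cp])
        · exact hpq (by rw [← aq, ← this, cq])
    · rintro (⟨b1, b2⟩ | ⟨-, b⟩)
      · rw [b2, b1]
      · rw [b, aa]
  rw [e4, card_insert_of_notMem (by simp [hpq, ap, hpq.symm]),
    card_insert_of_notMem (by simp [aq, hpq])] at e1
  rw [e5, card_union_of_disjoint (disjoint_left.2 fun x h1 h2 => by simp_all)] at e2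
  omega

theorem jordan (h : ST G α 4) (hn : 7 ≤ Fintype.card α) : Fintype.card α = 11 := by
  obtain ⟨e⟩ : Nonempty (Fin 4 ↪ α) := Embedding.nonempty_of_card_le (by rw [Fintype.card_fin]; omega)
  have n : ∀ i j : Fin 4, i ≠ j → e i ≠ e j := fun i j a => e.injective.ne a
  have hpq : e 0 ≠ e 1 := n _ _ (by decide)
  obtain ⟨a, ap, aq, ar, as⟩ := mt_four h.mt (n 0 1 (by decide)) (n 0 2 (by decide)) (n 0 3 (by decide))
    (n 1 2 (by decide)) (n 1 3 (by decide)) (n 2 3 (by decide)) (n 1 0 (by decide)) (n 1 2 (by decide))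
    (n 1 3 (by decide)) (n 0 2 (by decide)) (n 0 3 (by decide)) (n 2 3 (by decide))
  have a2 : a * a = 1 := sharp_four h.sharp (n 0 1 (by decide)) (n 0 2 (by decide)) (n 0 3 (by decide))
    (n 1 2 (by decide)) (n 1 3 (by decide)) (n 2 3 (by decide)) (by rw [mul_smul, ap, aq])
    (by rw [mul_smul, aq, ap]) (by rw [mul_smul, ar, ar]) (by rw [mul_smul, as, as])
  have aa : ∀ x : α, a • a • x = x := fun x => by rw [smul_smul, a2, one_smul]
  have a1 : a ≠ 1 := by rintro rfl; exact hpq (by rw [← ap, one_smul])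
  have f2 : 2 ≤ #{x : α | a • x = x} := one_lt_card.2 ⟨e 2, by simpa, e 3, by simpa, n _ _ (by decide)⟩
  have f3 := h.fix_le a1
  generalize e 0 = p at *
  generalize e 1 = q at *
  -- the involution fixing `p, q` and swapping an `a`-invariant pair
  have ex : ∀ x y : α, x ≠ y → x ≠ p → x ≠ q → y ≠ p → y ≠ q → (a • x = x ∧ a • y = y ∨ a • x = y) →
      ∃ c : G, c • p = p ∧ c • q = q ∧ c • x = y ∧ c • y = x ∧ c ≠ 1 ∧ c * c = 1 ∧ a * c = c * a ∧
        ∀ c' : G, c' • p = p → c' • q = q → c' • x = y → c' • y = x → c' = c := by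
    intro x y h1 h2 h3 h4 h5 h6
    obtain ⟨c, cp, cq, cx, cy⟩ := mt_four h.mt hpq h2.symm h4.symm h3.symm h5.symm h1
      hpq h4.symm h2.symm h5.symm h3.symm h1.symm
    refine ⟨c, cp, cq, cx, cy, by rintro rfl; exact h1 (by rw [← cx, one_smul]),
      sharp_four h.sharp hpq h2.symm h4.symm h3.symm h5.symm h1 (by rw [mul_smul, cp, cp])
        (by rw [mul_smul, cq, cq]) (by rw [mul_smul, cx, cy]) (by rw [mul_smul, cy, cx]),
      h.eq4 hpq h2.symm h4.symm h3.symm h5.symm h1 (by rw [mul_smul, mul_smul, cp, ap, cq])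
        (by rw [mul_smul, mul_smul, cq, aq, cp]) ?_ ?_, fun c' b1 b2 b3 b4 =>
      h.eq4 hpq h2.symm h4.symm h3.symm h5.symm h1 (by rw [b1, cp]) (by rw [b2, cq])
        (by rw [b3, cx]) (by rw [b4, cy])⟩
    · rcases h6 with ⟨b1, b2⟩ | b
      · rw [mul_smul, mul_smul, cx, b1, b2, cx]
      · rw [mul_smul, mul_smul, cx, b, cy, ← b, aa]
    · rcases h6 with ⟨b1, b2⟩ | b
      · rw [mul_smul, mul_smul, cy, b1, b2, cy]
      · rw [mul_smul, mul_smul, cy, b, ← b, aa, cx, b]
  have np : ∀ x, a • x = x → x ≠ p ∧ x ≠ q := fun x hx =>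
    ⟨by rintro rfl; exact hpq (hx.symm.trans ap), by rintro rfl; exact hpq (aq.symm.trans hx)⟩
  classical
  have dc := card_mul_eq_card_mul (s := ({x : α | ¬ a • x = x ∧ x ≠ p ∧ x ≠ q} : Finset α))
    (t := ({x : α | a • x = x} : Finset α).offDiag) (m := 2) (n := 2)
    (fun i z => ∃ c : G, c • p = p ∧ c • q = q ∧ c • i = a • i ∧ c • a • i = i ∧ c • z.1 = z.2 ∧
      c • z.2 = z.1) (fun i hi => ?_) (fun z hz => ?_)
  · rw [offDiag_card] at dc
    have e1 := card_filter_add_card_filter_not (s := univ) (fun x : α => a • x = x)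
    have e2 : Finset.filter (fun x : α => ¬ a • x = x) univ =
        insert p (insert q (Finset.filter (fun x : α => ¬ a • x = x ∧ x ≠ p ∧ x ≠ q) univ)) := by
      ext x
      simp only [mem_insert, mem_filter, mem_univ, true_and]
      refine ⟨fun hx => by tauto, ?_⟩
      rintro (rfl | rfl | b)
      exacts [fun b => (np _ b).1 rfl, fun b => (np _ b).2 rfl, b.1]
    rw [e2, card_insert_of_notMem (by simp [hpq]), card_insert_of_notMem (by simp), card_univ] at e1
    generalize #{x : α | a • x = x} = f at *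
    interval_cases f <;> omega
  · simp only [mem_filter, mem_univ, true_and] at hi
    obtain ⟨c, cp, cq, cx, cy, c1, c2, ac, u⟩ := ex i (a • i) (Ne.symm hi.1) hi.2.1 hi.2.2
      (fun b => hi.2.2 (by rw [← ap, ← b, aa])) (fun b => hi.2.1 (by rw [← aq, ← b, aa])) (Or.inr rfl)
    rw [← (h.key hn hpq ap aq a2 cp cq c1 c2 ac).1]
    refine (card_bij (fun x _ => (x, c • x)) (fun x hx => ?_) (fun x _ y _ e => (Prod.ext_iff.1 e).1)
      fun z hz => ?_).symm
    · simp only [mem_filter, mem_univ, true_and, mem_bipartiteAbove, mem_offDiag] at hx ⊢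
      exact ⟨⟨hx.1, by rw [smul_smul, ac, mul_smul, hx.1], Ne.symm hx.2⟩, c, cp, cq, cx, cy, rfl,
        by rw [smul_smul, c2, one_smul]⟩
    · simp only [mem_filter, mem_univ, true_and, mem_bipartiteAbove, mem_offDiag] at hz ⊢
      obtain ⟨⟨b1, b2, b3⟩, c', d1, d2, d3, d4, d5, d6⟩ := hz
      rw [u c' d1 d2 d3 d4] at d5
      exact ⟨z.1, ⟨b1, by rw [d5]; exact Ne.symm b3⟩, by rw [d5]⟩
  · simp only [mem_filter, mem_univ, true_and, mem_offDiag] at hz
    obtain ⟨c, cp, cq, cx, cy, c1, c2, ac, u⟩ := ex z.1 z.2 hz.2.2 (np _ hz.1).1 (np _ hz.1).2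
      (np _ hz.2.1).1 (np _ hz.2.1).2 (Or.inl ⟨hz.1, hz.2.1⟩)
    rw [← (h.key hn hpq ap aq a2 cp cq c1 c2 ac).2]
    congr 1
    ext i
    simp only [mem_filter, mem_univ, true_and, mem_bipartiteBelow]
    refine and_congr_right fun _ => ⟨?_, fun b => ⟨c, cp, cq, b, by
      rw [← b, smul_smul, c2, one_smul], cx, cy⟩⟩
    rintro ⟨c', d1, d2, d3, -, d5, d6⟩
    rwa [← u c' d1 d2 d5 d6]

end ST

namespace ST

theorem four [Finite α] (h : ST G α 4) (hn : 4 ≤ Nat.card α) :
    Nat.card α ≤ 6 ∨ Nat.card α = 11 := by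
  classical
  letI := Fintype.ofFinite α
  rw [Nat.card_eq_fintype_card] at *
  exact or_iff_not_imp_left.2 fun a => h.jordan (by omega)

theorem five [Finite α] (h : ST G α 5) (hn : 5 ≤ Nat.card α) :
    Nat.card α ≤ 7 ∨ Nat.card α = 12 := by
  obtain ⟨a⟩ : Nonempty α := (Nat.card_pos_iff.1 (by omega)).1
  have e := SubMulAction.nat_card_ofStabilizer_eq G a
  have := (h.stab hn a).four (by omega)
  omega

theorem six [Finite α] (h : ST G α 6) (hn : 6 ≤ Nat.card α) : Nat.card α ≤ 8 := by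
  obtain ⟨a⟩ : Nonempty α := (Nat.card_pos_iff.1 (by omega)).1
  have e := SubMulAction.nat_card_ofStabilizer_eq G a
  have := (h.stab hn a).five (by omega)
  by_contra b
  have c : Nat.card α = 13 := by omega
  haveI := h.finite hn
  haveI := h.faithful hn
  haveI := h.trans hn
  haveI : Fact (Nat.Prime 13) := ⟨by norm_num⟩
  obtain ⟨x, K, d, hK⟩ := exists_D1_prime_degree (G := G) c
  letI := Fintype.ofFinite K
  have h1 := d.card_G hK
  have h2 := card_Eg_dvd d
  have h3 := card_sylow_modEq_one 13 G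
  rw [h.card hn, c] at h1
  have := Nat.le_of_dvd (by norm_num) h2
  unfold Nat.ModEq at h3
  generalize Nat.card (Eg d) = m at *
  simp only [Nat.descFactorial] at h1
  interval_cases m <;> omega

theorem ge_six (k : ℕ) : ∀ {G α : Type _} [Group G] [MulAction G α] [Finite α], ST G α (k + 6) →
    k + 6 ≤ Nat.card α → Nat.card α ≤ k + 8 := by
  induction k with
  | zero => intro G α _ _ _ h hn; exact h.six hn
  | succ k ih =>
    intro G α _ _ _ h hn
    obtain ⟨a⟩ : Nonempty α := (Nat.card_pos_iff.1 (by omega)).1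
    have e := SubMulAction.nat_card_ofStabilizer_eq G a
    have := ih (ST.stab (k := k + 6) (by rwa [show k + 6 + 1 = k + 1 + 6 by ring]) (by omega) a) (by omega)
    omega

theorem m11 [Finite α] (h : ST G α 4) (c : Nat.card α = 11) : IsSimpleGroup G ∧ Nat.card G = 7920 := by
  have hn : 4 ≤ Nat.card α := by omega
  haveI := h.finite hn
  haveI := h.faithful hn
  haveI := h.trans hn
  haveI : Fact (Nat.Prime 11) := ⟨by norm_num⟩
  haveI := isPreprimitive_of_is_two_pretransitive (mt_le h.mt hn (by norm_num : 2 ≤ 4))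
  obtain ⟨a⟩ : Nonempty α := (Nat.card_pos_iff.1 (by omega)).1
  obtain ⟨x, K, d, hK⟩ := exists_D1_prime_degree (G := G) c
  letI := Fintype.ofFinite K
  have h1 := d.card_G hK
  have h2 := card_Eg_dvd d
  have h3 := card_sylow_modEq_one 11 G
  have h4 : Nat.card G = 7920 := by rw [h.card hn, c]; rfl
  rw [h4] at h1
  have := Nat.le_of_dvd (by norm_num) h2
  unfold Nat.ModEq at h3
  have h5 : Nat.card (Eg d) = 5 := by
    generalize Nat.card (Eg d) = m at *
    interval_cases m <;> omega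
  refine ⟨(d.simple_of_prime hK (fun N _ hN => ?_) (by rw [h5] at h1; omega)
    (by rw [h5]; norm_num)).1, h4⟩
  haveI := normal_trans (α := α) N hN
  rw [card_eq_card_mul_card_stabilizer (G := N) a, c]
  exact dvd_mul_right _ _

theorem m12 [Finite α] (h : ST G α 5) (c : Nat.card α = 12) : IsSimpleGroup G ∧ Nat.card G = 95040 := by
  have hn : 5 ≤ Nat.card α := by omega
  haveI := h.finite hn
  haveI := h.faithful hn
  have h2 := mt_le h.mt hn (by norm_num : 2 ≤ 5)
  obtain ⟨a⟩ : Nonempty α := (Nat.card_pos_iff.1 (by omega)).1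
  have e := SubMulAction.nat_card_ofStabilizer_eq G a
  refine ⟨(S4300.result (isPreprimitive_of_is_two_pretransitive h2) a
    ((h.stab hn a).m11 (by omega)).1).resolve_right ?_, by rw [h.card hn, c]; rfl⟩
  rintro ⟨N, hN, h1, -, ht, hr⟩
  haveI := (Subgroup.nontrivial_iff_ne_bot N).2 h1
  have ne : ∀ x : N, x ≠ 1 → (x : G) • a ≠ a := fun x hx e =>
    hx (Subgroup.mem_bot.1 ((hr a).le e))
  obtain ⟨p, j, hp, hj, hc, -⟩ := elemAb_of_aut_transitive (N := N) fun x y hx hy => by
    obtain ⟨g, g1, g2⟩ := mt_two h2 (ne x hx).symm (ne y hy).symm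
    refine ⟨MulAut.conjNormal g, Subtype.ext (eq_of_smul_eq_of_reg (hr a) (MulAut.conjNormal g x).2 y.2 ?_)⟩
    rw [MulAut.conjNormal_apply, mul_smul, mul_smul, inv_smul_eq_iff.2 g1.symm, g2]
  rw [card_eq_of_regular (hr a), c] at hc
  have h3 := (Nat.prime_dvd_prime_iff_eq Nat.prime_two hp).1
    (Nat.prime_two.dvd_of_dvd_pow (hc ▸ (by norm_num : 2 ∣ 12)))
  have h4 := (Nat.prime_dvd_prime_iff_eq Nat.prime_three hp).1
    (Nat.prime_three.dvd_of_dvd_pow (hc ▸ (by norm_num : 3 ∣ 12)))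
  omega

end ST

end Cfsg.Agent.H7
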