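import Cfsg.Agent.B.Alg

/-! The number of 2-regular classes is at most the number of simple modules in characteristic 2. -/

set_option autoImplicit false
set_option linter.unusedSectionVars false

open scoped Classical
open Cfsg.Agent.B MonoidAlgebra

namespace Cfsg.Agent.H7

variable {k : Type*} [Field k] [CharP k 2] {G : Type*} [Group G] [Fintype G]

theorem sum_symm_two {ι : Type*} (s : Finset ι) (f : ι → ι → k) (hf : ∀ x y, f x y = f y x) :
    ∑ x ∈ s, ∑ y ∈ s, f x y = ∑ x ∈ s, f x x := by
  induction s using Finset.induction_on with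
  | empty => simp
  | insert a s ha ih =>
    simp only [Finset.sum_insert ha, Finset.sum_add_distrib, ih, hf a]
    grind

theorem ev_pow_two (m : ℕ) (φ : G → k) (h1 : ∀ x y, IsConj x y → φ x = φ y) (h2 : ∀ x, φ x * φ x = φ x)
    (a : MonoidAlgebra k G) : ev φ (a ^ 2 ^ m) = ev (fun g => φ (g ^ 2 ^ m)) a ^ 2 ^ m := by
  haveI : Fact (Nat.Prime 2) := ⟨Nat.prime_two⟩
  induction m generalizing a with
  | zero => simp
  | succ m ih =>
    rw [pow_succ', pow_mul, ih, pow_mul]
    congr 1
    rw [pow_two, ev_mul, sum_symm_two _ _ fun x y => by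
      rw [h1 _ _ (IsConj.pow _ (isConj_iff.2 ⟨y, show y * (x * y) * y⁻¹ = y * x by group⟩)),
        mul_comm (a.coeff x)], ev_apply, sum_pow_char]
    exact Finset.sum_congr rfl fun g _ => by rw [mul_pow, pow_two (φ _), h2, pow_mul, pow_two, pow_two]

theorem trace_form_eq_zero {r : ℕ} {d : Fin r → ℕ} [∀ i, NeZero (d i)]
    (t : (Π i, Matrix (Fin (d i)) (Fin (d i)) k) →ₗ[k] k) (h : ∀ x y, t (x * y) = t (y * x))
    (h0 : ∀ i, t (Pi.single i (Matrix.single 0 0 1)) = 0) : t = 0 := by
  refine LinearMap.pi_ext fun i M => ?_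
  have key : ∀ a b, t (Pi.single i (Matrix.single a b (1 : k))) = 0 := fun a b => by
    have := h (Pi.single i (Matrix.single a 0 (1 : k))) (Pi.single i (Matrix.single 0 b (1 : k)))
    rw [← Pi.single_mul, ← Pi.single_mul, Matrix.single_mul_single_same, one_mul] at this
    rw [this]
    by_cases e : b = a
    · rw [e, Matrix.single_mul_single_same, one_mul, h0]
    · rw [Matrix.single_mul_single_of_ne _ _ _ _ e]; simp
  have : (t ∘ₗ LinearMap.single k _ i) M = 0 := by
    rw [Matrix.matrix_eq_sum_single M]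
    simp only [map_sum]
    refine Finset.sum_eq_zero fun a _ => Finset.sum_eq_zero fun b _ => ?_
    rw [show Matrix.single a b (M a b) = M a b • Matrix.single a b (1 : k) by simp, map_smul]
    simp [key]
  exact this

theorem exists_mulVec_eq {n : Type*} [Fintype n] {x : n → k} (hx : x ≠ 0) (y : n → k) :
    ∃ M : Matrix n n k, M.mulVec x = y := by
  obtain ⟨c, hc⟩ := Function.ne_iff.1 hx
  refine ⟨Matrix.vecMulVec y (Pi.single c (x c)⁻¹), funext fun i => ?_⟩
  simp only [Matrix.mulVec, dotProduct, Matrix.vecMulVec_apply]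
  rw [Finset.sum_eq_single c (fun j _ hj => by simp [hj]) (by simp)]
  simp only [Pi.single_eq_same]
  rw [mul_assoc, inv_mul_cancel₀ hc, mul_one]

variable (k G) in
theorem card_odd_classes_le [IsAlgClosed k] :
    ∃ (r : ℕ) (d : Fin r → ℕ) (ρ : ∀ i, Representation k G (Fin (d i) → k)),
      (∀ i, Nontrivial (Fin (d i) → k)) ∧
      (∀ i x, x ≠ 0 → ∀ ψ : Module.Dual k (Fin (d i) → k), (∀ g, ψ (ρ i g x) = 0) → ψ = 0) ∧
      (∀ i j, i ≠ j → ∀ x x', x ≠ 0 → ∀ (ψ : Module.Dual k (Fin (d i) → k))
        (ψ' : Module.Dual k (Fin (d j) → k)), (∀ g, ψ (ρ i g x) + ψ' (ρ j g x') = 0) → ψ = 0) ∧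
      Nat.card {C : ConjClasses G // ∃ g, ConjClasses.mk g = C ∧ Odd (orderOf g)} ≤ r := by
  let A := MonoidAlgebra k G
  haveI : IsArtinianRing A := IsArtinianRing.of_finite k A
  let J := Ring.jacobson A
  haveI : FiniteDimensional k (A ⧸ J) := Module.Finite.of_surjective
    (Ideal.Quotient.mkₐ k J).toLinearMap (Ideal.Quotient.mkₐ_surjective k J)
  obtain ⟨r, d, hd, ⟨e⟩⟩ := IsSemisimpleRing.exists_algEquiv_pi_matrix_of_isAlgClosed k (A ⧸ J)
  let π := e.toAlgHom.comp (Ideal.Quotient.mkₐ k J)
  have hπ : Function.Surjective π := e.surjective.comp (Ideal.Quotient.mkₐ_surjective k J)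
  obtain ⟨N, hN⟩ := IsSemiprimaryRing.isNilpotent (R := A)
  have hker : ∀ a, π a = 0 → a ^ 2 ^ N = 0 := fun a ha => by
    have h1 : a ∈ J := Ideal.Quotient.eq_zero_iff_mem.1 (e.injective (ha.trans (map_zero e).symm))
    have h2 : a ^ N = 0 := by
      have := Ideal.pow_mem_pow h1 N
      rwa [hN] at this
    exact pow_eq_zero_of_le Nat.lt_two_pow_self.le h2
  let ρ : ∀ i, Representation k G (Fin (d i) → k) := fun i =>
    { toFun := fun g => Matrix.toLin' (π (of k G g) i)
      map_one' := by rw [map_one, map_one, Pi.one_apply, Matrix.toLin'_one]; rfl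
      map_mul' := fun g h => by rw [map_mul, map_mul, Pi.mul_apply, Matrix.toLin'_mul]; rfl }
  have lin : ∀ i x (ψ : Module.Dual k (Fin (d i) → k)) (a : A),
      ψ ((π a i).mulVec x) = ∑ g, a.coeff g * ψ (ρ i g x) := fun i x ψ a => by
    conv_lhs => rw [eq_sum_of a]
    simp only [map_sum, map_smul, Finset.sum_apply, Pi.smul_apply, Matrix.sum_mulVec,
      Matrix.smul_mulVec, smul_eq_mul]
    rfl
  refine ⟨r, d, ρ, fun i => inferInstance, fun i x hx ψ h => LinearMap.ext fun y => ?_,
    fun i j hij x x' hx ψ ψ' h => LinearMap.ext fun y => ?_, ?_⟩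
  · obtain ⟨M, rfl⟩ := exists_mulVec_eq hx y
    obtain ⟨a, ha⟩ := hπ (Pi.single i M)
    have := lin i x ψ a
    rw [ha, Pi.single_eq_same] at this
    simp [this, h]
  · obtain ⟨M, rfl⟩ := exists_mulVec_eq hx y
    obtain ⟨a, ha⟩ := hπ (Pi.single i M)
    have h1 := lin i x ψ a
    have h2 := lin j x' ψ' a
    rw [ha, Pi.single_eq_same] at h1
    rw [ha, Pi.single_eq_of_ne hij.symm, Matrix.zero_mulVec, map_zero] at h2
    have h3 := congrArg₂ (· + ·) h1 h2
    simp only [add_zero, ← Finset.sum_add_distrib, ← mul_add, h, mul_zero, Finset.sum_const_zero] at h3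
    exact h3
  · let S := {C : ConjClasses G // ∃ g, ConjClasses.mk g = C ∧ Odd (orderOf g)}
    haveI : Fintype S := Fintype.ofFinite S
    let ind : S → G → k := fun C g => if ConjClasses.mk g = C.1 then 1 else 0
    let c : S → G → k := fun C g => ind C (g ^ 2 ^ N)
    have hc : ∀ C a, π a = 0 → ev (c C) a = 0 := fun C a ha => by
      have := ev_pow_two N (ind C) (fun x y h => by
        simp only [ind, ConjClasses.mk_eq_mk_iff_isConj.2 h]) (fun x => by
        simp only [ind]; split_ifs <;> simp) a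
      rw [hker a ha, map_zero] at this
      exact pow_eq_zero_iff (by positivity) |>.1 this.symm
    obtain ⟨σ, hσ⟩ := π.toLinearMap.exists_rightInverse_of_surjective (LinearMap.range_eq_top.2 hπ)
    have hσ' : ∀ x, π (σ x) = x := fun x => DFunLike.congr_fun hσ x
    let Φ : (S → k) →ₗ[k] (Fin r → k) :=
      { toFun := fun α i => ∑ C, α C * ev (c C) (σ (Pi.single i (Matrix.single 0 0 1)))
        map_add' := fun α β => funext fun i => by simp [add_mul, Finset.sum_add_distrib]
        map_smul' := fun x α => funext fun i => by simp [Finset.mul_sum, mul_assoc] }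
    have hΦ : Function.Injective Φ := (injective_iff_map_eq_zero Φ).2 fun α hα => by
      let s : A →ₗ[k] k := ∑ C, α C • ev (c C)
      have hs : ∀ a, s a = ∑ C, α C * ev (c C) a := fun a => by simp [s, LinearMap.sum_apply]
      have h1 : ∀ a, s (σ (π a)) = s a := fun a => by
        rw [← sub_eq_zero, ← map_sub, hs]
        exact Finset.sum_eq_zero fun C _ => by rw [hc C _ (by rw [map_sub, hσ', sub_self]), mul_zero]
      have h2 := trace_form_eq_zero (s ∘ₗ σ) (fun x y => by
        obtain ⟨x, rfl⟩ := hπ x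
        obtain ⟨y, rfl⟩ := hπ y
        simp only [LinearMap.comp_apply, ← map_mul, h1, hs]
        exact Finset.sum_congr rfl fun C _ => by
          rw [ev_mul_comm fun x y => by
            simp only [c, ind, ConjClasses.mk_eq_mk_iff_isConj.2 (IsConj.pow (2 ^ N)
              (isConj_iff.2 ⟨y, show y * (x * y) * y⁻¹ = y * x by group⟩))]])
        fun i => (hs _).trans (congrFun hα i)
      funext C
      obtain ⟨g, hg, ho⟩ := C.2
      obtain ⟨j, hj⟩ := exists_pow_eq_self_of_coprime (x := g) (n := 2 ^ N)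
        (Nat.Coprime.pow_left N ho.coprime_two_left)
      have h3 := h1 (of k G (g ^ j))
      rw [show s (σ _) = 0 from DFunLike.congr_fun h2 _, hs, Finset.sum_eq_single C] at h3
      · rw [ev_of] at h3
        simpa [c, ind, pow_right_comm g j, hj, hg] using h3.symm
      · intro D _ hD
        have : ¬ C.1 = D.1 := fun e => hD (Subtype.ext e.symm)
        rw [ev_of]
        simp [c, ind, pow_right_comm g j, hj, hg, this]
      · simp
    simpa using LinearMap.finrank_le_finrank_of_injective hΦ

end Cfsg.Agent.H7
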