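import Mathlib
import Cfsg.Prelude.Def_Perm
import Cfsg.Agent.H7.Perm2

/-! Permutation modules; fixed points and fixed vectors of `p`-groups. -/

namespace Cfsg.Agent.H7
open MulAction

section
variable {K : Type*} [Field K] {G : Type*} [Group G] {Ω : Type*} [MulAction G Ω]

theorem permRep_apply (g : G) (f : Ω → K) (x : Ω) : Cfsg.permRep K G Ω g f x = f (g⁻¹ • x) := rfl

theorem mem_permConstants {f : Ω → K} :
    f ∈ (Cfsg.permConstants K G Ω).toSubmodule ↔ ∃ c, ∀ x, f x = c := by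
  change f ∈ Submodule.span K {fun _ => 1} ↔ _
  rw [Submodule.mem_span_singleton]
  constructor
  · rintro ⟨c, rfl⟩; exact ⟨c, fun x => by simp⟩
  · rintro ⟨c, hc⟩; exact ⟨c, funext fun x => by simp [hc]⟩

theorem mem_permSumZero [Fintype Ω] {f : Ω → K} :
    f ∈ (Cfsg.permSumZero K G Ω).toSubmodule ↔ ∑ x, f x = 0 := Iff.rfl

theorem permRep_single [DecidableEq Ω] (g : G) (a : Ω) (c : K) :
    Cfsg.permRep K G Ω g (Pi.single a c) = Pi.single (g • a) c := by
  funext x
  rw [permRep_apply]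
  by_cases h : x = g • a
  · subst h; simp
  · rw [Pi.single_eq_of_ne h, Pi.single_eq_of_ne]
    intro h'; apply h; rw [← h', smul_inv_smul]

/-- A subspace containing all differences of point masses contains the sum-zero functions. -/
theorem sumZero_le [Fintype Ω] [DecidableEq Ω] (W : Submodule K (Ω → K))
    (h : ∀ a b : Ω, a ≠ b → (Pi.single a 1 - Pi.single b 1 : Ω → K) ∈ W) {f : Ω → K}
    (hf : ∑ x, f x = 0) : f ∈ W := by
  by_cases hΩ : IsEmpty Ω
  · rw [Subsingleton.elim f 0]; exact W.zero_mem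
  obtain ⟨b⟩ := not_isEmpty_iff.1 hΩ
  have : f = ∑ a, f a • (Pi.single a 1 - Pi.single b 1 : Ω → K) := by
    simp only [smul_sub, Finset.sum_sub_distrib, ← Finset.sum_smul, hf, zero_smul, sub_zero]
    exact pi_eq_sum_univ' f
  rw [this]
  refine W.sum_mem fun a _ => W.smul_mem _ ?_
  by_cases hab : a = b
  · subst hab; simp
  · exact h a b hab

theorem eq_top_of_sumZero_le [Fintype Ω] (W : Submodule K (Ω → K))
    (h : ∀ f : Ω → K, ∑ x, f x = 0 → f ∈ W) {f : Ω → K} (hf : f ∈ W) (hf0 : ∑ x, f x ≠ 0) :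
    W = ⊤ := by
  rw [eq_top_iff]
  intro g _
  have := h (g - ((∑ x, g x) / ∑ x, f x) • f) (by
    simp only [Pi.sub_apply, Pi.smul_apply, smul_eq_mul, Finset.sum_sub_distrib, ← Finset.mul_sum]
    rw [div_mul_cancel₀ _ hf0, sub_self])
  simpa using W.add_mem this (W.smul_mem ((∑ x, g x) / ∑ x, f x) hf)

end

theorem exists_fixed_of_isPGroup {G α : Type*} [Group G] [MulAction G α] {p : ℕ} (hp : p.Prime)
    (hG : IsPGroup p G) (S : Set α) (hS : S.Finite) (hinv : ∀ g : G, ∀ x ∈ S, g • x ∈ S)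
    (hnd : ¬ p ∣ S.ncard) : ∃ x ∈ S, ∀ g : G, g • x = x := by
  have h := ncard_modEq_of_isPGroup hp hG S hS hinv
  by_contra hcon
  have : S ∩ fixedPoints G α = ∅ := by
    rw [Set.eq_empty_iff_forall_notMem]
    rintro x ⟨hx, hx'⟩
    exact hcon ⟨x, hx, hx'⟩
  rw [this, Set.ncard_empty] at h
  exact hnd (Nat.modEq_zero_iff_dvd.1 h)

/-- A Sylow `p`-subgroup of a transitive group of degree `p ^ f` is transitive. -/
theorem sylow_isPretransitive {G Ω : Type*} [Group G] [Finite G] [MulAction G Ω]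
    [IsPretransitive G Ω] {p f : ℕ} [hp : Fact p.Prime] (hcard : Nat.card Ω = p ^ f)
    (P : Sylow p G) : IsPretransitive (P : Subgroup G) Ω := by
  have hpos : 0 < Nat.card Ω := hcard ▸ pow_pos hp.out.pos f
  haveI : Finite Ω := Nat.finite_of_card_ne_zero hpos.ne'
  obtain ⟨a⟩ : Nonempty Ω := (Nat.card_pos_iff.1 hpos).1
  have h1 := card_eq_card_mul_card_stabilizer (G := G) a
  have h2 := card_orbit_mul_card_stabilizer (G := (P : Subgroup G)) a
  obtain ⟨k, hk⟩ := IsPGroup.iff_card.1 (P.2.to_subgroup (stabilizer (P : Subgroup G) a))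
  have h3 : Nat.card (stabilizer (P : Subgroup G) a) ∣ Nat.card (stabilizer G a) := by
    rw [← Subgroup.card_map_of_injective (P : Subgroup G).subtype_injective]
    apply Subgroup.card_dvd_of_le
    rintro _ ⟨x, hx, rfl⟩; exact hx
  have h4 : p ^ f * p ^ k ∣ Nat.card G := by
    rw [h1, hcard, ← hk]; exact Nat.mul_dvd_mul_left _ h3
  rw [← pow_add] at h4
  have h5 : p ^ (f + k) ∣ Nat.card (P : Subgroup G) := by
    rw [P.card_eq_multiplicity]
    exact pow_dvd_pow _ ((hp.out.pow_dvd_iff_le_factorization Nat.card_pos.ne').1 h4)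
  rw [← h2, hk, pow_add] at h5
  haveI : Nonempty (orbit (P : Subgroup G) a) := ⟨⟨a, mem_orbit_self a⟩⟩
  have h6 := Nat.le_of_dvd Nat.card_pos (Nat.dvd_of_mul_dvd_mul_right (pow_pos hp.out.pos k) h5)
  rw [← hcard, Nat.card_coe_set_eq, ← Set.ncard_univ] at h6
  have h7 : orbit (P : Subgroup G) a = Set.univ :=
    Set.eq_of_subset_of_ncard_le (Set.subset_univ _) h6
  exact (isPretransitive_iff_orbit_eq_univ a).2 h7

/-- A finite `p`-group acting on a non-zero space in characteristic `p` fixes a non-zero vector. -/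
theorem exists_fixed_vector {K : Type*} [Field K] {p : ℕ} [hp : Fact p.Prime] [CharP K p]
    {P : Type*} [Group P] [Finite P] (hP : IsPGroup p P) {V : Type*} [AddCommGroup V] [Module K V]
    (ρ : Representation K P V) (W : Submodule K V) (hW : ∀ g : P, ∀ v ∈ W, ρ g v ∈ W)
    (hne : W ≠ ⊥) : ∃ w ∈ W, w ≠ 0 ∧ ∀ g : P, ρ g w = w := by
  obtain ⟨v, hv, hv0⟩ := Submodule.exists_mem_ne_zero_of_ne_bot hne
  letI : MulAction P V :=
    { smul := fun g v => ρ g v
      one_smul := fun v => by change ρ 1 v = v; simp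
      mul_smul := fun g h v => by change ρ (g * h) v = ρ g (ρ h v); simp }
  have hs : ∀ (g : P) (v : V), g • v = ρ g v := fun _ _ => rfl
  let S := AddSubgroup.closure (Set.range fun g : P => ρ g v)
  have hpv : ∀ x : V, p • x = 0 := fun x => by
    rw [← Nat.cast_smul_eq_nsmul K, CharP.cast_eq_zero, zero_smul]
  haveI : Finite S := by
    haveI : AddGroup.FG S := AddGroup.closure_finite_fg _
    apply AddCommGroup.finite_of_fg_torsion
    intro x
    exact isOfFinAddOrder_iff_nsmul_eq_zero.2 ⟨p, hp.out.pos, Subtype.ext (hpv x)⟩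
  have hvS : v ∈ S := AddSubgroup.subset_closure ⟨1, by simp⟩
  have hSW : ∀ x ∈ S, x ∈ W := by
    have : S ≤ W.toAddSubgroup := (AddSubgroup.closure_le _).2 (by
      rintro _ ⟨g, rfl⟩; exact hW g v hv)
    exact this
  have hinv : ∀ g : P, ∀ x ∈ (S : Set V), g • x ∈ (S : Set V) := by
    intro g x hx
    have : S ≤ S.comap (ρ g).toAddMonoidHom := (AddSubgroup.closure_le _).2 (by
      rintro _ ⟨h, rfl⟩
      exact AddSubgroup.subset_closure ⟨g * h, by simp⟩)
    exact this hx
  have h := ncard_modEq_of_isPGroup hp.out hP (S : Set V) (Set.toFinite _) hinv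
  have hd : p ∣ (S : Set V).ncard := by
    have := addOrderOf_dvd_natCard (⟨v, hvS⟩ : S)
    rwa [addOrderOf_eq_prime (p := p) (Subtype.ext (hpv v)) (fun h => hv0 (congrArg Subtype.val h))]
      at this
  by_contra hcon
  have : (S : Set V) ∩ fixedPoints P V = {0} := by
    apply Set.eq_singleton_iff_unique_mem.2
    refine ⟨⟨S.zero_mem, fun g => by rw [hs, map_zero]⟩, ?_⟩
    rintro x ⟨hx, hx'⟩
    by_contra hx0
    exact hcon ⟨x, hSW x hx, hx0, hx'⟩
  rw [this, Set.ncard_singleton] at h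
  exact hp.out.not_dvd_one ((Nat.ModEq.dvd_iff h dvd_rfl).1 hd)

end Cfsg.Agent.H7
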