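import Cfsg.Agent.H7.Mod1
import Cfsg.Agent.H7.ZT2
import Cfsg.Agent.H7.PermMod

/-! Simple modules in characteristic 2 of Zassenhaus groups of odd degree: weights. -/

set_option autoImplicit false
set_option linter.unusedSectionVars false

open scoped Classical
open Cfsg MulAction Subgroup

namespace Cfsg.Agent.H7

variable {G Ω : Type*} [Group G] [MulAction G Ω] {a b : Ω} {Q : Subgroup G} [Finite G] [Finite Ω]

theorem ZO.cyclic (h : ZO a b Q) : IsCyclic (St G a b) := by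
  haveI := (h.k.fpf h.z h.ne).isZGroup_of_odd h.k.le_normalizer (h.k.ne_bot h.h3) h.odd
  letI : CommGroup (St G a b) := { (inferInstance : Group (St G a b)) with
    mul_comm := fun x y => Subtype.ext (h.comm x x.2 y y.2) }
  infer_instance

theorem ZO.bruhat (h : ZO a b Q) {w : G} (h1 : w • a = b) {g : G} (hg : g • a ≠ a) :
    ∃ u ∈ Q, ∃ c : G, c • a = a ∧ g = u * w * c := by
  obtain ⟨u, hu, e⟩ := h.k.exists_smul h.ne.symm hg
  exact ⟨u, hu, (u * w)⁻¹ * g, by rw [mul_smul, inv_smul_eq_iff, mul_smul, h1, e], by group⟩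

variable {k : Type*} [Field k] [CharP k 2] {V V' : Type*} [AddCommGroup V] [Module k V]
  [AddCommGroup V'] [Module k V'] {ρ : Representation k G V} {ρ' : Representation k G V'}

/-- simplicity, in terms of functionals -/
def SimpleRep (ρ : Representation k G V) : Prop :=
  ∀ x, x ≠ 0 → ∀ ψ : Module.Dual k V, (∀ g, ψ (ρ g x) = 0) → ψ = 0

/-- `v` is a weight vector of weight `l` -/
structure Wt (ρ : Representation k G V) (a b : Ω) (Q : Subgroup G) (v : V) (l : St G a b →* kˣ) :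
    Prop where
  ne : v ≠ 0
  fix : ∀ u ∈ Q, ρ u v = v
  wt : ∀ h : St G a b, ρ h v = (l h : k) • v

theorem ZT.exists_wt [IsAlgClosed k] [FiniteDimensional k V] [Nontrivial V] (h : ZT a b Q)
    (ρ : Representation k G V) : ∃ v l, Wt ρ a b Q v l := by
  haveI : Fact (Nat.Prime 2) := ⟨Nat.prime_two⟩
  obtain ⟨v₀, -, h0, h1⟩ := exists_fixed_vector h.two (ρ.comp Q.subtype) ⊤ (by simp) top_ne_bot
  let W : Submodule k V :=
    { carrier := {v | ∀ u ∈ Q, ρ u v = v}
      add_mem' := fun hx hy u hu => by rw [map_add, hx u hu, hy u hu]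
      zero_mem' := fun u _ => map_zero _
      smul_mem' := fun c x hx u hu => by rw [map_smul, hx u hu] }
  haveI : Nontrivial W := ⟨⟨⟨v₀, fun u hu => h1 ⟨u, hu⟩⟩, 0, fun e => h0 (congrArg Subtype.val e)⟩⟩
  obtain ⟨x, hx⟩ := h.cyclic.exists_monoid_generator
  have hW : ∀ v ∈ W, ρ x v ∈ W := fun v hv u hu => by
    have := hv _ (h.k.norm (x : G)⁻¹ (inv_mem x.2).1 u hu)
    rw [← Module.End.mul_apply, ← map_mul, show u * x = x * ((x : G)⁻¹ * u * (x : G)⁻¹⁻¹) by group,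
      map_mul, Module.End.mul_apply, this]
  obtain ⟨c, hc⟩ := Module.End.exists_eigenvalue ((ρ x).restrict hW)
  obtain ⟨⟨v, hv⟩, hv1, hv0⟩ := hc.exists_hasEigenvector
  have hv2 : ρ x v = c • v := congrArg Subtype.val (Module.End.mem_eigenspace_iff.1 hv1)
  have hv3 : v ≠ 0 := fun e => hv0 (Subtype.ext e)
  have : ∀ y : St G a b, ∃ d : k, ρ y v = d • v := fun y => by
    obtain ⟨n, rfl⟩ := hx y
    induction n with
    | zero => exact ⟨1, by simp⟩
    | succ n ih =>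
      obtain ⟨d, hd⟩ := ih
      exact ⟨c * d, by
        simp only at hd ⊢
        rw [pow_succ', Subgroup.coe_mul, map_mul, Module.End.mul_apply, hd, map_smul, hv2, smul_smul,
          mul_comm]⟩
  choose d hd using this
  let l : St G a b →* k :=
    { toFun := d
      map_one' := smul_left_injective k hv3 (by simpa using (hd 1).symm)
      map_mul' := fun y z => smul_left_injective k hv3 (by
        simp only
        rw [← hd, Subgroup.coe_mul, map_mul, Module.End.mul_apply, hd, map_smul, hd, smul_smul,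
          mul_comm]) }
  exact ⟨v, l.toHomUnits, hv3, hv, hd⟩

theorem ZT.exists_inv_dual [Nontrivial V] (h : ZT a b Q) (ρ : Representation k G V) :
    ∃ φ : Module.Dual k V, φ ≠ 0 ∧ ∀ u ∈ Q, ∀ m, φ (ρ u m) = φ m := by
  haveI : Fact (Nat.Prime 2) := ⟨Nat.prime_two⟩
  obtain ⟨φ, -, h0, h1⟩ := exists_fixed_vector h.two (ρ.dual.comp Q.subtype) ⊤ (by simp) top_ne_bot
  exact ⟨φ, h0, fun u hu m => by
    simpa [Module.Dual.transpose_apply] using DFunLike.congr_fun (h1 ⟨u⁻¹, Q.inv_mem hu⟩) m⟩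

theorem Wt.stab (h : ZO a b Q) {v : V} {l : St G a b →* kˣ} (hv : Wt ρ a b Q v l) {c : G}
    (hc : c • a = a) : ∃ y : St G a b, ∀ {V' : Type _} [AddCommGroup V'] [Module k V']
      {ρ' : Representation k G V'} {v' : V'} {l' : St G a b →* kˣ}, Wt ρ' a b Q v' l' →
        ρ' c v' = (l' y : k) • v' := by
  obtain ⟨u, hu, y, hy, rfl⟩ := h.k.decomp h.ne.symm hc
  exact ⟨⟨y, hy⟩, fun hv' => by
    rw [map_mul, Module.End.mul_apply, hv'.wt ⟨y, hy⟩, map_smul, hv'.fix u hu]⟩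

theorem ZT.inv_dual_wt (h : ZT a b Q) (hs : SimpleRep ρ) (hnt : ∃ g, ρ g ≠ 1) {v : V}
    {l : St G a b →* kˣ} (hv : Wt ρ a b Q v l) {φ : Module.Dual k V}
    (hφ : ∀ u ∈ Q, ∀ m, φ (ρ u m) = φ m) : φ v = 0 := by
  haveI := Fintype.ofFinite Q
  obtain ⟨w, h1, h2⟩ := h.ex
  have hww := h.swap_sq h1 h2
  have hQ0 : (Fintype.card Q : k) = 0 := by
    rw [← Nat.card_eq_fintype_card, CharP.cast_eq_zero_iff k 2]; exact h.even.two_dvd
  have ap : ∀ x y m, ρ (x * y) m = ρ x (ρ y m) := fun x y m => by rw [map_mul]; rfl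
  let N : V →ₗ[k] V := ∑ u : Q, ρ u
  have hN : ∀ m, N m = ∑ u : Q, ρ u m := fun m => by simp [N, LinearMap.sum_apply]
  have hNl : ∀ u ∈ Q, ∀ m, ρ u (N m) = N m := fun u hu m => by
    rw [hN, map_sum, ← Equiv.sum_comp (Equiv.mulLeft (⟨u, hu⟩ : Q)) fun u : Q => ρ u m]
    exact Finset.sum_congr rfl fun x _ => (ap _ _ _).symm
  have hNr : ∀ u ∈ Q, ∀ m, N (ρ u m) = N m := fun u hu m => by
    rw [hN, hN, ← Equiv.sum_comp (Equiv.mulRight (⟨u, hu⟩ : Q)) fun u : Q => ρ u m]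
    exact Finset.sum_congr rfl fun x _ => (ap _ _ _).symm
  have hNh : ∀ y : St G a b, ∀ m, ρ y (N m) = N (ρ y m) := fun y m => by
    let e : Q ≃ Q := ⟨fun u => ⟨y * u * (y : G)⁻¹, h.k.norm _ y.2.1 _ u.2⟩,
      fun u => ⟨(y : G)⁻¹ * u * (y : G)⁻¹⁻¹, h.k.norm _ (inv_mem y.2).1 _ u.2⟩,
      fun u => Subtype.ext (by simp [mul_assoc]), fun u => Subtype.ext (by simp [mul_assoc])⟩
    rw [hN, hN, map_sum, ← Equiv.sum_comp e fun u : Q => ρ u (ρ y m)]
    exact Finset.sum_congr rfl fun x _ => by rw [← ap, ← ap]; simp [e]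
  have hwuw : ∀ u : Q, u ≠ 1 → (w * u * w) • a ≠ a := fun u hu e => hu (Subtype.ext
    (h.k.eq_one u.2 h.ne.symm (by
      rw [mul_smul, mul_smul, h1, ← h2, smul_left_cancel_iff] at e; exact e)))
  have hyw : ∀ y : St G a b, (y : G) * w = w * (y⁻¹ : St G a b) := fun y => by
    have := h.inv w h1 h2 _ (y⁻¹).2
    rw [mul_inv_eq_iff_eq_mul] at this
    simpa using this.symm
  by_cases hl : l = 1
  · subst hl
    have hB : ∀ c : G, c • a = a → ρ c v = v := fun c hc => by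
      obtain ⟨y, hy⟩ := hv.stab h.toZO hc
      simpa using hy hv
    haveI := Fintype.ofFinite Ω
    choose t ht using h.exists_smul
    have hF : ∀ g : G, ρ (t (g • a)) v = ρ g v := fun g => by
      conv_rhs => rw [show g = t (g • a) * ((t (g • a))⁻¹ * g) by group, ap,
        hB _ (by rw [mul_smul, inv_smul_eq_iff, ht])]
    have hz : ∀ g : G, ρ g (∑ c, ρ (t c) v) = ∑ c, ρ (t c) v := fun g => by
      rw [map_sum, ← Equiv.sum_comp (MulAction.toPerm g) fun c => ρ (t c) v]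
      exact Finset.sum_congr rfl fun c _ => by
        rw [← ap, ← hF, mul_smul, ht]; rfl
    have hz0 : ∑ c, ρ (t c) v = 0 := by
      by_contra h0
      obtain ⟨g, hg⟩ := hnt
      refine hg (LinearMap.ext fun m => sub_eq_zero.1 ((Module.forall_dual_apply_eq_zero_iff k _).1
        fun ψ => ?_))
      exact DFunLike.congr_fun (hs _ h0 (ψ ∘ₗ (ρ g - 1)) fun g' => by
        rw [hz, LinearMap.comp_apply, LinearMap.sub_apply, hz]; simp) m
    have := congrArg φ hz0
    rw [map_sum, map_zero, ← Finset.add_sum_erase _ _ (Finset.mem_univ a), hB _ (ht a),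
      Finset.sum_congr rfl (g := fun _ => φ (ρ w v)) fun c hc => by
        obtain ⟨u, hu, c', hc', e⟩ := h.bruhat h1 (g := t c) (by
          rw [ht]; exact Finset.ne_of_mem_erase hc)
        rw [e, ap, ap, hB _ hc', hφ u hu], Finset.sum_const, Finset.card_erase_of_mem (Finset.mem_univ _),
      Finset.card_univ, ← Nat.card_eq_fintype_card, h.card_Ω, Nat.add_sub_cancel,
      Nat.card_eq_fintype_card, nsmul_eq_mul, hQ0, zero_mul, add_zero] at this
    exact this
  obtain ⟨y, hy⟩ : ∃ y, (l y : k) ≠ (l y⁻¹ : k) := by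
    by_contra hc
    push Not at hc
    refine hl (MonoidHom.ext fun y => ?_)
    obtain ⟨j, hj⟩ := exists_pow_eq_self_of_coprime (x := y) (n := 2)
      (Odd.coprime_two_left (h.odd.of_dvd_nat (orderOf_dvd_natCard y)))
    have : l y ^ 2 = 1 := by
      rw [pow_two]
      nth_rewrite 2 [Units.ext (hc y)]
      rw [← map_mul, mul_inv_cancel, map_one]
    rw [← hj, map_pow, map_pow, this, one_pow]; rfl
  by_contra h0
  let φ' : Module.Dual k V := φ ∘ₗ ρ y - (l y⁻¹ : k) • φ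
  have p1 : ∀ u ∈ Q, ∀ m, φ' (ρ u m) = φ' m := fun u hu m => by
    simp only [φ', LinearMap.sub_apply, LinearMap.comp_apply, LinearMap.smul_apply]
    rw [hφ u hu, ← ap, show (y : G) * u = y * u * (y : G)⁻¹ * y by group, ap,
      hφ _ (h.k.norm _ y.2.1 _ hu)]
  have p2 : φ' v ≠ 0 := by
    simp only [φ', LinearMap.sub_apply, LinearMap.comp_apply, LinearMap.smul_apply]
    rw [hv.wt, map_smul, ← sub_smul]
    exact smul_ne_zero (sub_ne_zero.2 hy) h0
  have p3 : φ' (ρ w v) = 0 := by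
    simp only [φ', LinearMap.sub_apply, LinearMap.comp_apply, LinearMap.smul_apply]
    rw [← ap, hyw, ap, hv.wt, map_smul, map_smul, sub_self]
  have p4 : φ' (ρ w (N (ρ w v))) = φ' v := by
    rw [hN, map_sum, map_sum, Finset.sum_eq_single 1 (fun u _ hu => ?_) (by simp)]
    · rw [← ap, ← ap]; simp [hww]
    · obtain ⟨u', hu', c, hc, e⟩ := h.bruhat h1 (hwuw u hu)
      obtain ⟨z, hz⟩ := hv.stab h.toZO hc
      rw [← ap, ← ap, e, ap, ap, p1 _ hu', hz hv, map_smul, map_smul, p3, smul_zero]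
  have hv' : Wt ρ a b Q (N (ρ w v)) l⁻¹ := ⟨fun e => p2 (by rw [← p4, e]; simp), fun u hu => hNl u hu _,
    fun z => by rw [hNh, ← ap, hyw, ap, hv.wt, map_smul, map_smul]; simp⟩
  have p5 : N (ρ w (N (ρ w v))) = 0 := by
    obtain ⟨c, hc⟩ : ∃ c : k, N (ρ w (N (ρ w v))) = c • N (ρ w v) := by
      have : ∀ u : Q, ∃ c : k, N (ρ w (ρ u (ρ w v))) = c • N (ρ w v) := fun u => by
        by_cases hu : u = 1
        · refine ⟨0, ?_⟩
          rw [← ap, ← ap, hu, hN]
          simp [hww, hv.fix, ← Nat.cast_smul_eq_nsmul k, hQ0]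
        · obtain ⟨u', hu', c, hc, e⟩ := h.bruhat h1 (hwuw u hu)
          obtain ⟨z, hz⟩ := hv.stab h.toZO hc
          exact ⟨l z, by rw [← ap, ← ap, e, ap, ap, hNr _ hu', hz hv, map_smul, map_smul]⟩
      choose c hc using this
      exact ⟨∑ u, c u, by rw [hN (ρ w v), map_sum, map_sum, ← hN, Finset.sum_smul]; simp [hc]⟩
    have e1 : ρ y (N (ρ w (N (ρ w v)))) = (l y : k) • N (ρ w (N (ρ w v))) := by
      rw [hNh, ← ap, hyw, ap, hv'.wt, map_smul, map_smul]; simp
    have e2 : ρ y (N (ρ w (N (ρ w v)))) = (l y⁻¹ : k) • N (ρ w (N (ρ w v))) := by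
      rw [hc, map_smul, hv'.wt, smul_comm]; simp
    rw [e1, ← sub_eq_zero, ← sub_smul] at e2
    exact (smul_eq_zero.1 e2).resolve_left (sub_ne_zero.2 hy)
  have := hs _ hv'.ne (φ' ∘ₗ ρ w ∘ₗ N) fun g => by
    simp only [LinearMap.comp_apply]
    by_cases hg : g • a = a
    · obtain ⟨z, hz⟩ := hv.stab h.toZO hg
      rw [hz hv', map_smul, hN (N _)]
      simp [hNl, ← Nat.cast_smul_eq_nsmul k, hQ0]
    · obtain ⟨u', hu', c, hc, e⟩ := h.bruhat h1 hg
      obtain ⟨z, hz⟩ := hv.stab h.toZO hc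
      rw [e, ap, ap, hNr _ hu', hz hv', map_smul, map_smul, p5]; simp
  exact p2 (p4.symm.trans (DFunLike.congr_fun this (ρ w v)))

theorem ZT.not_same_wt [Nontrivial V] [Nontrivial V'] (h : ZT a b Q) (hs : SimpleRep ρ)
    (hs' : SimpleRep ρ') (hnt : ∃ g, ρ g ≠ 1) (hnt' : ∃ g, ρ' g ≠ 1) {v : V} {v' : V'}
    {l : St G a b →* kˣ} (hv : Wt ρ a b Q v l) (hv' : Wt ρ' a b Q v' l)
    (h2 : ∀ (ψ : Module.Dual k V) (ψ' : Module.Dual k V'), (∀ g, ψ (ρ g v) + ψ' (ρ' g v') = 0) → ψ = 0) :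
    False := by
  obtain ⟨w, h1, -⟩ := h.ex
  obtain ⟨φ, h0, hφ⟩ := h.exists_inv_dual ρ
  obtain ⟨φ', h0', hφ'⟩ := h.exists_inv_dual ρ'
  have e := h.inv_dual_wt hs hnt hv hφ
  have e' := h.inv_dual_wt hs' hnt' hv' hφ'
  have key : ∀ g, ∃ c : k, φ (ρ g v) = c * φ (ρ w v) ∧ φ' (ρ' g v') = c * φ' (ρ' w v') := fun g => by
    by_cases hg : g • a = a
    · obtain ⟨u, hu, y, hy, rfl⟩ := h.k.decomp h.ne.symm hg
      exact ⟨0, by simp [hφ u hu, hv.wt ⟨y, hy⟩, e], by simp [hφ' u hu, hv'.wt ⟨y, hy⟩, e']⟩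
    · obtain ⟨u', hu', c, hc, rfl⟩ := h.bruhat h1 hg
      obtain ⟨u, hu, y, hy, rfl⟩ := h.k.decomp h.ne.symm hc
      exact ⟨l ⟨y, hy⟩, by simp [hφ u' hu', hv.wt ⟨y, hy⟩, hv.fix u hu],
        by simp [hφ' u' hu', hv'.wt ⟨y, hy⟩, hv'.fix u hu]⟩
  have h3 := h2 (φ' (ρ' w v') • φ) (-φ (ρ w v) • φ') fun g => by
    obtain ⟨c, e1, e2⟩ := key g
    simp only [LinearMap.smul_apply, e1, e2, smul_eq_mul]; ring
  refine h0' (hs' _ hv'.ne _ fun g => ?_)
  obtain ⟨c, -, e2⟩ := key g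
  rw [e2, (smul_eq_zero.1 h3).resolve_right h0, mul_zero]

theorem ZT.card_odd_classes (h : ZT a b Q) :
    Nat.card {C : ConjClasses G // ∃ g, ConjClasses.mk g = C ∧ Odd (orderOf g)} ≤
      Nat.card (St G a b) + 1 := by
  haveI := Fintype.ofFinite G
  haveI : Fact (Nat.Prime 2) := ⟨Nat.prime_two⟩
  let k := AlgebraicClosure (ZMod 2)
  obtain ⟨r, d, ρ, h1, h2, h3, h4⟩ := card_odd_classes_le k G
  choose v l hv using fun i => h.exists_wt (ρ i)
  let f : Fin r → Option (St G a b →* kˣ) := fun i => if ∃ g, ρ i g ≠ 1 then some (l i) else none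
  have hf : Function.Injective f := fun i j e => by
    by_contra hij
    by_cases hi : ∃ g, ρ i g ≠ 1 <;> by_cases hj : ∃ g, ρ j g ≠ 1 <;>
      simp only [f, hi, hj, if_true, if_false, Option.some.injEq, reduceCtorEq] at e
    · exact h.not_same_wt (h2 i) (h2 j) hi hj (hv i) (e ▸ hv j) (h3 i j hij _ _ (hv i).ne)
    · push Not at hi hj
      obtain ⟨φ, hφ⟩ := not_forall.1 ((Module.forall_dual_apply_eq_zero_iff k _).not.2 (hv i).ne)
      obtain ⟨φ', hφ'⟩ := not_forall.1 ((Module.forall_dual_apply_eq_zero_iff k _).not.2 (hv j).ne)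
      have := h3 i j hij _ (v j) (hv i).ne (φ' (v j) • φ) (-φ (v i) • φ') fun g => by
        simp only [hi, hj, LinearMap.smul_apply, smul_eq_mul, Module.End.one_apply]; ring
      exact mul_ne_zero hφ' hφ (DFunLike.congr_fun this (v i))
  have hli := (linearIndependent_monoidHom (St G a b) k).comp
    (fun l : St G a b →* kˣ => (Units.coeHom k).comp l) fun l l' e =>
      MonoidHom.ext fun x => Units.ext (DFunLike.congr_fun e x)
  haveI := hli.finite

  have h6 := Nat.card_le_card_of_injective f hf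
  rw [Finite.card_option, Nat.card_fin] at h6
  have h7 : Nat.card (St G a b →* kˣ) ≤ Nat.card (St G a b) := by
    haveI := Fintype.ofFinite (St G a b →* kˣ)
    simpa using hli.fintype_card_le_finrank
  omega

end Cfsg.Agent.H7
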