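import Mathlib
import Cfsg.Agent.H7.PD
import Cfsg.Agent.H7.PermMod
import Cfsg.Agent.H7.MultiTrans

/-! The permutation module of prime degree in the natural characteristic. -/

namespace Cfsg.Agent.H7
open MulAction Polynomial Module

section poly
variable {K : Type*} [Field K]

theorem coeff_sub_taylor (P : K[X]) {d : ℕ} (h : P.natDegree = d + 1) :
    (P - taylor (-1) P).degree < (d + 1 : ℕ) ∧
      (P - taylor (-1) P).coeff d = (d + 1 : ℕ) * P.leadingCoeff := by
  have h0 : P ≠ 0 := by rintro rfl; simp at h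
  constructor
  · rw [← h, ← degree_eq_natDegree h0]
    exact degree_sub_lt (degree_taylor _ _).symm h0 (by
      rw [leadingCoeff, leadingCoeff, natDegree_taylor, coeff_taylor_natDegree]; rfl)
  · have h1 : (hasseDeriv d P).natDegree ≤ 1 := (natDegree_hasseDeriv_le P d).trans (by omega)
    rw [coeff_sub, taylor_coeff, eq_X_add_C_of_natDegree_le_one h1, hasseDeriv_coeff, hasseDeriv_coeff,
      leadingCoeff, h, add_comm 1 d]
    simp

theorem mem_of_taylor {p : ℕ} [Fact p.Prime] [CharP K p] (U : Submodule K K[X])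
    (hU : ∀ P ∈ U, taylor (-1) P ∈ U) (d : ℕ) : d < p → ∀ P ∈ U, P ≠ 0 → P.natDegree = d →
      ∀ Q : K[X], Q.degree < (d + 1 : ℕ) → Q ∈ U := by
  have key : ∀ (d : ℕ) (P Q : K[X]), P ≠ 0 → P.natDegree = d → Q.degree < (d + 1 : ℕ) →
      (Q - (Q.coeff d / P.leadingCoeff) • P).degree < d := fun d P Q h0 hP hQ => by
    rw [degree_lt_iff_coeff_zero] at hQ ⊢
    intro m hm
    rcases hm.eq_or_lt with rfl | hm
    · rw [coeff_sub, coeff_smul, ← hP, coeff_natDegree, smul_eq_mul,
        div_mul_cancel₀ _ (leadingCoeff_ne_zero.2 h0), sub_self]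
    · rw [coeff_sub, coeff_smul, hQ m hm, coeff_eq_zero_of_natDegree_lt (p := P) (by omega), smul_zero, sub_zero]
  induction d with
  | zero =>
    intro _ P hP h0 hd Q hQ
    have := key 0 P Q h0 hd hQ
    rw [Nat.cast_zero, Nat.WithBot.lt_zero_iff, degree_eq_bot, sub_eq_zero] at this
    rw [this]; exact U.smul_mem _ hP
  | succ d ih =>
    intro hp P hP h0 hd Q hQ
    obtain ⟨h1, h2⟩ := coeff_sub_taylor P hd
    have h3 : (P - taylor (-1) P).coeff d ≠ 0 := by
      rw [h2]
      exact mul_ne_zero (fun e => absurd (Nat.le_of_dvd d.succ_pos ((CharP.cast_eq_zero_iff K p _).1 e))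
        (by omega)) (leadingCoeff_ne_zero.2 h0)
    have h4 : P - taylor (-1) P ≠ 0 := fun e => h3 (by rw [e, coeff_zero])
    have := ih (by omega) _ (U.sub_mem hP (hU P hP)) h4 (le_antisymm
      (Nat.lt_succ_iff.1 ((natDegree_lt_iff_degree_lt h4).2 h1)) (le_natDegree_of_ne_zero h3)) _
      (key _ P Q h0 hd hQ)
    simpa using U.add_mem this (U.smul_mem (Q.coeff (d + 1) / P.leadingCoeff) hP)

variable {p : ℕ} [hp : Fact p.Prime] [CharP K p]

/-- evaluation of polynomials on the prime field -/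
noncomputable def evP (K : Type*) [Field K] (p : ℕ) : K[X] →ₗ[K] (ZMod p → K) :=
  LinearMap.pi fun j => leval (ZMod.cast j : K)

omit hp [CharP K p] in
theorem evP_apply (P : K[X]) (j : ZMod p) : evP K p P j = P.eval (ZMod.cast j : K) := rfl

theorem cast_inj : Function.Injective (ZMod.cast : ZMod p → K) := (ZMod.castHom dvd_rfl K).injective

theorem evP_inj {P Q : K[X]} (hP : P.degree < p) (hQ : Q.degree < p) (h : evP K p P = evP K p Q) :
    P = Q :=
  eq_of_degrees_lt_of_eval_index_eq Finset.univ (cast_inj (p := p)).injOn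
    (by rwa [Finset.card_univ, ZMod.card]) (by rwa [Finset.card_univ, ZMod.card])
    fun j _ => congrFun h j

theorem evP_surj (f : ZMod p → K) : ∃ P : K[X], P.degree < p ∧ evP K p P = f :=
  ⟨Lagrange.interpolate Finset.univ (ZMod.cast : ZMod p → K) f, by
    simpa using Lagrange.degree_interpolate_lt (s := Finset.univ) f (cast_inj (K := K) (p := p)).injOn,
    funext fun j => Lagrange.eval_interpolate_at_node f cast_inj.injOn (Finset.mem_univ j)⟩

theorem finrank_evP {r : ℕ} (hr : r ≤ p) : finrank K ((degreeLT K r).map (evP K p)) = r := by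
  rw [← LinearMap.range_domRestrict, LinearMap.finrank_range_of_inj, (degreeLTEquiv K r).finrank_eq,
    finrank_fin_fun]
  exact fun P Q h => Subtype.ext (evP_inj ((mem_degreeLT.1 P.2).trans_le (by exact_mod_cast hr))
    ((mem_degreeLT.1 Q.2).trans_le (by exact_mod_cast hr)) h)

theorem exists_evP (W : Submodule K (ZMod p → K)) (hW : ∀ f ∈ W, (fun j => f (j - 1)) ∈ W) :
    ∃ r ≤ p, W = (degreeLT K r).map (evP K p) := by
  classical
  have ex : ∃ r : ℕ, ∀ P : K[X], P.degree < p → evP K p P ∈ W → P.degree < r := ⟨p, fun _ h _ => h⟩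
  refine ⟨Nat.find ex, Nat.find_le fun _ h _ => h, le_antisymm (fun f hf => ?_) ?_⟩
  · obtain ⟨P, h1, rfl⟩ := evP_surj f
    exact ⟨P, mem_degreeLT.2 (Nat.find_spec ex P h1 hf), rfl⟩
  · rintro _ ⟨Q, hQ, rfl⟩
    rcases h : Nat.find ex with _ | d
    · rw [h, SetLike.mem_coe, mem_degreeLT, Nat.cast_zero, Nat.WithBot.lt_zero_iff, degree_eq_bot] at hQ
      rw [hQ, map_zero]; exact W.zero_mem
    · have := Nat.find_min ex (show d < Nat.find ex by omega)
      push Not at this
      obtain ⟨P, h1, h2, h3⟩ := this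
      have h0 : P ≠ 0 := by rintro rfl; simp at h3
      have h4 := Nat.find_spec ex P h1 h2
      rw [h] at h4 hQ
      rw [degree_eq_natDegree h0] at h1 h3 h4
      refine mem_of_taylor (p := p) (W.comap (evP K p)) (fun P hP => ?_) P.natDegree
        (by exact_mod_cast h1) P h2 h0 rfl Q ((mem_degreeLT.1 hQ).trans_le (by
          exact_mod_cast Nat.succ_le_succ (by exact_mod_cast h3)))
      have : evP K p (taylor (-1) P) = fun j => evP K p P (j - 1) := funext fun j => by
        rw [evP_apply, evP_apply, taylor_eval, ZMod.cast_sub dvd_rfl, ZMod.cast_one dvd_rfl,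
          sub_eq_add_neg]
      exact Submodule.mem_comap.2 (this ▸ hW _ hP)

theorem affine_of_evP {r : ℕ} (h2 : 2 ≤ r) (hr : 2 * r ≤ p) {σ : ZMod p → ZMod p}
    (h : ∀ f ∈ (degreeLT K r).map (evP K p), f ∘ σ ∈ (degreeLT K r).map (evP K p)) :
    ∃ c, ∀ j, σ (j + 1) = σ j + c := by
  have hX : ∀ j < r, evP K p (X ^ j) ∈ (degreeLT K r).map (evP K p) := fun j hj =>
    ⟨_, mem_degreeLT.2 (by rw [degree_X_pow]; exact_mod_cast hj), rfl⟩
  obtain ⟨F, hF, e⟩ := h _ (hX 1 (by omega))
  have e' : ∀ j, F.eval (ZMod.cast j : K) = ZMod.cast (σ j) := fun j => by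
    simpa [evP_apply] using congrFun e j
  have hm : F.natDegree ≤ 1 := by
    by_contra hm
    have h0 : F ≠ 0 := by rintro rfl; simp at hm
    have h1 := (natDegree_lt_iff_degree_lt h0).2 (mem_degreeLT.1 hF)
    have h3 := Nat.div_add_mod (r - 1) F.natDegree
    have h4 := Nat.mod_lt (r - 1) (show 0 < F.natDegree by omega)
    have h5 : 2 * ((r - 1) / F.natDegree) ≤ F.natDegree * ((r - 1) / F.natDegree) :=
      Nat.mul_le_mul_right _ (by omega)
    obtain ⟨Q, hQ, e2⟩ := h _ (hX ((r - 1) / F.natDegree + 1) (by omega))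
    have h6 : (F ^ ((r - 1) / F.natDegree + 1)).natDegree =
        F.natDegree * ((r - 1) / F.natDegree) + F.natDegree := by rw [natDegree_pow]; ring
    have := evP_inj (p := p) (P := Q) (Q := F ^ ((r - 1) / F.natDegree + 1))
      ((mem_degreeLT.1 hQ).trans_le (by exact_mod_cast (by omega : r ≤ p)))
      ((natDegree_lt_iff_degree_lt (pow_ne_zero _ h0)).1 (by omega))
      (e2.trans (funext fun j => by simp [evP_apply, e']))
    have h7 := (natDegree_lt_iff_degree_lt (pow_ne_zero _ h0)).2 (this ▸ mem_degreeLT.1 hQ)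
    omega
  have e3 : ∀ j, (ZMod.cast (σ (j + 1) - σ j) : K) = F.coeff 1 := fun j => by
    rw [ZMod.cast_sub dvd_rfl, ← e', ← e', eq_X_add_C_of_natDegree_le_one hm, ZMod.cast_add dvd_rfl,
      ZMod.cast_one dvd_rfl]
    simp; ring
  exact ⟨σ (0 + 1) - σ 0, fun j => by rw [← cast_inj ((e3 j).trans (e3 0).symm)]; ring⟩

end poly

variable {G Ω : Type*} [Group G] [MulAction G Ω] {p : ℕ} [hp : Fact p.Prime] {x : G}

theorem exists_zcoord [Finite G] [FaithfulSMul G Ω] (hc : Nat.card Ω = p) (hx : orderOf x = p) :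
    ∃ e : ZMod p ≃ Ω, ∀ (n : ℕ) j, x ^ n • e j = e (j + n) := by
  haveI : Finite Ω := Nat.finite_of_card_ne_zero (hc ▸ hp.out.ne_zero)
  obtain ⟨a⟩ : Nonempty Ω := (Nat.card_pos_iff.1 (hc ▸ hp.out.pos)).1
  haveI := trans_of_order hc hx
  have hs : Function.Surjective fun j : ZMod p => x ^ j.val • a := fun b => by
    obtain ⟨⟨g, hg⟩, rfl⟩ := exists_smul_eq (Subgroup.zpowers x) a b
    obtain ⟨n, rfl⟩ := (mem_powers_iff_mem_zpowers.2 hg)
    exact ⟨n, by simp only [ZMod.val_natCast, ← hx, pow_mod_orderOf]; rfl⟩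
  refine ⟨Equiv.ofBijective _ (hs.bijective_of_nat_card_le (by rw [hc, Nat.card_zmod])), fun n j => ?_⟩
  simp only [Equiv.ofBijective_apply, smul_smul, ← pow_add, ZMod.val_add, ZMod.val_natCast]
  rw [← pow_mod_orderOf x (n + _), hx, Nat.add_mod_mod, add_comm]

theorem normal_of_invariant [Finite G] [FaithfulSMul G Ω] (hc : Nat.card Ω = p) (hx : orderOf x = p)
    {K : Type*} [Field K] [CharP K p] (W : Submodule K (Ω → K))
    (hW : ∀ (g : G), ∀ f ∈ W, (fun a => f (g • a)) ∈ W) (h2 : 2 ≤ finrank K W)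
    (hr : 2 * finrank K W ≤ p) : (Subgroup.zpowers x).Normal := by
  obtain ⟨e, he⟩ := exists_zcoord hc hx
  have inv : ∀ (g : G), ∀ f ∈ W.map (LinearEquiv.funCongrLeft K K e).toLinearMap,
      f ∘ (fun j => e.symm (g • e j)) ∈ W.map (LinearEquiv.funCongrLeft K K e).toLinearMap := by
    rintro g _ ⟨f, hf, rfl⟩
    exact ⟨_, hW g f hf, funext fun j => by simp⟩
  obtain ⟨r, h1, h3⟩ := exists_evP (W.map (LinearEquiv.funCongrLeft K K e).toLinearMap) fun f hf => by
    convert inv x⁻¹ f hf using 1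
    refine funext fun j => congrArg f ?_
    rw [Equiv.eq_symm_apply, eq_inv_smul_iff, ← pow_one x, he]; simp
  have h4 := finrank_evP (K := K) h1
  rw [← h3, LinearEquiv.finrank_map_eq] at h4
  rw [h3] at inv
  refine ⟨?_⟩
  rintro _ ⟨i, rfl⟩ g
  obtain ⟨c, h5⟩ := affine_of_evP (h4 ▸ h2) (h4 ▸ hr) (inv g)
  have : g * x * g⁻¹ = x ^ c.val := eq_of_smul_eq_smul (α := Ω) fun a => by
    obtain ⟨j, hj⟩ := e.surjective (g⁻¹ • a)
    have h6 := h5 j
    rw [Equiv.symm_apply_eq, ← Nat.cast_one, ← he, pow_one, ← ZMod.natCast_zmod_val c, ← he,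
      Equiv.apply_symm_apply, hj, smul_inv_smul] at h6
    rw [mul_smul, mul_smul, h6]
  simp only
  rw [← conj_zpow, this]
  exact zpow_mem (pow_mem (Subgroup.mem_zpowers x) _) i

theorem heart_irr [Finite G] [Fintype Ω] [FaithfulSMul G Ω] [IsPretransitive G Ω] (hc : Nat.card Ω = p)
    (hG : ¬ Group.IsSolvable G) {K : Type*} [Field K] [CharP K p] (W : Subrepresentation (permRep K G Ω))
    (h₁ : (permConstants K G Ω).toSubmodule ≤ W.toSubmodule)
    (h₂ : W.toSubmodule ≤ (permSumZero K G Ω).toSubmodule) :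
    W = permConstants K G Ω ∨ W = permSumZero K G Ω := by
  classical
  obtain ⟨x, L, d, hL⟩ := exists_D1_prime_degree (G := G) hc
  letI := Fintype.ofFinite L
  obtain ⟨a⟩ : Nonempty Ω := (Nat.card_pos_iff.1 (hc ▸ hp.out.pos)).1
  have hW : ∀ (g : G), ∀ f ∈ W.toSubmodule, (fun a => f (g • a)) ∈ W.toSubmodule := fun g f hf => by
    simpa [permRep] using W.apply_mem_toSubmodule g⁻¹ hf
  have hd : finrank K (Ω → K) = p := by rw [finrank_fintype_fun_eq_card, ← hc, Nat.card_eq_fintype_card]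
  have f1 : finrank K (permConstants K G Ω).toSubmodule = 1 :=
    finrank_span_singleton fun e => one_ne_zero (congrFun e a)
  have f2 : finrank K (permSumZero K G Ω).toSubmodule < p := hd ▸ Submodule.finrank_lt fun e => by
    have := mem_permSumZero.1 (e.ge (Submodule.mem_top (x := Pi.single a 1)))
    simp at this
  by_cases c1 : finrank K W.toSubmodule ≤ 1
  · exact Or.inl (Subrepresentation.toSubmodule_injective
      (Submodule.eq_of_le_of_finrank_le h₁ (by omega)).symm)
  by_cases c2 : p ≤ finrank K W.toSubmodule + 1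
  · exact Or.inr (Subrepresentation.toSubmodule_injective
      (Submodule.eq_of_le_of_finrank_le h₂ (by omega)))
  refine absurd (d.solvable_of_normal hL ?_) hG
  by_cases c3 : 2 * finrank K W.toSubmodule ≤ p
  · exact normal_of_invariant hc d.ord _ hW (by omega) c3
  have e := LinearMap.BilinForm.finrank_orthogonal (B := Matrix.toBilin' (1 : Matrix Ω Ω K))
    (Matrix.Nondegenerate.toBilin' (Matrix.nondegenerate_of_det_ne_zero (by simp))) W.toSubmodule
  refine normal_of_invariant hc d.ord (LinearMap.BilinForm.orthogonal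
    (Matrix.toBilin' (1 : Matrix Ω Ω K)) W.toSubmodule) (fun g f hf w hw => ?_) (by omega) (by omega)
  have := hf _ (hW g⁻¹ w hw)
  simp only [LinearMap.BilinForm.IsOrtho, Matrix.toBilin'_apply', Matrix.one_mulVec, dotProduct] at this ⊢
  rw [← this]
  exact Fintype.sum_equiv (MulAction.toPerm g) _ _ fun y => by simp

end Cfsg.Agent.H7
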