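import Mathlib
import Cfsg.Agent.H7.Neu
import Cfsg.Agent.H7.Normal
import Cfsg.Agent.H1.Hall
import Cfsg.Agent.S0672

/-! Neumann's theorem on groups of prime degree. -/

namespace Cfsg.Agent.H7
open MulAction Subgroup Pointwise

variable {G Ω : Type*} [Group G] [MulAction G Ω] {p : ℕ} [hp : Fact p.Prime]

theorem exists_refl [Finite G] [FaithfulSMul G Ω] [IsPretransitive G Ω] (hc : Nat.card Ω = p)
    (h2 : p ≠ 2) (P : Sylow p G) (he : Even (Nat.card (normalizer ((P : Subgroup G) : Set G)))) :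
    ∃ (x t : G) (e : ZMod p ≃ Ω) (c : ZMod p), orderOf x = p ∧ ¬ p ∣ (zpowers x).index ∧
      (∀ (n : ℕ) j, x ^ n • e j = e (j + n)) ∧ ∀ j, t • e j = e (c - j) := by
  obtain ⟨x, L, d, hL⟩ := exists_D1_prime_degree (G := G) hc
  letI := Fintype.ofFinite L
  have h1 := card_sylow_mul_card_normalizer P
  rw [← card_sylow_mul_card_normalizer d.syl, mul_right_inj' Nat.card_pos.ne', d.coe_syl] at h1
  obtain ⟨t, ht, ot⟩ := H1.exists_mem_orderOf_eq_prime Nat.prime_two (h1 ▸ he.two_dvd)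
  have hy := (mem_normalizer_iff.1 ht x).1 (mem_zpowers x)
  have cm : x * (t * x * t⁻¹) = t * x * t⁻¹ * x := by
    obtain ⟨i, hi⟩ := hy
    rw [← hi]; exact (Commute.self_zpow x i).eq
  have tt : t * t = 1 := by rw [← pow_two, ← ot, pow_orderOf_eq_one]
  have inv : t * x * t⁻¹ = x⁻¹ := by
    by_contra a
    have e := eq_zpowers_of_card_prime hp.out (by rw [Nat.card_zpowers, d.ord])
      (mul_mem (mem_zpowers x) hy) fun b => a (eq_inv_of_mul_eq_one_right b)
    have h3 : t ∈ centralizer ({x * (t * x * t⁻¹)} : Set G) := mem_centralizer_singleton_iff.2 (by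
      calc t * (x * (t * x * t⁻¹)) = t * x * t⁻¹ * (t * t) * x * (t * t)⁻¹ * t := by group
        _ = _ := by rw [tt, cm]; group)
    rw [← centralizer_zpowers, e, centralizer_zpowers, d.cent_eq hL] at h3
    have := orderOf_dvd_natCard _ h3
    rw [ot, Nat.card_zpowers, d.ord] at this
    exact h2 ((Nat.prime_dvd_prime_iff_eq Nat.prime_two hp.out).1 this).symm
  obtain ⟨e, he⟩ := exists_zcoord hc d.ord
  refine ⟨x, t, e, e.symm (t • e 0), d.ord, d.idx, he, fun j => ?_⟩
  have h3 : x ^ j.val * t * x ^ j.val = t := by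
    have : t * x ^ j.val * t⁻¹ = (x ^ j.val)⁻¹ := by rw [← conj_pow, inv, inv_pow]
    rw [mul_assoc, mul_inv_eq_iff_eq_mul.1 this, mul_inv_cancel_left]
  apply smul_left_cancel (x ^ j.val)
  rw [he, ZMod.natCast_zmod_val, sub_add_cancel, Equiv.apply_symm_apply]
  conv_rhs => rw [← h3, mul_smul, mul_smul, he, ZMod.natCast_zmod_val, zero_add]

theorem neumann [Finite G] [Fintype Ω] [FaithfulSMul G Ω] [IsPretransitive G Ω] (hc : Nat.card Ω = p)
    (hG : ¬ Group.IsSolvable G) (P : Sylow p G)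
    (he : Even (Nat.card (normalizer ((P : Subgroup G) : Set G)))) : IsMultiplyPretransitive G Ω 3 := by
  classical
  by_cases h2 : p = 2
  · exact mt_iff_fun.2 fun x _ hx => absurd (Nat.card_le_card_of_injective x hx) (by rw [hc, h2]; simp)
  obtain ⟨x, t, e, c, ox, -, hx, ht⟩ := exists_refl hc h2 P he
  have h3 : 2 < p := lt_of_le_of_ne hp.out.two_le (Ne.symm h2)
  have two : (2 : ZMod p) ≠ 0 := fun a => absurd (Nat.le_of_dvd two_pos
    ((CharP.cast_eq_zero_iff (ZMod p) p 2).1 (by exact_mod_cast a))) (by omega)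
  have bt := burnside_prime hc hG
  refine S0672.result (K := ZMod p) (p := p) bt (by rw [← Nat.card_eq_fintype_card, hc]) (fun a => ?_)
    fun f hf => ?_
  · obtain ⟨j, rfl⟩ := e.surjective a
    have m : x ^ (2 * j - c).val * t ∈ stabilizer G (e j) := by
      rw [mem_stabilizer_iff, mul_smul, ht, hx, ZMod.natCast_zmod_val]; congr 1; ring
    refine even_iff_two_dvd.2 ((orderOf_eq_prime ?_ ?_).symm.dvd.trans (orderOf_dvd_natCard _ m))
    · refine eq_of_smul_eq_smul (α := Ω) fun a => ?_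
      obtain ⟨i, rfl⟩ := e.surjective a
      simp only [pow_two, mul_smul, ht, hx, one_smul]; congr 1; ring
    · intro a
      have := congrArg (· • e (j + 1)) a
      simp only [mul_smul, ht, hx, one_smul, ZMod.natCast_zmod_val, e.injective.eq_iff] at this
      exact two (by linear_combination -this)
  let W : Subrepresentation (permRep (ZMod p) G Ω) :=
    ⟨(LinearMap.ker f.toLinearMap).map (permSumZero (ZMod p) G Ω).toSubmodule.subtype, by
      rintro g _ ⟨v, hv, rfl⟩
      refine ⟨(permSumZero (ZMod p) G Ω).toRepresentation g v, ?_, rfl⟩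
      have : f v = 0 := hv
      change f _ = 0
      rw [f.isIntertwining, this, map_zero]⟩
  have cs : ∀ v ∈ (permConstants (ZMod p) G Ω).toSubmodule, v ∈ (permSumZero (ZMod p) G Ω).toSubmodule :=
    fun v hv => by
      obtain ⟨t, ht⟩ := mem_permConstants.1 hv
      exact mem_permSumZero.2 (by simp [ht, ← Nat.card_eq_fintype_card, hc])
  rcases heart_irr hc hG W (fun v hv => ⟨⟨v, cs v hv⟩, hf _ hv, rfl⟩) (Submodule.map_subtype_le _ _)
    with h | h
  · exfalso
    have s0 : (e.symm : Ω → ZMod p) ∈ (permSumZero (ZMod p) G Ω).toSubmodule := mem_permSumZero.2 (by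
      have h1 : ∑ a, e.symm a = ∑ j : ZMod p, j := Equiv.sum_comp e.symm id
      have h4 : ∑ j : ZMod p, -j = ∑ j : ZMod p, j := Equiv.sum_comp (Equiv.neg _) id
      rw [Finset.sum_neg_distrib] at h4
      rw [h1]
      exact (mul_eq_zero.1 (show 2 * ∑ j : ZMod p, j = 0 by linear_combination -h4)).resolve_left two)
    have act : ∀ (g : G) (ε k : ZMod p), (∀ j, g • e j = e (ε * j + k)) → ∀ s,
        f ⟨_, s0⟩ (g • s) = ε * f ⟨_, s0⟩ s := fun g ε k hg s => by
      have h1 := hf ((permSumZero (ZMod p) G Ω).toRepresentation g⁻¹ ⟨_, s0⟩ - ε • ⟨_, s0⟩)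
        (mem_permConstants.2 ⟨k, fun a => by
          obtain ⟨j, rfl⟩ := e.surjective a
          change e.symm (g⁻¹⁻¹ • e j) - ε * e.symm (e j) = k
          simp [hg]⟩)
      rw [map_sub, map_smul, f.isIntertwining, sub_eq_zero] at h1
      simpa [permRep_apply] using congrFun h1 s
    have z : f ⟨_, s0⟩ = 0 := funext fun s => by
      obtain ⟨a, b, hab, hs⟩ := Finset.card_eq_two.1 (show s.1.card = 2 from s.2)
      obtain ⟨i, rfl⟩ := e.surjective a
      obtain ⟨j, rfl⟩ := e.surjective b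
      have h1 := act (x ^ (i + j - c).val * t) (-1) (i + j) (fun k => by
        rw [mul_smul, ht, hx, ZMod.natCast_zmod_val]; congr 1; ring) s
      have h4 : (x ^ (i + j - c).val * t) • s = s := Subtype.ext (by
        rw [Set.powersetCard.coe_smul, hs, Finset.smul_finset_insert, Finset.smul_finset_singleton,
          mul_smul, mul_smul, ht, ht, hx, hx, ZMod.natCast_zmod_val, Finset.pair_comm]
        congr 2 <;> ring_nf)
      rw [h4] at h1
      exact (mul_eq_zero.1 (show 2 * f ⟨_, s0⟩ s = 0 by linear_combination h1)).resolve_left two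
    obtain ⟨k, hk⟩ := mem_permConstants.1 (h ▸ ⟨⟨_, s0⟩, z, rfl⟩ :
      (e.symm : Ω → ZMod p) ∈ (permConstants (ZMod p) G Ω).toSubmodule)
    exact zero_ne_one (by simpa using (hk (e 0)).trans (hk (e 1)).symm : (0 : ZMod p) = 1)
  · refine DFunLike.ext _ _ fun v => ?_
    obtain ⟨w, hw, e⟩ : v.1 ∈ W.toSubmodule := by rw [h]; exact v.2
    rwa [← show w = v from Subtype.ext e]

theorem parity_refl (h2 : (2 : ZMod p) ≠ 0) (R : Finset (ZMod p)) (y : ZMod p)
    (hR : ∀ z ∈ R, 2 * y - z ∈ R) : Even R.card ↔ y ∉ R := by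
  have : Even (R.erase y).card := by
    rw [← ZMod.natCast_eq_zero_iff_even, Finset.card_eq_sum_ones, Nat.cast_sum]
    refine Finset.sum_involution (fun z _ => 2 * y - z) (fun _ _ => by decide) (fun z hz _ e => ?_)
      (fun z hz => Finset.mem_erase.2 ⟨fun e => (Finset.mem_erase.1 hz).1 (by linear_combination -e),
        hR z (Finset.mem_erase.1 hz).2⟩) fun z _ => by ring
    exact (Finset.mem_erase.1 hz).1 (mul_left_cancel₀ h2 (by linear_combination -e))
  by_cases h : y ∈ R
  · rw [← Finset.card_erase_add_one h, Nat.even_add_one]; exact iff_of_false (not_not.2 this) (not_not.2 h)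
  · rw [Finset.erase_eq_of_notMem h] at this; simp [h, this]

theorem eq_stabilizer [Finite G] [FaithfulSMul G Ω] [IsPretransitive G Ω] (hc : Nat.card Ω = p)
    (P : Sylow p G) (he : Even (Nat.card (normalizer ((P : Subgroup G) : Set G)))) (H : Subgroup G)
    (hH : H.index = p) : ∃ a : Ω, H = stabilizer G a := by
  classical
  haveI : Finite Ω := Nat.finite_of_card_ne_zero (hc ▸ hp.out.ne_zero)
  obtain ⟨a⟩ : Nonempty Ω := (Nat.card_pos_iff.1 (hc ▸ hp.out.pos)).1
  have si : ∀ b : Ω, (stabilizer G b).index = p := fun b => by rw [index_stabilizer_of_transitive, hc]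
  suffices ∃ b : Ω, H ≤ stabilizer G b by
    obtain ⟨b, hb⟩ := this
    refine ⟨b, eq_of_le_of_card_ge hb (le_of_eq (Nat.eq_of_mul_eq_mul_right hp.out.pos ?_))⟩
    conv_lhs => rw [← si b]
    rw [← hH, card_mul_index, card_mul_index]
  obtain ⟨x0, L, d, -⟩ := exists_D1_prime_degree (G := G) hc
  have nd : ∀ U : Subgroup G, U.index = p → ¬ p ∣ Nat.card U := fun U hU a => d.idx (by
    have h1 := U.card_mul_index
    rw [← (zpowers x0).card_mul_index, Nat.card_zpowers, d.ord, hU, mul_comm] at h1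
    rwa [← Nat.eq_of_mul_eq_mul_left hp.out.pos h1])
  by_cases hG : Group.IsSolvable G
  · obtain ⟨g, hg⟩ := H1.hall_conj_le (π := {q | q ≠ p}) hG (H := stabilizer G a) (U := H)
      ⟨fun q _ h e => nd _ (si a) (e ▸ h), fun q h1 h e => h ((Nat.prime_dvd_prime_iff_eq h1 hp.out).1
        (si a ▸ e))⟩ fun q _ h e => nd _ hH (e ▸ h)
    refine ⟨g⁻¹ • a, fun k hk => ?_⟩
    have := hg (smul_mem_pointwise_smul k _ _ hk)
    rw [mem_stabilizer_iff, MulAut.smul_def, MulAut.conj_apply, mul_smul, mul_smul] at this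
    exact eq_inv_smul_iff.2 this
  have h2 : p ≠ 2 := by
    rintro rfl
    have h1 := Nat.card_le_card_of_injective _ (toPerm_injective (α := G) (β := Ω))
    rw [Nat.card_perm, hc] at h1
    haveI : IsCyclic G := isCyclic_of_card_dvd_prime (p := 2) (by
      have : 0 < Nat.card G := Nat.card_pos
      change Nat.card G ≤ 2 at h1
      interval_cases Nat.card G <;> simp)
    exact hG (isSolvable_of_comm fun a b => IsCyclic.commGroup.mul_comm a b)
  obtain ⟨x, t, e, c, ox, -, hx, ht⟩ := exists_refl hc h2 P he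
  have two : (2 : ZMod p) ≠ 0 := fun a => absurd (Nat.le_of_dvd two_pos
    ((CharP.cast_eq_zero_iff (ZMod p) p 2).1 (by exact_mod_cast a))) (by have := hp.out.two_le; omega)
  haveI : IsPreprimitive G Ω := IsPreprimitive.of_prime_card (hc ▸ hp.out)
  haveI : FaithfulSMul G (G ⧸ H) := ⟨fun {g g'} e => by
    by_cases h0 : H.normalCore = ⊥
    · rw [← mul_inv_eq_one, ← mem_bot, ← h0, normalCore_eq_ker]
      exact Equiv.ext fun y => by simp [mul_smul, e]
    · haveI := normal_trans (α := Ω) _ h0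
      refine absurd (Dvd.dvd.trans ?_ (card_dvd_of_le H.normalCore_le)) (nd _ hH)
      rw [card_eq_card_mul_card_stabilizer (G := H.normalCore) a, hc]
      exact dvd_mul_right _ _⟩
  have bt := burnside_prime (G := G) (Ω := G ⧸ H) hH hG
  let B : Finset (ZMod p) := {j | ∃ k ∈ H, k • a = e j}
  have mB : ∀ j, j ∈ B ↔ ∃ k ∈ H, k • a = e j := fun j => by simp [B]
  have hB : ∀ k ∈ H, ∀ j, e.symm (k • e j) ∈ B ↔ j ∈ B := fun k hk j => by
    rw [mB, mB, Equiv.apply_symm_apply]
    exact ⟨fun ⟨u, h1, h2⟩ => ⟨k⁻¹ * u, mul_mem (inv_mem hk) h1, by rw [mul_smul, h2, inv_smul_smul]⟩,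
      fun ⟨u, h1, h2⟩ => ⟨k * u, mul_mem hk h1, by rw [mul_smul, h2]⟩⟩
  have nH : ∀ j : ZMod p, j ≠ 0 → ((x ^ j.val : G) : G ⧸ H) ≠ ((1 : G) : G ⧸ H) := fun j hj a => by
    rw [eq_comm, QuotientGroup.eq, inv_one, one_mul] at a
    have h1 := orderOf_dvd_natCard _ a
    rw [(Nat.Coprime.orderOf_pow (by
      rw [ox]; exact (Nat.coprime_of_lt_prime (by simpa using hj) j.val_lt hp.out)) : _), ox] at h1
    exact nd _ hH h1
  obtain ⟨m, hm⟩ : ∃ m : ZMod p, ∀ j ∈ B, 2 * m - j ∈ B := by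
    obtain ⟨⟨g, hg⟩, h1⟩ := (trans_of_order (Ω := G ⧸ H) hH ox).exists_smul_eq (t : G ⧸ H) ((1 : G) : G ⧸ H)
    obtain ⟨n, rfl⟩ := mem_powers_iff_mem_zpowers.2 hg
    have h3 : x ^ n * t ∈ H := by simpa using QuotientGroup.eq.1 h1.symm
    refine ⟨(c + n) / 2, fun j hj => ?_⟩
    have := (hB _ h3 j).2 hj
    rw [mul_smul, ht, hx, Equiv.symm_apply_apply] at this
    convert this using 1
    field_simp; ring
  have cst : ∀ i j : ZMod p, i ≠ 0 → j ≠ 0 →
      (B.filter fun z => z + i ∈ B).card = (B.filter fun z => z + j ∈ B).card := fun i j hi hj => by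
    obtain ⟨g, g1, g2⟩ := mt_two bt (nH (-i) (neg_ne_zero.2 hi)).symm (nH (-j) (neg_ne_zero.2 hj)).symm
    have g3 : g ∈ H := by simpa using QuotientGroup.eq.1 g1.symm
    have g4 := QuotientGroup.eq.1 g2.symm
    have g5 : ∀ z, e.symm (g • e z) + j = e.symm (((x ^ (-j).val)⁻¹ * (g • x ^ (-i).val)) • e (z + i)) :=
      fun z => by
        rw [Equiv.eq_symm_apply, mul_smul, eq_inv_smul_iff, hx, smul_eq_mul, mul_smul, hx]
        simp
    refine Finset.card_bij (fun z _ => e.symm (g • e z)) (fun z hz => ?_)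
      (fun _ _ _ _ h => by simpa using h) fun z hz => ⟨e.symm (g⁻¹ • e z), ?_, by simp⟩
    · rw [Finset.mem_filter] at hz ⊢
      exact ⟨(hB g g3 z).2 hz.1, by rw [g5, hB _ g4]; exact hz.2⟩
    · rw [Finset.mem_filter] at hz ⊢
      refine ⟨(hB _ (inv_mem g3) z).2 hz.1, ?_⟩
      rw [← hB _ g4, ← g5]; simpa using hz.2
  have par : ∀ y, y ≠ m → (Even (B.filter fun z => z + 2 * (m - y) ∈ B).card ↔ y ∉ B) := fun y hy => by
    rw [parity_refl two _ y fun z hz => ?_]
    · simp only [Finset.mem_filter, not_iff_not, and_iff_left_iff_imp]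
      exact fun h => by convert hm y h using 1; ring
    · rw [Finset.mem_filter] at hz ⊢
      exact ⟨by convert hm _ hz.2 using 1; ring, by convert hm _ hz.1 using 1; ring⟩
  have same : ∀ y y', y ≠ m → y' ≠ m → (y ∈ B ↔ y' ∈ B) := fun y y' h h' => by
    rw [← not_iff_not, ← par y h, ← par y' h', cst _ _ (mul_ne_zero two (sub_ne_zero.2 h.symm))
      (mul_ne_zero two (sub_ne_zero.2 h'.symm))]
  refine ⟨e m, fun k hk => ?_⟩
  by_contra ne
  have ne' : e.symm (k • e m) ≠ m := fun h => ne (e.symm_apply_eq.1 h)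
  have all : ∀ y, y ∈ B ↔ m ∈ B := fun y => by
    by_cases h : y = m
    · rw [h]
    · rw [same y _ h ne', hB k hk]
  have a0 : e.symm a ∈ B := (mB _).2 ⟨1, one_mem _, by simp⟩
  haveI : IsPretransitive H Ω := (isPretransitive_iff_base a).2 fun y => by
    obtain ⟨u, h1, h3⟩ := (mB _).1 ((all (e.symm y)).2 ((all _).1 a0))
    exact ⟨⟨u, h1⟩, by simpa using h3⟩
  refine nd _ hH ?_
  rw [card_eq_card_mul_card_stabilizer (G := H) a, hc]
  exact dvd_mul_right _ _

end Cfsg.Agent.H7
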