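import Mathlib
import Cfsg.Agent.H7.Neu2
import Cfsg.Agent.H7.BSW1
import Cfsg.Agent.H2.Invol2
import Cfsg.Agent.S0713

/-! Arithmetic of non-solvable groups of prime degree. -/

namespace Cfsg.Agent.H7
open MulAction Subgroup

variable {G Ω : Type*} [Group G] [MulAction G Ω] {p : ℕ} [hp : Fact p.Prime]

theorem desc_dvd_card [Finite Ω] {k : ℕ} (h : IsMultiplyPretransitive G Ω k) (hk : k ≤ Nat.card Ω) :
    (Nat.card Ω).descFactorial k ∣ Nat.card G := by
  classical
  letI := Fintype.ofFinite Ω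
  haveI : IsPretransitive G (Fin k ↪ Ω) := h
  obtain ⟨x⟩ : Nonempty (Fin k ↪ Ω) := Function.Embedding.nonempty_of_card_le (by
    rwa [Fintype.card_fin, ← Nat.card_eq_fintype_card])
  rw [card_eq_card_mul_card_stabilizer (G := G) x, Nat.card_eq_fintype_card (α := Fin k ↪ Ω),
    Fintype.card_embedding_eq, Fintype.card_fin, Nat.card_eq_fintype_card]
  exact dvd_mul_right _ _

theorem normal_trans_prime [Finite G] [FaithfulSMul G Ω] [IsPretransitive G Ω] (hc : Nat.card Ω = p)
    (N : Subgroup G) [N.Normal] (hN : N ≠ ⊥) : IsPretransitive N Ω ∧ p ∣ Nat.card N := by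
  haveI : IsPreprimitive G Ω := IsPreprimitive.of_prime_card (hc ▸ hp.out)
  obtain ⟨a⟩ : Nonempty Ω := (Nat.card_pos_iff.1 (hc ▸ hp.out.pos)).1
  haveI := normal_trans (α := Ω) N hN
  exact ⟨this, by rw [card_eq_card_mul_card_stabilizer (G := N) a, hc]; exact dvd_mul_right _ _⟩

theorem index_two_nonsolvable [Finite G] [FaithfulSMul G Ω] [IsPretransitive G Ω] (hc : Nat.card Ω = p)
    (hG : ¬ Group.IsSolvable G) {N : Subgroup G} (hN : N.index = 2) :
    IsPretransitive N Ω ∧ ¬ Group.IsSolvable N := by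
  haveI := normal_of_index_eq_two hN
  have : ¬ Group.IsSolvable N := fun _ => by
    haveI : IsCyclic (G ⧸ N) := isCyclic_of_prime_card (p := 2) hN
    haveI := isSolvable_of_comm (G := G ⧸ N) fun a b => IsCyclic.commGroup.mul_comm a b
    exact hG (solvable_of_ker_le_range N.subtype (QuotientGroup.mk' N) (by simp))
  exact ⟨(normal_trans_prime hc N (by rintro rfl; exact this inferInstance)).1, this⟩

theorem prime_degree_data [Finite G] [FaithfulSMul G Ω] [IsPretransitive G Ω] (hc : Nat.card Ω = p)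
    (hG : ¬ Group.IsSolvable G) : ∃ e n : ℕ, Nat.card G = n * (p * e) ∧ e ∣ p - 1 ∧ e ≠ 1 ∧
      n ≡ 1 [MOD p] ∧ p * (p - 1) ∣ Nat.card G ∧ 4 ∣ Nat.card G ∧ (e.Prime → IsSimpleGroup G) ∧
      (∀ P : Sylow p G, Nat.card (normalizer ((P : Subgroup G) : Set G)) = p * e) ∧
      (Even e → IsMultiplyPretransitive G Ω 3) := by
  haveI : Finite Ω := Nat.finite_of_card_ne_zero (hc ▸ hp.out.ne_zero)
  letI := Fintype.ofFinite Ω
  obtain ⟨x, L, d, hL⟩ := exists_D1_prime_degree (G := G) hc
  letI := Fintype.ofFinite L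
  have key : ∀ {H : Type _} [Group H] [Finite H] [MulAction H Ω] [FaithfulSMul H Ω] [IsPretransitive H Ω],
      ¬ Group.IsSolvable H → p * (p - 1) ∣ Nat.card H := fun h => by
    have := desc_dvd_card (burnside_prime hc h) (hc ▸ hp.out.two_le)
    rwa [hc, Nat.descFactorial_succ, Nat.descFactorial_one, mul_comm] at this
  have ev : 2 ∣ p * (p - 1) := (Nat.even_mul_pred_self p).two_dvd
  have hN : ∀ P : Sylow p G, Nat.card (normalizer ((P : Subgroup G) : Set G)) = p * Nat.card (Eg d) :=
    fun P => Nat.eq_of_mul_eq_mul_left Nat.card_pos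
      ((card_sylow_mul_card_normalizer P).trans (d.card_G hL))
  refine ⟨_, _, d.card_G hL, card_Eg_dvd d, fun e => ?_, card_sylow_modEq_one p G, key hG, ?_,
    fun h => (d.simple_of_prime hL (fun N _ h => (normal_trans_prime hc N h).2) (fun e => ?_) h).1, hN,
    fun h => neumann hc hG d.syl (by rw [hN]; exact h.mul_left _)⟩
  · by_cases h : commutator G = ⊥
    · haveI := (commutator_eq_bot_iff G).1 h
      exact hG (isSolvable_of_comm mul_comm')
    · exact not_dvd_card_sylow p G ((d.e_one hL e).2.2 ▸ (normal_trans_prime hc _ h).2)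
  · by_contra h4
    obtain ⟨T⟩ : Nonempty (Sylow 2 G) := inferInstance
    have h2 := ev.trans (key hG)
    obtain ⟨k, hk⟩ := IsPGroup.iff_card.1 T.2
    have : k ≤ 1 := by
      by_contra a
      exact h4 (((pow_dvd_pow 2 (by omega : 2 ≤ k)).trans hk.symm.dvd).trans (card_subgroup_dvd_card _))
    obtain ⟨N, hN⟩ := H2.index_two_of_cyclic (even_iff_two_dvd.2 h2) T
      (isCyclic_of_card_dvd_prime (p := 2) (by
        change Nat.card T.toSubgroup ∣ 2
        rw [hk]; interval_cases k <;> simp))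
    obtain ⟨h5, h6⟩ := index_two_nonsolvable hc hG hN
    have := ev.trans (key h6)
    rw [← N.card_mul_index, hN] at h4
    omega
  · haveI : Unique (Sylow p G) := (Nat.card_eq_one_iff_unique.1 e).2.some |> fun P =>
      { default := P, uniq := fun Q => (Nat.card_eq_one_iff_unique.1 e).1.elim _ _ }
    exact hG (d.solvable_of_normal hL (Sylow.normal_of_subsingleton d.syl))

theorem le_alt_of_simple {α : Type*} [Fintype α] [DecidableEq α] (G : Subgroup (Equiv.Perm α))
    [IsSimpleGroup G] (h : 2 < Nat.card G) : G ≤ alternatingGroup α := by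
  rcases (inferInstance : ((alternatingGroup α).subgroupOf G).Normal).eq_bot_or_eq_top with e | e
  · have h1 := relIndex_dvd_index_of_normal (alternatingGroup α) G
    rw [relIndex, e, index_bot] at h1
    have h2 : (alternatingGroup α).index ≤ 2 := by
      rcases subsingleton_or_nontrivial α with _ | _
      · rw [Subsingleton.elim (alternatingGroup α) ⊤]; simp
      · exact alternatingGroup.index_eq_two.le
    have := Nat.le_of_dvd (Nat.pos_of_ne_zero index_ne_zero_of_finite) h1
    omega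
  · exact subgroupOf_eq_top.1 e

theorem dvd_index_of_not_le {α : Type*} [Fintype α] [DecidableEq α] (G : Subgroup (Equiv.Perm α))
    (h : IsPreprimitive G α) (hA : ¬ alternatingGroup α ≤ G) {q : ℕ} (hq : q.Prime)
    (hn : q + 3 ≤ Fintype.card α) : (∀ g ∈ G, g.IsCycle → g.support.card ≠ q) ∧ q ∣ G.index := by
  have k : ∀ g ∈ G, g.IsCycle → g.support.card ≠ q := fun g hg h1 h2 =>
    hA (S0713.result G h hq (by have := hq.two_le; omega) hn h1 h2 hg)
  refine ⟨k, ?_⟩
  by_contra a
  haveI := Fact.mk hq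
  obtain ⟨c, hc⟩ := (Equiv.Perm.exists_with_cycleType_iff α (m := {q})).2 ⟨by
    simp; omega, by simpa using hq.two_le⟩
  have c1 : c.IsCycle := Equiv.Perm.card_cycleType_eq_one.1 (by simp [hc])
  have c2 : c.support.card = q := by rw [← Equiv.Perm.sum_cycleType, hc]; simp
  obtain ⟨g, hg⟩ := exists_cj_le_of_index a (H2.isPGroup_zpowers_of_orderOf (x := c) (k := 1)
    (by rw [c1.orderOf, c2, pow_one]))
  refine k _ (H2.mem_cj.1 (hg (mem_zpowers c))) ?_ ?_
  · simpa using c1.conj (g := g⁻¹)
  · simpa [c2] using Equiv.Perm.card_support_conj (σ := g⁻¹) (τ := c)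

end Cfsg.Agent.H7
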