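import Mathlib
import Cfsg.Agent.H7.PD
import Cfsg.Agent.H7.PermMod
import Cfsg.Agent.H7.Count

/-! The centraliser ring of a representation; permutation characters. -/

namespace Cfsg.Agent.H7
open Cfsg H3 MulAction Module LinearMap Finset
open scoped ComplexConjugate

variable {G : Type*} [Group G]

section rep
variable {V : Type*} [AddCommGroup V] [Module ℂ V] [FiniteDimensional ℂ V] (ρ : Representation ℂ G V)

/-- trace function of an operator -/
noncomputable def trF (T : End ℂ V) : G → ℂ := fun g => trace ℂ V (ρ g * T)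

variable {ρ} {T : End ℂ V}

theorem trF_spec (hT : ∀ g, Commute T (ρ g)) : ∃ (S : Finset ℂ) (π : ℂ → G → ℂ),
    (∀ μ, IsCharacter G (π μ)) ∧ (∀ μ ∈ S, T.HasEigenvalue μ) ∧
      ∀ j : ℕ, trF ρ (T ^ j) = ∑ μ ∈ S, μ ^ j • π μ := by
  classical
  have hds := DirectSum.isInternal_submodule_of_iSupIndep_of_iSup_eq_top
    T.independent_maxGenEigenspace (End.iSup_maxGenEigenspace_eq_top T)
  have fin : {μ | T.maxGenEigenspace μ ≠ ⊥}.Finite :=
    WellFoundedGT.finite_ne_bot_of_iSupIndep T.independent_maxGenEigenspace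
  let W : ℂ → Subrepresentation ρ := fun μ =>
    ⟨T.maxGenEigenspace μ, fun g v hv => T.mapsTo_maxGenEigenspace_of_comm (hT g) μ hv⟩
  refine ⟨fin.toFinset, fun μ => (W μ).toRepresentation.character, fun μ => isCharacter_character _,
    fun μ hμ => End.hasEigenvalue_of_hasGenEigenvalue (k := finrank ℂ V) ?_, fun j => funext fun g => ?_⟩
  · rw [Set.Finite.mem_toFinset, Set.mem_setOf_eq, End.maxGenEigenspace_eq_genEigenspace_finrank] at hμ
    exact hμ
  · have m : ∀ (j : ℕ) μ, Set.MapsTo (ρ g * T ^ j) (T.maxGenEigenspace μ) (T.maxGenEigenspace μ) :=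
      fun j μ => T.mapsTo_maxGenEigenspace_of_comm ((hT g).mul_right (Commute.self_pow T j)) μ
    rw [trF, trace_eq_sum_trace_restrict' hds fin (m j), Finset.sum_apply]
    refine sum_congr rfl fun μ _ => ?_
    induction j with
    | zero => simp only [pow_zero, one_smul]; congr 1
    | succ j ih =>
      have h1 := T.mapsTo_maxGenEigenspace_of_comm (Commute.refl T) μ
      rw [show (ρ g * T ^ (j + 1)).restrict (m (j + 1) μ) = (ρ g * T ^ j).restrict (m j μ) ∘ₗ T.restrict h1
        from by ext v; change (ρ g * T ^ (j + 1)) v = (ρ g * T ^ j) (T v); rw [pow_succ]; rfl, trace_comp_eq_mul_of_commute_of_isNilpotent μ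
          (restrict_commute ((hT g).mul_right (Commute.self_pow T j)).symm _ _)
          (T.isNilpotent_restrict_maxGenEigenspace_sub_algebraMap μ), ih]
      simp [pow_succ]; ring

variable [Fintype G] {χ : G → ℂ}

theorem trF_inner (hT : ∀ g, Commute T (ρ g)) (hχ : IsIrrCharacter G χ) :
    ∃ (S : Finset ℂ) (m : ℂ → ℕ), (∀ μ ∈ S, T.HasEigenvalue μ) ∧
      classInner ρ.character χ = (∑ μ ∈ S, m μ : ℕ) ∧
      ∀ j : ℕ, classInner (trF ρ (T ^ j)) χ = ∑ μ ∈ S, μ ^ j * m μ := by
  obtain ⟨S, π, h1, h2, h3⟩ := trF_spec hT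
  choose m hm using fun μ => (h1 μ).exists_nat_inner hχ.isCharacter
  have : ∀ j : ℕ, classInner (trF ρ (T ^ j)) χ = ∑ μ ∈ S, μ ^ j * m μ := fun j => by
    simp only [h3, classInner_sum_left, classInner_smul_left, hm]
  refine ⟨S, m, h2, ?_, this⟩
  have h4 := this 0
  simp only [pow_zero, one_mul] at h4
  rw [Nat.cast_sum, ← h4]
  congr 1

theorem trF_inner_zero (hT : ∀ g, Commute T (ρ g)) (hχ : IsIrrCharacter G χ)
    (h : classInner ρ.character χ = 0) : classInner (trF ρ T) χ = 0 := by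
  obtain ⟨S, m, -, h2, h3⟩ := trF_inner hT hχ
  rw [h, eq_comm, Nat.cast_eq_zero, sum_eq_zero_iff] at h2
  rw [← pow_one T, h3]
  exact sum_eq_zero fun μ hμ => by simp [h2 μ hμ]

theorem trF_inner_int (hT : ∀ g, Commute T (ρ g)) (hχ : IsIrrCharacter G χ) (hi : IsIntegral ℤ T) :
    IsIntegral ℤ (classInner (trF ρ T) χ) := by
  obtain ⟨S, m, h1, -, h3⟩ := trF_inner hT hχ
  rw [← pow_one T, h3]
  refine IsIntegral.sum _ fun μ hμ => IsIntegral.mul ?_ (isIntegral_natCast _)
  obtain ⟨v, hv⟩ := (h1 μ hμ).exists_hasEigenvector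
  obtain ⟨p, hp, e⟩ := hi
  refine ⟨p, hp, ?_⟩
  have := End.aeval_apply_of_hasEigenvector (p := p.map (algebraMap ℤ ℂ)) hv
  rw [Polynomial.aeval_map_algebraMap, Polynomial.aeval_def, e, Polynomial.eval_map] at this
  rw [pow_one]
  exact (smul_eq_zero.1 this.symm).resolve_right hv.2

theorem trF_inner_sq (hT : ∀ g, Commute T (ρ g)) (hχ : IsIrrCharacter G χ)
    (h : classInner ρ.character χ = 1) : classInner (trF ρ (T ^ 2)) χ = classInner (trF ρ T) χ ^ 2 := by
  obtain ⟨S, m, -, h2, h3⟩ := trF_inner hT hχ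
  rw [h, eq_comm, Nat.cast_eq_one] at h2
  classical
  obtain ⟨μ, hμ, h0⟩ := exists_ne_zero_of_sum_ne_zero (h2.trans_ne one_ne_zero)
  rw [← add_sum_erase _ _ hμ] at h2
  have h4 : m μ = 1 := by omega
  have h5 : ∀ ν ∈ S, ν ≠ μ → m ν = 0 := fun ν hν e =>
    sum_eq_zero_iff.1 (by omega : ∑ x ∈ S.erase μ, m x = 0) ν (mem_erase.2 ⟨e, hν⟩)
  have : ∀ j : ℕ, classInner (trF ρ (T ^ j)) χ = μ ^ j := fun j => by
    rw [h3, sum_eq_single_of_mem μ hμ fun ν hν e => by simp [h5 ν hν e], h4]; simp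
  rw [this, ← pow_one T, this, pow_one]

omit [Fintype G] in
theorem trF_class (hT : ∀ g, Commute T (ρ g)) : IsClassFunction G (trF ρ T) := by
  obtain ⟨S, π, h1, -, h3⟩ := trF_spec hT
  rw [← pow_one T, h3]
  exact isClassFunction_sum _ _ fun μ _ => (h1 μ).isClassFunction.smul _

variable (ρ) in
/-- the isotypic projection -/
noncomputable def isoE (χ : G → ℂ) : End ℂ V := (χ 1 / Nat.card G) • ∑ g, conj (χ g) • ρ g

omit [FiniteDimensional ℂ V] in
theorem isoE_comm (hT : ∀ g, Commute T (ρ g)) : Commute T (isoE ρ χ) :=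
  (Commute.sum_right _ _ _ fun g _ => (hT g).smul_right _).smul_right _

omit [FiniteDimensional ℂ V] in
theorem isoE_comm' (hχ : IsClassFunction G χ) (x : G) : Commute (isoE ρ χ) (ρ x) := by
  refine Commute.smul_left ?_ _
  simp only [Commute, SemiconjBy, sum_mul, mul_sum, smul_mul_assoc, mul_smul_comm, ← map_mul]
  refine Fintype.sum_equiv (MulAut.conj x⁻¹).toEquiv _ _ fun g => ?_
  simp [← hχ.conj_apply' g x, mul_assoc]

omit [FiniteDimensional ℂ V] in
theorem sum_isoE : ∑ χ : IrrCharacter G, isoE ρ χ = 1 := by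
  simp only [isoE, smul_sum, smul_smul]
  rw [sum_comm]
  simp only [← sum_smul]
  rw [sum_eq_single 1 (fun g _ hg => ?_) (by simp)]
  · have := sum_irr_mul_conj_of_isConj (IsConj.refl (1 : G))
    simp only [div_mul_eq_mul_div, ← sum_div, this]
    rw [Subgroup.centralizer_eq_top_iff_subset.2 (by simp), Subgroup.card_top, div_self card_ne_zero,
      one_smul, map_one]
  · have := sum_irr_mul_conj_of_not_isConj (g := (1 : G)) (h := g) (by simpa [eq_comm] using hg)
    simp only [div_mul_eq_mul_div, ← sum_div, this, zero_div, zero_smul]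

theorem sum_conj_mul_irr (hχ : IsIrrCharacter G χ) {ψ : G → ℂ} (hψ : IsIrrCharacter G ψ) (y : G) :
    χ 1 / Nat.card G * ∑ g, conj (χ g) * ψ (g * y) = classInner ψ χ * χ y := by
  have h1 := hψ.sum_classFun_mul hχ.isClassFunction.conj y
  simp only [mul_comm (conj (χ _)), ← card_mul_classInner] at h1 ⊢
  by_cases e : ψ = χ
  · subst e
    rw [div_mul_eq_mul_div, h1, mul_assoc, mul_div_cancel_left₀ _ card_ne_zero]
  · rw [hψ.inner_of_ne hχ e, mul_zero, zero_mul] at h1
    rw [(mul_eq_zero.1 h1).resolve_left hψ.apply_one_ne_zero, hψ.inner_of_ne hχ e]; simp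

omit [FiniteDimensional ℂ V] in
theorem isoE_idem (hχ : IsIrrCharacter G χ) : isoE ρ χ * isoE ρ χ = isoE ρ χ := by
  rw [isoE, smul_mul_assoc, mul_smul_comm]
  congr 1
  simp only [sum_mul, mul_sum, smul_mul_assoc, mul_smul_comm, ← map_mul, smul_smul]
  have : ∀ h : G, ∑ g, (conj (χ h) * conj (χ g)) • ρ (g * h) =
      ∑ k, (conj (χ h) * χ (h * k⁻¹)) • ρ k := fun h =>
    Fintype.sum_equiv (Equiv.mulRight h) _ _ fun g => by simp [hχ.apply_inv]
  conv_lhs => arg 2; simp only [smul_sum, smul_smul, this]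
  rw [sum_comm, smul_sum]
  refine sum_congr rfl fun k _ => ?_
  rw [← sum_smul, smul_smul, sum_conj_mul_irr hχ hχ, hχ.inner_self, one_mul, hχ.apply_inv]

theorem trF_isoE (hχ : IsIrrCharacter G χ) (y : G) :
    trF ρ (isoE ρ χ) y = classInner ρ.character χ * χ y := by
  have h := (isCharacter_character ρ).isClassFunction
  have : trF ρ (isoE ρ χ) y = χ 1 / Nat.card G * ∑ g, conj (χ g) * ρ.character (g * y) := by
    simp only [trF, isoE, mul_smul_comm, mul_sum, map_smul, map_sum, ← map_mul, smul_eq_mul]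
    exact sum_congr rfl fun g _ => by rw [h.mul_comm g y]; rfl
  rw [this, h.inner_eq_sum, sum_mul]
  simp only [h.apply_eq_sum_irr (_ * y), mul_sum]
  rw [sum_comm]
  refine sum_congr rfl fun ψ _ => ?_
  rw [mul_assoc, ← sum_conj_mul_irr hχ ψ.2, mul_sum, mul_sum]
  exact sum_congr rfl fun g _ => by ring

theorem isoE_scalar (hT : ∀ g, Commute T (ρ g)) (hχ : IsIrrCharacter G χ)
    (h : classInner ρ.character χ = 0 ∨ classInner ρ.character χ = 1) :
    ∃ c : ℂ, T * isoE ρ χ = c • isoE ρ χ ∧ (classInner ρ.character χ = 0 → c = 0) := by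
  obtain ⟨U, h1, h2⟩ := exists_sub_char_of_idempotent ρ (isoE ρ χ) (isoE_idem hχ)
    (isoE_comm' hχ.isClassFunction)
  have h3 : ∀ g, U.toRepresentation.character g = classInner ρ.character χ * χ g := fun g =>
    (h2 g).trans (trF_isoE hχ g)
  rcases h with h | h
  · have := h3 1
    rw [h, zero_mul, Representation.char_one, Nat.cast_eq_zero, Submodule.finrank_eq_zero, h1,
      range_eq_bot] at this
    exact ⟨0, by rw [this]; simp, fun _ => rfl⟩
  · haveI := isIrreducible_of_isIrrCharacter U.toRepresentation (by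
      rw [show U.toRepresentation.character = χ from funext fun g => by rw [h3, h, one_mul]]; exact hχ)
    have m : ∀ v ∈ U.toSubmodule, T v ∈ U.toSubmodule := by
      rw [h1]
      rintro _ ⟨v, rfl⟩
      exact ⟨T v, (LinearMap.congr_fun (isoE_comm (χ := χ) hT).eq v).symm⟩
    obtain ⟨c, hc⟩ := exists_scalar_of_commute U.toRepresentation (T.restrict m) fun g =>
      LinearMap.ext fun v => Subtype.ext (LinearMap.congr_fun (hT g).eq v)
    refine ⟨c, LinearMap.ext fun v => ?_, fun e => by rw [h] at e; exact absurd e one_ne_zero⟩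
    exact congrArg Subtype.val congr($hc ⟨isoE ρ χ v, h1 ▸ ⟨v, rfl⟩⟩)

theorem exists_sum_isoE (hT : ∀ g, Commute T (ρ g))
    (h : ∀ χ, IsIrrCharacter G χ → classInner ρ.character χ = 0 ∨ classInner ρ.character χ = 1) :
    ∃ c : IrrCharacter G → ℂ, (∀ χ : IrrCharacter G, T * isoE ρ χ = c χ • isoE ρ χ) ∧
      (∀ χ : IrrCharacter G, classInner ρ.character χ = 0 → c χ = 0) ∧ T = ∑ χ, c χ • isoE ρ χ := by
  choose c h1 h2 using fun χ : IrrCharacter G => isoE_scalar hT χ.2 (h χ χ.2)
  exact ⟨c, h1, h2, by simp only [← h1, ← mul_sum, sum_isoE, mul_one]⟩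

theorem mf_iff_comm : (∀ χ, IsIrrCharacter G χ →
    classInner ρ.character χ = 0 ∨ classInner ρ.character χ = 1) ↔
      ∀ S T : End ℂ V, (∀ g, Commute S (ρ g)) → (∀ g, Commute T (ρ g)) → S * T = T * S := by
  refine ⟨fun h S T hS hT => ?_, fun h χ hχ => ?_⟩
  · obtain ⟨c, -, -, e⟩ := exists_sum_isoE hT h
    rw [e]
    exact Commute.sum_right _ _ _ fun χ _ => (isoE_comm hS).smul_right _
  obtain ⟨n, σ, hσ, rfl⟩ := hχ
  rw [classInner_character]
  by_contra hc
  have h2 : 1 < finrank ℂ (Representation.IntertwiningMap σ ρ) := by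
    by_contra a
    rcases Nat.le_one_iff_eq_zero_or_eq_one.1 (not_lt.1 a) with e | e <;> simp [e] at hc
  haveI := finite_of_finrank_pos (zero_lt_one.trans h2)
  haveI := nontrivial_of_finrank_pos (zero_lt_one.trans h2)
  obtain ⟨f, hf⟩ := exists_ne (0 : Representation.IntertwiningMap σ ρ)
  obtain ⟨f', hf'⟩ := exists_linearIndependent_pair_of_one_lt_finrank h2 hf
  have inj : LinearMap.ker f.toLinearMap = ⊥ := (((isIrreducible_iff σ).1 hσ).2 _ fun g v hv => by
    have : f v = 0 := hv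
    change f _ = 0
    rw [f.isIntertwining, this, map_zero]).resolve_right fun e =>
      hf (Representation.IntertwiningMap.ext (ker_eq_top.1 e))
  obtain ⟨q0, hq0⟩ := f.toLinearMap.exists_leftInverse_of_injective inj
  let q : V →ₗ[ℂ] (Fin n → ℂ) := (Nat.card G : ℂ)⁻¹ • ∑ g, σ g ∘ₗ q0 ∘ₗ ρ g⁻¹
  have q1 : ∀ x v, q (ρ x v) = σ x (q v) := fun x v => by
    simp only [q, LinearMap.smul_apply, LinearMap.sum_apply, map_smul, map_sum, comp_apply]
    congr 1
    exact (Fintype.sum_equiv (Equiv.mulLeft x) _ _ fun g => by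
      simp [← End.mul_apply, ← map_mul]).symm
  have q2 : ∀ w, q (f w) = w := fun w => by
    have : ∀ g : G, σ g (q0 (ρ g⁻¹ (f w))) = w := fun g => by
      rw [← f.isIntertwining, show q0 (f _) = _ from congr($hq0 _), id_apply, ← End.mul_apply, ← map_mul]
      simp
    simp only [q, LinearMap.smul_apply, LinearMap.sum_apply, comp_apply, this, sum_const, card_univ,
      ← Nat.card_eq_fintype_card, ← Nat.cast_smul_eq_nsmul ℂ, smul_smul,
      inv_mul_cancel₀ (card_ne_zero (G := G)), one_smul]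
  obtain ⟨c, hc'⟩ := exists_scalar_of_commute σ (q ∘ₗ f'.toLinearMap) fun g => LinearMap.ext fun w => by
    change q (f' _) = σ g (q (f' w))
    rw [f'.isIntertwining, q1]
  have cm : ∀ k : Representation.IntertwiningMap σ ρ, ∀ g, Commute (k.toLinearMap ∘ₗ q) (ρ g) :=
    fun k g => LinearMap.ext fun v => by
      change k (q (ρ g v)) = ρ g (k (q v))
      rw [q1, k.isIntertwining]
  have := h _ _ (cm f) (cm f')
  refine (LinearIndependent.pair_iff' hf).1 hf' c (DFunLike.ext _ _ fun w => ?_)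
  have e := congr($this (f w))
  change f (q (f' (q (f w)))) = f' (q (f (q (f w)))) at e
  rw [q2, q2, show q (f' w) = c • w from congr($hc' w), map_smul] at e
  exact e

end rep

section perm
variable {Ω : Type*} [Fintype Ω] [MulAction G Ω]

theorem trace_fun [DecidableEq Ω] (T : End ℂ (Ω → ℂ)) : trace ℂ _ T = ∑ x, T (Pi.single x 1) x := by
  rw [trace_eq_matrix_trace ℂ (Pi.basisFun ℂ Ω)]
  simp [Matrix.trace, toMatrix_apply]

theorem char_permRep : (permRep ℂ G Ω).character = fun g => (Nat.card (fixedBy Ω g) : ℂ) := by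
  classical
  funext g
  rw [Representation.character, trace_fun, Nat.card_eq_fintype_card, Fintype.card_subtype]
  simp [permRep_apply, Pi.single_apply, inv_smul_eq_iff, eq_inv_smul_iff, eq_comm]

open Classical in
/-- the adjacency operator of a relation -/
noncomputable def adj (R : Ω → Ω → Prop) : End ℂ (Ω → ℂ) :=
  Matrix.toLin' (Matrix.of fun x y => if R x y then 1 else 0)

open Classical in
theorem adj_apply (R : Ω → Ω → Prop) (f : Ω → ℂ) (x : Ω) :
    adj R f x = ∑ y, if R x y then f y else 0 := by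
  simp [adj, Matrix.mulVec, dotProduct]

theorem adj_comm {R : Ω → Ω → Prop} (h : ∀ (g : G) x y, R (g • x) (g • y) ↔ R x y) (g : G) :
    Commute (adj R) (permRep ℂ G Ω g) := LinearMap.ext fun f => funext fun x => by
  simp only [End.mul_apply, adj_apply, permRep_apply]
  exact (Fintype.sum_equiv (toPerm g) _ _ fun y => by
    rw [toPerm_apply, inv_smul_smul, ← h g (g⁻¹ • x) y, smul_inv_smul]).symm

theorem adj_int (R : Ω → Ω → Prop) : IsIntegral ℤ (adj R) := by
  classical
  have := (Algebra.IsIntegral.isIntegral (R := ℤ)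
    (Matrix.of fun x y => if R x y then 1 else 0 : Matrix Ω Ω ℤ)).map
    (((Matrix.toLinAlgEquiv' (R := ℂ) (n := Ω)).toRingEquiv.toRingHom.comp
      (Int.castRingHom ℂ).mapMatrix).toIntAlgHom)
  convert this using 1
  refine LinearMap.ext fun f => funext fun x => ?_
  simp [adj_apply, Matrix.toLinAlgEquiv'_apply, Matrix.mulVec, dotProduct]

open Classical in
theorem trF_adj (R : Ω → Ω → Prop) (g : G) :
    trF (permRep ℂ G Ω) (adj R) g = (#{x | R (g⁻¹ • x) x} : ℕ) := by
  rw [trF, trace_fun]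
  simp only [End.mul_apply, permRep_apply, adj_apply, Pi.single_apply, card_filter, Nat.cast_sum]
  refine sum_congr rfl fun x _ => ?_
  rw [sum_eq_single x (fun y _ h => by simp [h]) (by simp)]
  simp

/-- the orbital of a pair -/
def Orb (G : Type*) [Group G] [MulAction G Ω] (a b y x : Ω) : Prop := ∃ g : G, g • a = x ∧ g • b = y

omit [Fintype Ω] in
theorem orb_smul (a b : Ω) (g : G) (y x : Ω) : Orb G a b (g • y) (g • x) ↔ Orb G a b y x :=
  ⟨fun ⟨t, h1, h2⟩ => ⟨g⁻¹ * t, by rw [mul_smul, h1, inv_smul_smul], by rw [mul_smul, h2, inv_smul_smul]⟩,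
    fun ⟨t, h1, h2⟩ => ⟨g * t, by rw [mul_smul, h1], by rw [mul_smul, h2]⟩⟩

omit [Fintype Ω] in
theorem card_orb [IsPretransitive G Ω] (a b x : Ω) :
    Nat.card {y // Orb G a b y x} = Nat.card (orbit (stabilizer G a) b) := by
  obtain ⟨g, rfl⟩ := exists_smul_eq G a x
  refine (Nat.card_congr ((toPerm g).subtypeEquiv fun y => ?_)).symm
  rw [toPerm_apply, orb_smul]
  exact ⟨fun ⟨k, h⟩ => ⟨k, k.2, h⟩, fun ⟨k, h1, h2⟩ => ⟨⟨k, h1⟩, h2⟩⟩

theorem inner_trF_orb [Fintype G] [IsPretransitive G Ω] (a b : Ω) :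
    classInner (trF (permRep ℂ G Ω) (adj (Orb G a b))) (fun _ => 1) =
      Nat.card (orbit (stabilizer G a) b) := by
  classical
  refine mul_left_cancel₀ (card_ne_zero (G := G)) ?_
  rw [card_mul_classInner]
  simp only [map_one, mul_one, trF_adj, card_filter, ← Nat.cast_sum, ← Nat.cast_mul, Nat.cast_inj]
  rw [sum_comm, card_eq_card_mul_card_stabilizer a, Nat.card_eq_fintype_card (α := Ω), mul_assoc,
    ← card_univ, ← smul_eq_mul, ← sum_const]
  refine sum_congr rfl fun x _ => ?_
  rw [mul_comm, ← card_orb a b x, card_stabilizer_eq_of_transitive a x,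
    ← card_smul_mem_of_transitive x fun y => Orb G a b y x, Nat.card_eq_fintype_card,
    Fintype.card_subtype, card_filter]
  exact Fintype.sum_equiv (Equiv.inv G) _ _ fun g => by simp

theorem trF_orb_one {a b : Ω} (h : b ≠ a) : trF (permRep ℂ G Ω) (adj (Orb G a b)) 1 = 0 := by
  classical
  rw [trF_adj, Nat.cast_eq_zero, card_eq_zero, filter_eq_empty_iff]
  rintro x - ⟨g, h1, h2⟩
  exact h (smul_left_cancel g (by rw [h1, h2, inv_one, one_smul]))

theorem inner_perm_self [Fintype G] [IsPretransitive G Ω] (a : Ω) :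
    classInner (fun g : G => (Nat.card (fixedBy Ω g) : ℂ)) (fun g : G => (Nat.card (fixedBy Ω g) : ℂ)) =
      Nat.card (orbitRel.Quotient (stabilizer G a) Ω) := by
  letI := Fintype.ofFinite (stabilizer G a)
  rw [← classInner_fixedBy_one]
  have h : IsClassFunction G fun g : G => (Nat.card (fixedBy Ω g) : ℂ) :=
    char_permRep (G := G) (Ω := Ω) ▸ (isCharacter_character _).isClassFunction
  exact (congrArg _ (funext (card_fixedBy_eq_indFun (G := G) a))).trans (classInner_indFun_right _ h)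

end perm

end Cfsg.Agent.H7
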