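import Mathlib
import Cfsg.Agent.H7.Sh3
import Cfsg.Agent.H7.Normal
import Cfsg.Agent.H7.SylowPrime
import Cfsg.Agent.H2.BG3
import Cfsg.Agent.H4.Aut6
import Cfsg.Agent.H4.Dick2

/-! Regular normal subgroups of doubly transitive groups; groups of degree `p + 1`. -/

namespace Cfsg.Agent.H7
open MulAction Subgroup
open scoped MatrixGroups

variable {G Ω : Type*} [Group G] [MulAction G Ω] {a b c : Ω} {N : Subgroup G}

theorem reg_eq (hr : ∀ a : Ω, stabilizer N a = ⊥) {x y : G} (hx : x ∈ N) (hy : y ∈ N)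
    (h : x • a = y • a) : x = y := eq_of_smul_eq_of_reg (hr a) hx hy h

theorem reg_ne (hr : ∀ a : Ω, stabilizer N a = ⊥) {x : G} (hx : x ∈ N) (h1 : x ≠ 1) (a : Ω) :
    x • a ≠ a := fun e => h1 (reg_eq hr hx N.one_mem (e.trans (one_smul _ _).symm))

theorem reg_card (ht : IsPretransitive N Ω) (hr : ∀ a : Ω, stabilizer N a = ⊥) (a : Ω) :
    Nat.card N = Nat.card Ω :=
  Nat.card_congr (Equiv.ofBijective (fun n : N => (n : G) • a)
    ⟨fun x y h => Subtype.ext (reg_eq hr x.2 y.2 h), fun y => ht.exists_smul_eq a y⟩)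

theorem reg_sq [hN : N.Normal] (h2 : IsMultiplyPretransitive G Ω 2)
    (hr : ∀ a : Ω, stabilizer N a = ⊥) (a : Ω) {n : G} (hn : n ∈ N) (h1 : n ≠ 1) (hs : n * n = 1)
    (x : G) (hx : x ∈ N) : x * x = 1 := by
  by_cases hx1 : x = 1
  · simp [hx1]
  obtain ⟨g, g1, g2⟩ := mt_two h2 (reg_ne hr hn h1 a).symm (reg_ne hr hx hx1 a).symm
  have e : g * n * g⁻¹ = x := reg_eq (a := a) hr (hN.conj_mem n hn g) hx (by
    rw [mul_smul, mul_smul, inv_smul_eq_iff.2 g1.symm, g2])
  rw [← e]
  calc g * n * g⁻¹ * (g * n * g⁻¹) = g * (n * n) * g⁻¹ := by group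
    _ = 1 := by rw [hs]; group

theorem comm_of_sq {N : Subgroup G} (h : ∀ x ∈ N, x * x = 1) : ∀ x ∈ N, ∀ y ∈ N, x * y = y * x :=
  fun x hx y hy => by
    have h1 := h _ (N.mul_mem hx hy)
    have h2 := h x hx
    have h3 := h y hy
    calc x * y = (x * y)⁻¹ := eq_inv_of_mul_eq_one_left h1
      _ = y⁻¹ * x⁻¹ := mul_inv_rev _ _
      _ = y * x := by rw [← eq_inv_of_mul_eq_one_left h2, ← eq_inv_of_mul_eq_one_left h3]

theorem pgroup_of_sq {N : Subgroup G} (h : ∀ x ∈ N, x * x = 1) : IsPGroup 2 N :=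
  fun x => ⟨1, Subtype.ext (by simpa [sq] using h x x.2)⟩

theorem reg_card_cent (z : Z3 G Ω) [hN : N.Normal] (ht : IsPretransitive N Ω)
    (hr : ∀ a : Ω, stabilizer N a = ⊥) (hab : a ≠ b) {h : G} (h1 : h ≠ 1) (ha : h • a = a)
    (hb : h • b = b) : (∀ x ∈ N, x * x = 1) ∧ Nat.card ↥(N ⊓ centralizer ({h} : Set G)) = 2 := by
  obtain ⟨⟨n, hn⟩, e⟩ := ht.exists_smul_eq a b
  change n • a = b at e
  have hn1 : n ≠ 1 := fun e' => hab (by rw [← e, e', one_smul])
  have hc : h * n * h⁻¹ = n := reg_eq (a := a) hr (hN.conj_mem n hn h) hn (by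
    rw [mul_smul, mul_smul, inv_smul_eq_iff.2 ha.symm, e, hb])
  have key : ∀ x ∈ N, h * x = x * h → x = 1 ∨ x = n := fun x hx hxc => by
    by_contra hne
    rw [not_or] at hne
    refine h1 (z.three h a b (x • a) hab (fun e' => hne.2 (reg_eq (a := a) hr hx hn (by rw [e, e'])))
      (reg_ne hr hx hne.1 a).symm ha hb (by rw [← mul_smul, hxc, mul_smul, ha]))
  have hc' : h * n = n * h := mul_inv_eq_iff_eq_mul.1 hc
  have hs : n * n = 1 := by
    rcases key (n * n) (N.mul_mem hn hn) (by rw [← mul_assoc, hc', mul_assoc, hc', mul_assoc]) with e' | e'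
    · exact e'
    · exact absurd (by simpa using e') hn1
  refine ⟨reg_sq z.two hr a hn hn1 hs, ?_⟩
  rw [Nat.card_eq_two_iff]
  refine ⟨1, ⟨n, hn, mem_centralizer_singleton_iff.2 hc'.symm⟩, fun e' => hn1 (congrArg Subtype.val e').symm,
    Set.eq_univ_of_forall fun x => ?_⟩
  rcases key x x.2.1 (mem_centralizer_singleton_iff.1 x.2.2).symm with e' | e'
  · exact Or.inl (Subtype.ext e')
  · exact Or.inr (Subtype.ext e')

theorem three_le_of_St [Finite Ω] [FaithfulSMul G Ω] (hab : a ≠ b) (hS : St G a b ≠ ⊥) :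
    3 ≤ Nat.card Ω := by
  obtain ⟨⟨h, hh⟩, h1⟩ := ne_bot_iff_exists_ne_one.1 hS
  obtain ⟨c, hc⟩ : ∃ c : Ω, h • c ≠ c := by
    by_contra hc
    push Not at hc
    exact h1 (Subtype.ext (eq_one_of_fix hc))
  have : ({a, b, c} : Set Ω).ncard = 3 := Set.ncard_eq_three.2
    ⟨a, b, c, hab, fun e => hc (e ▸ hh.1), fun e => hc (e ▸ hh.2), rfl⟩
  rw [← this, ← Set.ncard_univ]
  exact Set.ncard_le_ncard (Set.subset_univ _)

theorem reg_card_prime [Finite G] [Finite Ω] [FaithfulSMul G Ω] (z : Z3 G Ω) [hN : N.Normal] (ht : IsPretransitive N Ω)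
    (hr : ∀ a : Ω, stabilizer N a = ⊥) (hab : a ≠ b) (hS : St G a b ≠ ⊥) :
    ∃ p : ℕ, p.Prime ∧ Nat.card Ω = 2 ^ p := by
  obtain ⟨s, hs, hsd⟩ := Nat.exists_prime_and_dvd (card_eq_one.not.2 hS)
  haveI := Fact.mk hs
  obtain ⟨⟨h, hh⟩, ho⟩ := exists_prime_orderOf_dvd_card' s hsd
  rw [← orderOf_coe] at ho
  change orderOf h = s at ho
  have h1 : h ≠ 1 := fun e => hs.one_lt.ne' (by rw [← ho, e, orderOf_one])
  obtain ⟨hsq, hC⟩ := reg_card_cent z ht hr hab h1 hh.1 hh.2
  have hcomm := comm_of_sq hsq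
  have h3 := three_le_of_St hab hS
  rw [← reg_card ht hr a] at h3 ⊢
  obtain ⟨f, hf⟩ := IsPGroup.iff_card.1 (pgroup_of_sq hsq)
  by_cases h2 : s = 2
  · refine ⟨2, Nat.prime_two, ?_⟩
    have hhh : h * h = 1 := by rw [← sq, ← h2, ← ho, pow_orderOf_eq_one]
    let ψ : N →* G := MonoidHom.mk' (fun n => n * (h * n * h⁻¹)) fun x y => by
      have := hcomm _ y.2 _ (hN.conj_mem x x.2 h)
      simp only [coe_mul]
      calc x * y * (h * (x * y) * h⁻¹) = x * ((y : G) * (h * x * h⁻¹)) * (h * y * h⁻¹) := by group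
        _ = _ := by rw [this]; group
    have hψ : ∀ n : N, ψ n = n * (h * n * h⁻¹) := fun _ => rfl
    have r1 : ψ.range ≤ N ⊓ centralizer ({h} : Set G) := by
      rintro _ ⟨n, rfl⟩
      refine ⟨N.mul_mem n.2 (hN.conj_mem n n.2 h), mem_centralizer_singleton_iff.2 ?_⟩
      rw [hψ]
      have hi : h⁻¹ = h := inv_eq_of_mul_eq_one_left hhh
      have := hcomm _ n.2 _ (hN.conj_mem n n.2 h)
      rw [hi] at this ⊢
      calc n * (h * n * h) * h = n * h * n * (h * h) := by group
        _ = (h * h) * n * h * n := by rw [hhh]; group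
        _ = h * (h * n * h * n) := by group
        _ = _ := by rw [this]
    have r2 : ψ.ker.map N.subtype ≤ N ⊓ centralizer ({h} : Set G) := by
      rintro _ ⟨n, hn, rfl⟩
      refine ⟨n.2, mem_centralizer_singleton_iff.2 ?_⟩
      have e : (n : G) * (h * n * h⁻¹) = n * n := (show ψ n = 1 from hn).trans (hsq n n.2).symm
      have e' := mul_left_cancel e
      exact (mul_inv_eq_iff_eq_mul.1 e').symm
    have c1 := card_le_of_le r1
    have c2 := card_le_of_le r2
    rw [card_map_of_injective N.subtype_injective, hC] at c2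
    rw [hC] at c1
    have c3 := ψ.ker.card_mul_index
    rw [index_ker] at c3
    have c4 : Nat.card N ≤ 4 := c3 ▸ Nat.mul_le_mul c2 c1
    rw [hf] at h3 c4 ⊢
    have : f ≤ 2 := (Nat.pow_le_pow_iff_right (by norm_num : 1 < 2)).1 c4
    interval_cases f <;> simp_all
  · refine ⟨s, hs, ?_⟩
    obtain ⟨F, k⟩ := z.exists_ker (reg_card ht hr a ▸ h3) a
    have hFc := k.card hab.symm
    rw [← reg_card ht hr a] at hFc
    have hf0 : f ≠ 0 := by rintro rfl; omega
    have hFo : Odd (Nat.card F) := by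
      rw [hFc, hf]; exact Nat.Even.sub_odd Nat.one_le_two_pow (Nat.even_pow.2 ⟨even_two, hf0⟩) odd_one
    have hfpf : L.FPF N F := L.FPF.of_forall fun u hu hu1 n hn e => by
      by_contra hn1
      exact hu1 (k.eq_one hu (reg_ne hr hn hn1 a) (by rw [← mul_smul, e, mul_smul, k.fix u hu]))
    have hN1 : N ≠ ⊥ := by rintro rfl; simp at h3
    haveI := hfpf.isZGroup_of_odd (le_normalizer_of_normal) hN1 hFo
    have hRs : zpowers h ≤ St G a b := zpowers_le_of_mem hh
    have hRc : Nat.card (zpowers h) = s := by rw [Nat.card_zpowers, ho]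
    have hn : zpowers h ≤ normalizer (F : Set G) := hRs.trans k.le_normalizer
    have := H2.card_eq_pow_of_Frobenius (K := F) (R := zpowers h) (M := N) inferInstance hn
      ((k.fpf z hab).mono le_rfl hRs) (le_normalizer_of_normal)
      (le_normalizer_of_normal) (by
        rw [hf]
        refine Nat.Coprime.pow_right _ (Odd.coprime_two_right ?_)
        refine Odd.of_dvd_nat (hFo.mul (hRc ▸ hs.odd_of_ne_two h2)) ?_
        rw [sup_comm, mul_comm]; exact H1.card_sup_dvd hn)
      (by haveI := (pgroup_of_sq hsq).isNilpotent; infer_instance)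
      (hfpf.inf_centralizer (k.ne_bot (reg_card ht hr a ▸ h3)))
    rw [this, centralizer_zpowers, hC, hRc]

/-- A group with a regular normal elementary abelian subgroup and an abelian normal subgroup of the
point stabiliser which is transitive on the other points is semi-affine. -/
theorem reg_semiaffine [Finite Ω] [hN : N.Normal] (ht : IsPretransitive N Ω)
    (hr : ∀ a : Ω, stabilizer N a = ⊥) (hc : ∀ x ∈ N, ∀ y ∈ N, x * y = y * x) (hab : a ≠ b)
    {P : Subgroup G} (k : Ker a P) (hP : ∀ x ∈ P, ∀ y ∈ P, x * y = y * x)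
    (K : Type*) [Field K] [Fintype K] (hK : Fintype.card K = Nat.card Ω) :
    ∃ e : K ≃ Ω, e 0 = a ∧ e 1 = b ∧ ∀ g : G, ∃ (α β : K) (φ : K ≃+* K), α ≠ 0 ∧
      ∀ x, g • e x = e (α * φ x + β) := by
  obtain ⟨pt, co, p0, p1, hF, -, hs⟩ := exists_coord (G := G) (Ω := Option Ω) (a := none)
    (b := some a) (c := some b) (by simp) (by simp) (by simpa using hab.symm) N P
    (fun _ _ => rfl) hc (fun y z hy hz => by
      obtain ⟨y, rfl⟩ := Option.ne_none_iff_exists'.1 hy
      obtain ⟨z, rfl⟩ := Option.ne_none_iff_exists'.1 hz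
      obtain ⟨n, hn⟩ := ht.exists_smul_eq y z
      exact ⟨n, congrArg some hn, fun m hm => Subtype.ext (reg_eq (a := y) hr m.2 n.2
        ((Option.some.inj hm).trans hn.symm))⟩)
    (fun h hh => ⟨congrArg some (k.fix h hh), fun u hu => hN.conj_mem u hu h⟩) hP
    (fun W hW hn => by
      by_cases h0 : W = ⊥
      · exact Or.inl h0
      obtain ⟨⟨w, hw⟩, h1⟩ := ne_bot_iff_exists_ne_one.1 h0
      have h1' : w ≠ 1 := fun e => h1 (Subtype.ext e)
      refine Or.inr (le_antisymm hW fun n hn' => ?_)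
      by_cases hn1 : n = 1
      · exact hn1 ▸ W.one_mem
      obtain ⟨u, hu, e⟩ := k.exists_smul (reg_ne hr (hW hw) h1' a) (reg_ne hr hn' hn1 a)
      rw [← reg_eq (a := a) hr (hN.conj_mem w (hW hw) u) hn' (by
        rw [mul_smul, mul_smul, inv_smul_eq_iff.2 (k.fix u hu).symm, e])]
      exact hn u hu w hw) K (by rw [hK]; simp)
  have hex : ∀ x, ∃ y, pt x = some y := fun x => Option.ne_none_iff_exists'.1 (co.ne x)
  choose q hq using hex
  have hqb : Function.Bijective q := ⟨fun x y e => co.inj (by rw [hq, hq, e]), fun y => by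
    obtain ⟨x, hx⟩ := co.surj (some y) (by simp)
    exact ⟨x, Option.some.inj ((hq x).symm.trans hx)⟩⟩
  refine ⟨Equiv.ofBijective q hqb, Option.some.inj ((hq 0).symm.trans p0),
    Option.some.inj ((hq 1).symm.trans p1), fun g => ?_⟩
  obtain ⟨⟨n, hn⟩, e⟩ := ht.exists_smul_eq a (g • a)
  change n • a = g • a at e
  have hh : (n⁻¹ * g) • a = a := by rw [mul_smul, ← e, inv_smul_smul]
  obtain ⟨β, hβ⟩ := hF n hn
  obtain ⟨φ, α, hα⟩ := hs (n⁻¹ * g) (congrArg some hh) (fun u hu => hN.conj_mem u hu _)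
    (k.norm _ hh)
  refine ⟨α, β, φ, fun e => one_ne_zero (co.inj ((smul_left_cancel_iff (n⁻¹ * g)).1
    (by rw [hα, hα, e, zero_mul, zero_mul]))), fun x => Option.some.inj ?_⟩
  change g • some (q x) = some (q _)
  rw [← hq, ← hq, ← hβ, ← hα, ← mul_smul, mul_inv_cancel_left]

theorem card_St_dvd_of_semiaffine [FaithfulSMul G Ω] {K : Type*} [Field K] (e : K ≃ Ω)
    (h : ∀ g : G, ∃ (α β : K) (φ : K ≃+* K), α ≠ 0 ∧ ∀ x, g • e x = e (α * φ x + β)) :
    Nat.card (St G (e 0) (e 1)) ∣ Nat.card (K ≃+* K) := by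
  have h1 : ∀ g : St G (e 0) (e 1), ∃ φ : K ≃+* K, ∀ x, (g : G) • e x = e (φ x) := fun g => by
    obtain ⟨α, β, φ, -, hφ⟩ := h g
    have h0 : β = 0 := by simpa using (e.injective ((hφ 0).symm.trans g.2.1))
    have h1 : α = 1 := by simpa [h0] using (e.injective ((hφ 1).symm.trans g.2.2))
    exact ⟨φ, fun x => by rw [hφ, h0, h1, one_mul, add_zero]⟩
  choose φ hφ using h1
  let f : St G (e 0) (e 1) →* (K ≃+* K) := MonoidHom.mk' φ fun g g' => RingEquiv.ext fun x =>
    e.injective (by rw [← hφ, coe_mul, mul_smul, hφ, hφ]; rfl)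
  refine card_dvd_of_injective f ((injective_iff_map_eq_one f).2 fun g hg => Subtype.ext
    (eq_one_of_fix (α := Ω) fun y => ?_))
  obtain ⟨x, rfl⟩ := e.surjective y
  rw [hφ, show φ g = 1 from hg]; rfl

/-- transitive groups of degree `p + 1` and order `(p+1) p d`, `d < p` -/
theorem exists_ker_succ_prime [Finite G] [Finite Ω] [FaithfulSMul G Ω] [IsPretransitive G Ω]
    {p d : ℕ} (hp : p.Prime) (hΩ : Nat.card Ω = p + 1) (hG : Nat.card G = (p + 1) * p * d)
    (hd : d < p) (a : Ω) : ∃ P : Subgroup G, Ker a P ∧ Nat.card P = p := by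
  haveI := Fact.mk hp
  have h1 : Nat.card (stabilizer G a) = p * d := by
    have := (stabilizer G a).index_mul_card
    rw [index_stabilizer_of_transitive, hΩ, hG, mul_assoc] at this
    exact Nat.eq_of_mul_eq_mul_left (Nat.succ_pos p) this
  have hd0 : d ≠ 0 := by rintro rfl; exact Nat.card_pos.ne' h1
  have hpd : ¬ p ∣ d := fun h => absurd (Nat.le_of_dvd (Nat.pos_of_ne_zero hd0) h) hd.not_ge
  obtain ⟨S⟩ : Nonempty (Sylow p (stabilizer G a)) := inferInstance
  have hS : Nat.card (S : Subgroup (stabilizer G a)) = p := by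
    simpa using card_sylow_of_dvd (k := 1) S (by rw [h1, pow_one]) hpd
  have hn : Nat.card (Sylow p (stabilizer G a)) = 1 := by
    have e1 := card_sylow_modEq_one p (stabilizer G a)
    have e2 := S.card_dvd_index
    have e3 := (S : Subgroup (stabilizer G a)).card_mul_index
    rw [hS, h1] at e3
    rw [Nat.eq_of_mul_eq_mul_left hp.pos e3] at e2
    exact Nat.ModEq.eq_of_lt_of_lt e1 ((Nat.le_of_dvd (Nat.pos_of_ne_zero hd0) e2).trans_lt hd) hp.one_lt
  haveI : Subsingleton (Sylow p (stabilizer G a)) := (Nat.card_eq_one_iff_unique.1 hn).1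
  haveI := Sylow.normal_of_subsingleton S
  let P := (S : Subgroup (stabilizer G a)).map (stabilizer G a).subtype
  have hP : Nat.card P = p := by rw [card_map_of_injective (subtype_injective _), hS]
  have hle : P ≤ stabilizer G a := map_subtype_le _
  have hfree : ∀ u ∈ P, ∀ y, y ≠ a → u • y = y → u = 1 := fun u hu y hy e => by
    by_contra hu1
    have hz := eq_zpowers_of_card_prime hp hP hu hu1
    have ho : orderOf u = p := by rw [← Nat.card_zpowers, hz, hP]
    classical
    letI := Fintype.ofFinite Ω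
    have ho' : orderOf (toPermHom G Ω u) = p := by
      rw [orderOf_injective _ toPerm_injective, ho]
    have := (isCycle_of_prime hp (by rw [← Nat.card_eq_fintype_card, hΩ]; have := hp.two_le; nlinarith) ho').2
    have h2 := (toPermHom G Ω u).sum_cycleType
    rw [this, Multiset.sum_singleton] at h2
    have h3 : (toPermHom G Ω u).support ⊆ ({a, y} : Finset Ω)ᶜ := fun x hx => by
      simp only [Finset.mem_compl, Finset.mem_insert, Finset.mem_singleton, not_or]
      rw [Equiv.Perm.mem_support] at hx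
      exact ⟨fun e' => hx (e' ▸ hle hu), fun e' => hx (e' ▸ e)⟩
    have h4 := Finset.card_le_card h3
    rw [Finset.card_compl, Finset.card_pair hy.symm, ← Nat.card_eq_fintype_card, hΩ] at h4
    have := hp.two_le
    omega
  refine ⟨P, ker_of hle (by rw [show P.subgroupOf (stabilizer G a) = (S : Subgroup (stabilizer G a)) from comap_map_eq_self_of_injective
    (subtype_injective _) _]; infer_instance) fun y z hy hz => ?_, hP⟩
  have hinj : Function.Injective fun u : P => (⟨(u : G) • y, smul_ne_of_fix (hle u.2) hy⟩ : {x // x ≠ a}) :=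
    fun u v e => by
      have e' : (u : G) • y = (v : G) • y := congrArg Subtype.val e
      have := hfree ((v : G)⁻¹ * u) (P.mul_mem (P.inv_mem v.2) u.2) y hy (by rw [mul_smul, e', inv_smul_smul])
      exact Subtype.ext (inv_mul_eq_one.1 this).symm
  have hb := hinj.bijective_of_nat_card_le (by
    change Nat.card (({a} : Set Ω)ᶜ : Set Ω) ≤ _
    rw [hP, Nat.card_coe_set_eq, Set.ncard_compl, Set.ncard_singleton, hΩ]; omega)
  obtain ⟨u, hu⟩ := hb.2 ⟨z, hz⟩
  exact ⟨u, congrArg Subtype.val hu, fun v hv => hinj (Subtype.ext (hv.trans (congrArg Subtype.val hu).symm))⟩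

theorem z3_of_ker_prime [IsPretransitive G Ω] [FaithfulSMul G Ω] {p : ℕ} (hp : p.Prime)
    (h : ∀ a : Ω, ∃ P : Subgroup G, Ker a P ∧ Nat.card P = p) : Z3 G Ω := by
  refine ⟨mt_iff_fun.2 fun x y hx hy => ?_, fun g a b c hab hbc hac ha hb hc => ?_⟩
  · obtain ⟨g, hg⟩ := exists_smul_eq G (x 0) (y 0)
    obtain ⟨P, k, -⟩ := h (y 0)
    obtain ⟨u, hu, e⟩ := k.exists_smul (y := g • x 1) (z := y 1)
      (fun e => absurd (hx ((smul_left_cancel_iff g).1 (e.trans hg.symm))) (by decide))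
      (fun e => absurd (hy e) (by decide))
    refine ⟨u * g, fun i => ?_⟩
    fin_cases i
    · simp [mul_smul, hg, k.fix u hu]
    · simp [mul_smul, e]
  · obtain ⟨P, k, hP⟩ := h a
    obtain ⟨u, hu, e⟩ := k.exists_smul hab.symm hac.symm
    have hu1 : u ≠ 1 := fun e' => hbc (by rw [← e, e', one_smul])
    have e1 : g * u * g⁻¹ = u := k.eq_of_smul (k.norm g ha u hu) hu hab.symm (by
      rw [mul_smul, mul_smul, inv_smul_eq_iff.2 hb.symm, e, hc])
    have hz := eq_zpowers_of_card_prime hp hP hu hu1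
    refine eq_one_of_fix (α := Ω) fun y => ?_
    by_cases hy : y = a
    · rw [hy, ha]
    obtain ⟨v, hv, rfl⟩ := k.exists_smul hab.symm hy
    rw [← hz] at hv
    obtain ⟨i, rfl⟩ := hv
    have : Commute g u := mul_inv_eq_iff_eq_mul.1 e1
    simp only
    rw [← mul_smul, (this.zpow_right i).eq, mul_smul, hb]

end Cfsg.Agent.H7
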