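import Mathlib

set_option autoImplicit false

namespace Cfsg.Agent.H7

variable {X : Type*} [Group X]

theorem mem_fix (τ : MulAut X) (g : X) :
    g ∈ (MulEquiv.toMonoidHom τ).eqLocus (MonoidHom.id X) ↔ τ g = g := Iff.rfl

theorem pow_comm_apply (σ : MulAut X) (e : ℕ) (a : X) : (σ ^ e) (σ a) = σ ((σ ^ e) a) := by
  rw [← MulAut.mul_apply, ← MulAut.mul_apply, ← pow_succ, pow_succ']

theorem pow_fix (σ : MulAut X) (e : ℕ) {a : X} (h : σ a = a) : (σ ^ e) a = a := by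
  induction e with
  | zero => rfl
  | succ e ih => rw [pow_succ, MulAut.mul_apply, h, ih]

theorem norm_eq (σ : MulAut X) (a : X) (d : ℕ) :
    ((List.range d).map (fun i => (σ ^ i) (a * (σ a)⁻¹))).prod = a * ((σ ^ d) a)⁻¹ := by
  induction d with
  | zero => simp
  | succ d ih =>
    rw [List.range_succ, List.map_append, List.prod_append, ih]
    simp only [List.map_cons, List.map_nil, List.prod_cons, List.prod_nil, mul_one, map_mul, map_inv]
    rw [pow_succ, MulAut.mul_apply]; group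

theorem shint_fix (σ : MulAut X) (e : ℕ) (a : X) :
    (σ ^ e) (a * (σ a)⁻¹) = a * (σ a)⁻¹ ↔ σ (((σ ^ e) a)⁻¹ * a) = ((σ ^ e) a)⁻¹ * a := by
  simp only [map_mul, map_inv, pow_comm_apply]
  constructor
  · intro h
    have : σ ((σ ^ e) a) = σ a * a⁻¹ * (σ ^ e) a := by
      rw [show σ a * a⁻¹ = (a * (σ a)⁻¹)⁻¹ by group, ← h]; group
    rw [this]; group
  · intro h
    have : σ ((σ ^ e) a) = σ a * a⁻¹ * (σ ^ e) a := by
      rw [show σ a * a⁻¹ * (σ ^ e) a = σ a * (((σ ^ e) a)⁻¹ * a)⁻¹ by group, ← h]; group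
    rw [this]; group

theorem shint_tw (σ : MulAut X) (a b k : X) :
    b * (σ b)⁻¹ = k * (a * (σ a)⁻¹) * (σ k)⁻¹ ↔ σ (b⁻¹ * k * a) = b⁻¹ * k * a := by
  simp only [map_mul, map_inv]
  constructor
  · intro h
    have : (σ b)⁻¹ = b⁻¹ * (k * (a * (σ a)⁻¹) * (σ k)⁻¹) := by rw [← h]; group
    rw [this]; group
  · intro h
    have : (σ b)⁻¹ = b⁻¹ * k * a * (σ a)⁻¹ * (σ k)⁻¹ := by rw [← h]; group
    rw [this]; group

theorem shint_conj (τ : MulAut X) (a b k : X) (h : τ (b⁻¹ * k * a) = b⁻¹ * k * a) :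
    τ k = k ↔ (τ b)⁻¹ * b = (b⁻¹ * k * a) * ((τ a)⁻¹ * a) * (b⁻¹ * k * a)⁻¹ := by
  have h1 : τ k = τ b * (b⁻¹ * k * a) * (τ a)⁻¹ := by
    rw [← h]; simp only [map_mul, map_inv]; group
  rw [h1]
  constructor
  · intro h2
    have : (τ a)⁻¹ = (τ b * (b⁻¹ * k * a))⁻¹ * k := by
      rw [eq_inv_mul_iff_mul_eq, h2]
    rw [this]; group
  · intro h2
    have : (τ b) = b * ((b⁻¹ * k * a) * ((τ a)⁻¹ * a) * (b⁻¹ * k * a)⁻¹)⁻¹ := by
      rw [← h2]; group
    rw [this]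
    group

end Cfsg.Agent.H7
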