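import Cfsg.Agent.H7.Mod2
import Cfsg.Agent.H7.ZT3
import Cfsg.Agent.H7.Hig6
import Cfsg.Agent.C3.Bridge

/-! Zassenhaus groups of odd degree: the fixed point free elements are strongly real. -/

set_option autoImplicit false
set_option linter.unusedSectionVars false

open scoped Classical
open Cfsg MulAction Subgroup Cfsg.Agent.H8 Cfsg.Agent.H2

namespace Cfsg.Agent.H7

variable {G Ω : Type*} [Group G] [MulAction G Ω] {a b : Ω} {Q A : Subgroup G} [Finite G] [Finite Ω]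

theorem not_meet_iff {x : G} : (∀ g, ConjClasses.mk g = ConjClasses.mk x → g ∉ Q) ↔
    ¬ ∃ g, x ∈ H8.cj Q g := by
  refine ⟨fun h ⟨g, hg⟩ => h _ (ConjClasses.mk_eq_mk_iff_isConj.2
    (isConj_iff.2 ⟨g, by group⟩)) (H8.mem_cj.1 hg), fun h g e hg => ?_⟩
  obtain ⟨w, rfl⟩ := isConj_iff.1 (ConjClasses.mk_eq_mk_iff_isConj.1 e)
  exact h ⟨w, H8.mem_cj.2 (by simpa [mul_assoc] using hg)⟩

namespace ZT

theorem odd_of_not_meet (h : ZT a b Q) {x : G} (hx : ¬ ∃ g, x ∈ H8.cj Q g) : Odd (orderOf x) := by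
  rcases h.tri x with h1 | ⟨g, h1⟩ | h1
  · exact absurd h1 hx
  · rw [← St_cj] at h1
    exact odd_orderOf_of_mem (h.cj' g).odd h1
  · exact h.even.add_one.of_dvd_nat (h.dvd_of_fpf h1)

theorem card_classes (h : ZT a b Q) :
    Nat.card {C : ConjClasses G // ∀ g : G, ConjClasses.mk g = C → g ∉ Q} = Nat.card (St G a b) := by
  refine le_antisymm ?_ h.le_card_classes
  let f : Option {C : ConjClasses G // ∀ g : G, ConjClasses.mk g = C → g ∉ Q} →
      {C : ConjClasses G // ∃ g, ConjClasses.mk g = C ∧ Odd (orderOf g)} := fun C => C.elim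
    ⟨ConjClasses.mk 1, 1, rfl, by simp⟩ fun C => ⟨C.1, by
      obtain ⟨C, hC⟩ := C
      obtain ⟨x, rfl⟩ := ConjClasses.mk_surjective C
      exact ⟨x, rfl, h.odd_of_not_meet (not_meet_iff.1 hC)⟩⟩
  have hf : Function.Injective f := by
    rintro (_ | C) (_ | D) e
    · rfl
    · exact absurd Q.one_mem (D.2 1 (congrArg Subtype.val e))
    · exact absurd Q.one_mem (C.2 1 (congrArg Subtype.val e).symm)
    · have e' : (f (some C)).1 = (f (some D)).1 := by rw [e]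
      exact congrArg some (Subtype.ext e')
  have := (Nat.card_le_card_of_injective f hf).trans h.card_odd_classes
  rw [Finite.card_option] at this
  omega

theorem cPairs_eq (h : ZT a b Q) {x : G} (hx : ¬ ∃ g, x ∈ H8.cj Q g) :
    cPairs x = Nat.card (centralizer ({x} : Set G)) := by
  haveI := Fintype.ofFinite G
  have h1 := sum_cPairs (G := G)
  rw [← Finset.sum_filter_add_sum_filter_not _
    (fun x : G => ∀ g, ConjClasses.mk g = ConjClasses.mk x → g ∉ Q)] at h1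
  have h2 := h.sum_cPairs_F
  have h3 := sum_card_centralizer (fun C : ConjClasses G => ∀ g, ConjClasses.mk g = C → g ∉ Q)
  rw [h.card_classes, h.card_G] at h3
  rw [h.card_inv, if_pos h.even] at h1 h2
  rw [if_pos h.even] at h2
  refine (Finset.sum_eq_sum_iff_of_le (s := Finset.univ.filter
    (fun x : G => ∀ g, ConjClasses.mk g = ConjClasses.mk x → g ∉ Q)) fun x _ => cPairs_le x).1
    (le_antisymm (Finset.sum_le_sum fun x _ => cPairs_le x) ?_) x
    (Finset.mem_filter.2 ⟨Finset.mem_univ _, not_meet_iff.2 hx⟩)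
  rw [h3]
  nlinarith

theorem fpf_not_meet (h : ZT a b Q) {x : G} (hx : Fpf Ω x) : ¬ ∃ g, x ∈ H8.cj Q g :=
  fun ⟨g, hg⟩ => hx _ ((h.cj' g).k.fix x hg)

theorem inverters (h : ZT a b Q) {x : G} (hx : Fpf Ω x) :
    (∃ t, t * x * t⁻¹ = x⁻¹) ∧ ∀ t, t * x * t⁻¹ = x⁻¹ → t * t = 1 := by
  have h1 := h.cPairs_eq (h.fpf_not_meet hx)
  have h2 : IsConj x x⁻¹ := by
    by_contra h2
    rw [cPairs_eq_zero h2] at h1
    exact Nat.card_pos.ne h1
  refine ⟨isConj_iff.1 h2, fun t ht => ?_⟩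
  rw [← card_inverters h2] at h1
  let f : {p : G × G // orderOf p.1 = 2 ∧ orderOf p.2 = 2 ∧ p.1 * p.2 = x} →
      {g : G // g * x * g⁻¹ = x⁻¹} := fun p => ⟨p.1.1, by
    have := inverts_left (ord2_mul_self p.2.1) (ord2_mul_self p.2.2.1)
    rwa [p.2.2.2] at this⟩
  have hf : Function.Injective f := fun p p' e => by
    have e1 : p.1.1 = p'.1.1 := congrArg Subtype.val e
    exact Subtype.ext (Prod.ext e1 (mul_left_cancel (p.2.2.2.trans (by rw [e1, p'.2.2.2]))))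
  obtain ⟨p, hp⟩ := ((Nat.bijective_iff_injective_and_card f).2 ⟨hf, h1⟩).2 ⟨t, ht⟩
  rw [← show p.1.1 = t from congrArg Subtype.val hp]
  exact ord2_mul_self p.2.1

theorem ztt (h : ZT a b Q) : ZTT a b Q := by
  refine ⟨h, fun g hg => ?_⟩
  obtain ⟨⟨t, ht⟩, h2⟩ := h.inverters hg
  have := comm_of_inverted (H := centralizer {g}) (s := t) fun c hc => by
    have h3 := h2 (t * c) (by
      rw [← ht, mul_assoc t c, mem_centralizer_singleton_iff.1 hc]; group)
    rw [eq_inv_iff_mul_eq_one, inv_eq_of_mul_eq_one_right (h2 t ht), ← h3]; group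
  exact fun x y hx hy => this x (mem_centralizer_singleton_iff.2 hx) y (mem_centralizer_singleton_iff.2 hy)

theorem sum_tori (h : ZT a b Q) {R : Finset (Subgroup G)} (hR : ZTT.Reps Ω R) :
    2 * ∑ A ∈ R, ((Nat.card A : ℚ) - 1) / ZTT.ee A = Nat.card (St G a b) + 1 := by
  haveI := Fintype.ofFinite G
  have h1 := h.ztt.sum_fpf hR id
  have h2 := h.card_fpf
  have h3 := sum_card_centralizer (fun C : ConjClasses G => ∀ g, ConjClasses.mk g = C → g ∉ Q)
  rw [h.card_classes, ← Finset.sum_filter_add_sum_filter_not _ (Fpf Ω), Finset.filter_filter,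
    Finset.filter_congr (q := Fpf Ω) (fun x _ => ⟨fun h => h.2, fun hx =>
      ⟨not_meet_iff.2 (h.fpf_not_meet hx), hx⟩⟩),
    Finset.sum_congr rfl (g := fun _ => Nat.card (St G a b)) (s₁ := Finset.filter _ (Finset.filter _ _))
      fun x hx => by
        simp only [Finset.mem_filter, Finset.mem_univ, true_and, not_meet_iff] at hx
        obtain ⟨g, hg⟩ := ((h.tri x).resolve_left hx.1).resolve_right hx.2
        rw [← St_cj] at hg
        rw [(h.cj' g).centralizer_St hg (fun e => hx.1 ⟨1, by rw [e]; exact one_mem _⟩), h.card_St (h.cj' g).ne],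
    Finset.sum_const, smul_eq_mul] at h3
  have h4 := Finset.card_filter_add_card_filter_not (s := Finset.univ.filter
    (fun x : G => ∀ g, ConjClasses.mk g = ConjClasses.mk x → g ∉ Q)) (Fpf Ω)
  rw [Finset.filter_filter, Finset.filter_congr (q := Fpf Ω) (fun x _ => ⟨fun h => h.2, fun hx =>
      ⟨not_meet_iff.2 (h.fpf_not_meet hx), hx⟩⟩)] at h4
  have h5 := Finset.card_filter_add_card_filter_not (s := Finset.univ)
    (fun x : G => ∀ g, ConjClasses.mk g = ConjClasses.mk x → g ∉ Q)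
  have h6 : (Finset.univ.filter (fun x : G => ¬ ∀ g, ConjClasses.mk g = ConjClasses.mk x → g ∉ Q)).card =
      (Nat.card Q - 1) * (Nat.card Q + 1) + 1 := by
    rw [← h.index_N, ← h.k.normalizer_eq h.h3, ← C3.ncard_cls (h.k.isTI h.h3), ← Set.ncard_coe_finset,
      ← Set.ncard_insert_of_notMem (a := 1) (by rintro ⟨x, hx, e⟩; exact hx.2 (by simpa using e))]
    congr 1
    ext x
    simp only [Finset.coe_filter, Finset.mem_univ, true_and, not_forall, not_not, Set.mem_setOf_eq,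
      Set.mem_insert_iff, ConjClasses.mk_eq_mk_iff_isConj]
    refine ⟨fun ⟨g, e, hg⟩ => ?_, ?_⟩
    · by_cases h1 : g = 1
      · exact Or.inl (by simpa [h1] using e.symm)
      · exact Or.inr ⟨g, ⟨hg, h1⟩, e⟩
    · rintro (rfl | ⟨g, hg, e⟩)
      · exact ⟨1, IsConj.refl _, Q.one_mem⟩
      · exact ⟨g, e, hg.1⟩
  rw [h6, Finset.card_univ, ← Nat.card_eq_fintype_card, ← h4] at h5
  simp only [id] at h1
  rw [h1] at h3
  have h7 := congrArg (Nat.cast : ℕ → ℚ) h3
  have h8 := congrArg (Nat.cast : ℕ → ℚ) h2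
  have h9 := congrArg (Nat.cast : ℕ → ℚ) h5
  have h10 := congrArg (Nat.cast : ℕ → ℚ) h.card_G
  have h11 := h.two_le
  push_cast [Nat.cast_sub (show 1 ≤ Nat.card Q by omega)] at h7 h8 h9 h10
  have h13 : ∑ A ∈ R, ((normalizer (A : Set G)).index : ℚ) * (((Nat.card A - 1 : ℕ) : ℚ) * Nat.card A) =
      ∑ A ∈ R, Nat.card G * (((Nat.card A : ℚ) - 1) / ZTT.ee A) := Finset.sum_congr rfl fun A _ => by
    have h1 := ZTT.ee_pos A
    have h2 : 0 < Nat.card A := Nat.card_pos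
    rw [ZTT.index_normalizer, Nat.cast_sub Nat.card_pos]; push_cast; field_simp
  rw [h13, ← Finset.mul_sum] at h7
  have h12 : (0 : ℚ) < Nat.card G := Nat.cast_pos.2 Nat.card_pos
  apply mul_left_cancel₀ h12.ne'
  linear_combination 2 * h7 - 2 * (Nat.card (St G a b)) * h9 + (Nat.card (St G a b)) * h8 - h10

end ZT

theorem suzuki_of {S C : Subgroup G} (hC : C ≤ normalizer (S : Set G)) (hc : IsCyclic C)
    (h2 : IsPGroup 2 S) (hna : ∃ x y : S, x * y ≠ y * x)
    (htwo : ∃ x y : S, x ≠ y ∧ x ≠ 1 ∧ x * x = 1 ∧ y ≠ 1 ∧ y * y = 1)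
    (htr : ∀ x ∈ S, ∀ y ∈ S, orderOf x = 2 → orderOf y = 2 → ∃ c ∈ C, c * x * c⁻¹ = y)
    (hse : ∀ x ∈ S, orderOf x = 2 → ∀ c ∈ C, c * x = x * c → c = 1) : IsSuzukiTwoGroup S := by
  let φ := S.normalizerMonoidHom.comp (inclusion hC)
  refine ⟨inferInstance, h2, hna, htwo, φ.range, isCyclic_of_surjective _ φ.rangeRestrict_surjective,
    fun x y hx hx2 hy hy2 => ?_⟩
  have o1 : orderOf (x : G) = 2 := ord2_of (congrArg Subtype.val hx2) fun e => hx (Subtype.ext e)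
  have o2 : orderOf (y : G) = 2 := ord2_of (congrArg Subtype.val hy2) fun e => hy (Subtype.ext e)
  obtain ⟨c, hc, e⟩ := htr x x.2 y y.2 o1 o2
  refine ⟨⟨_, ⟨c, hc⟩, rfl⟩, Subtype.ext e, ?_⟩
  rintro ⟨_, d, rfl⟩ e'
  have e2 : (d : G) * x * (d : G)⁻¹ = y := congrArg Subtype.val e'
  have := hse x x.2 o1 (c⁻¹ * d) (C.mul_mem (C.inv_mem hc) d.2) (by
    rw [mul_assoc, mul_inv_eq_iff_eq_mul.1 e2, ← e]; group)
  rw [show d = ⟨c, hc⟩ from Subtype.ext (inv_mul_eq_one.1 this).symm]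

theorem card_le_eight {E : Subgroup G} {t : G} (h1 : ∀ x ∈ E, x * x = 1 → x = 1 ∨ x = t)
    (h2 : ∀ x ∈ E, x * x * (x * x) = 1) (h3 : ∀ x ∈ E, ∀ y ∈ E, Hig.cm x y * Hig.cm x y = 1) :
    Nat.card E ≤ 8 := by
  have key : ∀ l : List G, (∀ x ∈ E, x ∈ l) → Nat.card E ≤ l.length := fun l hl => by
    refine le_trans ?_ l.toFinset_card_le
    rw [← Set.ncard_coe_finset]
    exact Set.ncard_le_ncard fun x hx => by simpa using hl x hx
  by_cases hx : ∀ x ∈ E, x * x = 1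
  · exact (key [1, t] fun x h => by simpa using h1 x h (hx x h)).trans (by simp)
  push Not at hx
  obtain ⟨x, hx, hx1⟩ := hx
  have hxt := (h1 _ (E.mul_mem hx hx) (h2 x hx)).resolve_left hx1
  have hC : ∀ y ∈ E, x * y = y * x → y = 1 ∨ y = t ∨ y = x⁻¹ ∨ y = x⁻¹ * t := fun y hy e => by
    rcases h1 _ (E.mul_mem hy hy) (h2 y hy) with h | h
    · rcases h1 y hy h with h | h <;> simp [h]
    · rcases h1 _ (E.mul_mem hx hy) (by
        rw [mul_assoc, ← mul_assoc y, ← e, mul_assoc, h, ← mul_assoc, ← hxt, h2 x hx]) with h | h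
      · simp [eq_inv_of_mul_eq_one_right h]
      · simp [← h]
  by_cases hy : ∀ y ∈ E, x * y = y * x
  · exact (key [1, t, x⁻¹, x⁻¹ * t] fun y h => by simpa using hC y h (hy y h)).trans (by simp)
  push Not at hy
  obtain ⟨y, hy, hxy⟩ := hy
  have hcm : ∀ y ∈ E, x * y ≠ y * x → Hig.cm x y = t := fun y hy e =>
    (h1 _ (E.mul_mem (E.mul_mem (E.mul_mem (E.inv_mem hx) (E.inv_mem hy)) hx) hy)
      (h3 x hx y hy)).resolve_left fun h => e (Hig.cm_eq_one.1 h)
  refine key [1, t, x⁻¹, x⁻¹ * t, 1 * y, t * y, x⁻¹ * y, x⁻¹ * t * y] fun z hz => ?_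
  by_cases e : x * z = z * x
  · rcases hC z hz e with h | h | h | h <;> simp [h]
  · have e1 := Hig.conj_eq_cm x z
    rw [hcm z hz e, ← hcm y hy hxy, ← Hig.conj_eq_cm] at e1
    have e2 := hC (z * y⁻¹) (E.mul_mem hz (E.inv_mem hy)) (by
      calc x * (z * y⁻¹) = z * (z⁻¹ * x * z) * y⁻¹ := by group
        _ = _ := by rw [e1]; group)
    simp only [mul_inv_eq_iff_eq_mul] at e2
    rcases e2 with h | h | h | h <;> simp [h]

namespace ZT

theorem suzuki (h : ZT a b Q) (hna : ∃ x y : Q, x * y ≠ y * x) : IsSuzukiTwoGroup Q := by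
  obtain ⟨s, h1, h2⟩ := h.ex
  have hS := h.ro h.even h1 h2
  refine suzuki_of h.k.le_normalizer h.cyclic h.two hna ?_ (fun x hx y hy o1 o2 => ?_)
    fun x hx o1 c hc e => by_contra fun h1 => ord2_ne_one o1 (h.k.cent h.z h.ne.symm hc h1 hx e)
  · have h3 := h.card_inv_N
    rw [if_pos h.even] at h3
    have h4 := h.three_le
    haveI := Finite.one_lt_card_iff_nontrivial.1 (show 1 < Nat.card
      {i : G // orderOf i = 2 ∧ i • a = a} by omega)
    obtain ⟨x, y, hxy⟩ := exists_pair_ne {i : G // orderOf i = 2 ∧ i • a = a}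
    exact ⟨⟨x, RO.inv_mem_Q hS x.2.2 (ord2_mul_self x.2.1)⟩, ⟨y, RO.inv_mem_Q hS y.2.2 (ord2_mul_self y.2.1)⟩,
      fun e => hxy (Subtype.ext (Subtype.mk.inj e)),
      fun e => ord2_ne_one x.2.1 (congrArg Subtype.val e), Subtype.ext (ord2_mul_self x.2.1),
      fun e => ord2_ne_one y.2.1 (congrArg Subtype.val e), Subtype.ext (ord2_mul_self y.2.1)⟩
  · obtain ⟨c, hc, e⟩ := RO.K_trans hS (h.k.fix x hx) o1 (h.k.fix y hy) o2
    exact ⟨c, h1 ▸ hc.1, e⟩

theorem card_center (h : ZT a b Q) (hc : ∀ x : Q, x ∈ center Q ↔ x * x = 1) :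
    Nat.card (center Q) = Nat.card (St G a b) + 1 := by
  obtain ⟨s, h1, h2⟩ := h.ex
  have hS := h.ro h.even h1 h2
  have h3 := h.card_inv_N
  rw [if_pos h.even] at h3
  rw [← h3, ← Finite.card_option]
  refine (Nat.card_eq_of_bijective (fun i => i.elim 1 fun i =>
    ⟨⟨i.1, RO.inv_mem_Q hS i.2.2 (ord2_mul_self i.2.1)⟩, (hc _).2 (Subtype.ext (ord2_mul_self i.2.1))⟩)
    ⟨?_, fun z => ?_⟩).symm
  · rintro (_ | x) (_ | y) e
    · rfl
    · exact absurd (congrArg (fun z => (z.1 : G)) e).symm (ord2_ne_one y.2.1)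
    · exact absurd (congrArg (fun z => (z.1 : G)) e) (ord2_ne_one x.2.1)
    · exact congrArg some (Subtype.ext (congrArg (fun z => (z.1 : G)) e))
  · by_cases e : z = 1
    · exact ⟨none, e.symm⟩
    · exact ⟨some ⟨z.1, ord2_of (congrArg Subtype.val ((hc _).1 z.2))
        fun e' => e (Subtype.ext (Subtype.ext e')), h.k.fix _ z.1.2⟩, rfl⟩

theorem ee_mem (h : ZT a b Q) (h4 : ∀ x : Q, x * x * (x * x) = 1)
    (hcm : ∀ x y : Q, Hig.cm x y * Hig.cm x y = 1) (hA : Tor Ω A) :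
    ZTT.ee A = 2 ∨ ZTT.ee A = 4 ∨ ZTT.ee A = 8 := by
  haveI : Fact (Nat.Prime 2) := ⟨Nat.prime_two⟩
  haveI : Nonempty Ω := ⟨a⟩
  have T := h.ztt
  have hodd := T.odd_card hA
  have sq : ∀ y ∈ A, y * y = 1 → y = 1 := fun y hy e => eq_one_of_sq (odd_orderOf_of_mem hodd hy) e
  have inv : ∀ s ∈ normalizer (A : Set G), s * s = 1 → s ≠ 1 → ∀ y ∈ A, s * y * s⁻¹ = y⁻¹ := by
    intro s hs h1 h0 y hy
    have h2 : s * y * s⁻¹ ∈ A := (mem_normalizer_iff.1 hs y).1 hy
    refine eq_inv_of_mul_eq_one_left (by_contra fun e => h0 (sq s ?_ h1))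
    refine (T.cent hA (A.mul_mem h2 hy) e).le (mem_centralizer_singleton_iff.2 ?_)
    conv_rhs => rw [T.tcomm hA h2 hy]
    simp only [← mul_assoc, h1, one_mul, inv_eq_of_mul_eq_one_right h1]
    simp only [mul_assoc, h1, mul_one]
  obtain ⟨g, hg, hAg⟩ := id hA
  have hgA : g ∈ A := hAg ▸ mem_centralizer_singleton_iff.2 rfl
  obtain ⟨⟨t, ht⟩, h2⟩ := h.inverters hg
  have htt := h2 t ht
  have htN := T.mem_normalizer hA hgA hg.ne_one (ht ▸ A.inv_mem hgA)
  have ht1 : t ≠ 1 := fun e => hg.ne_one (sq g hgA (by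
    rw [e, one_mul, inv_one, mul_one] at ht; exact mul_eq_one_iff_eq_inv.2 ht))
  have two : ∀ s t : G, s * g * s⁻¹ = g⁻¹ → t * g * t⁻¹ = g⁻¹ → s⁻¹ * t ∈ A := fun s t hs ht => by
    rw [hAg, mem_centralizer_singleton_iff]
    calc s⁻¹ * t * g = s⁻¹ * (t * g * t⁻¹) * t := by group
      _ = _ := by rw [ht, ← hs]; group
  let E := normalizer (A : Set G) ⊓ centralizer {t}
  have hAE : ∀ y ∈ A, y ∈ E → y = 1 := fun y hy hE => sq y hy (by
    have := inv t htN htt ht1 y hy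
    rw [← mem_centralizer_singleton_iff.1 hE.2, mul_inv_cancel_right] at this
    exact mul_eq_one_iff_eq_inv.2 this)
  have hcard : ZTT.ee A = Nat.card E := by
    refine Nat.eq_of_mul_eq_mul_right (Nat.card_pos (α := A)) ?_
    rw [← ZTT.card_normalizer, mul_comm, ← Nat.card_prod]
    refine (Nat.card_eq_of_bijective (fun p : A × E => (⟨p.1 * p.2,
      mul_mem (le_normalizer p.1.2) p.2.2.1⟩ : normalizer (A : Set G))) ⟨fun p p' e => ?_, fun x => ?_⟩).symm
    · have e1 : (p.1 : G) * p.2 = p'.1 * p'.2 := congrArg Subtype.val e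
      have e2 : (p'.1 : G)⁻¹ * p.1 = p'.2 * (p.2 : G)⁻¹ := by
        rw [inv_mul_eq_iff_eq_mul, ← mul_assoc, ← e1, mul_inv_cancel_right]
      have e3 := hAE _ (A.mul_mem (A.inv_mem p'.1.2) p.1.2) (e2 ▸ E.mul_mem p'.2.2 (E.inv_mem p.2.2))
      have e4 := inv_mul_eq_one.1 e3
      rw [e4] at e1
      exact Prod.ext (Subtype.ext e4.symm) (Subtype.ext (mul_left_cancel e1))
    · have hs := inv (x * t * (x : G)⁻¹) (mul_mem (mul_mem x.2 htN) (inv_mem x.2))
        (by rw [show (x : G) * t * (x : G)⁻¹ * (x * t * (x : G)⁻¹) = x * (t * t) * (x : G)⁻¹ by group, htt]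
            simp) (fun e => ht1 (by simpa using e)) g hgA
      have hy := two _ _ hs ht
      obtain ⟨j, hj⟩ := exists_pow_eq_self_of_coprime (n := 2)
        (Odd.coprime_two_left (odd_orderOf_of_mem hodd hy))
      rw [pow_right_comm, pow_two] at hj
      have hz := A.pow_mem hy j
      generalize ((x * t * (x : G)⁻¹)⁻¹ * t) ^ j = z at hj hz
      have e1 := inv t htN htt ht1 z hz
      refine ⟨(⟨z, hz⟩, ⟨z⁻¹ * x, (normalizer (A : Set G)).mul_mem ((normalizer (A : Set G)).inv_mem (le_normalizer hz)) x.2,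
        mem_centralizer_singleton_iff.2 ?_⟩), Subtype.ext (by simp)⟩
      calc z⁻¹ * x * t = z⁻¹ * t * ((x * t * (x : G)⁻¹)⁻¹ * t)⁻¹ * x := by group
        _ = (t * z * t⁻¹) * t * (z * z)⁻¹ * x := by rw [hj, e1]
        _ = _ := by group
  obtain ⟨g₀, hg₀⟩ := h.exists_le_cj (P := zpowers t) (IsPGroup.of_card (n := 1) (by
    rw [Nat.card_zpowers, ord2_of htt ht1, pow_one]))
  have hEQ : ∀ x ∈ E, g₀⁻¹ * x * g₀ ∈ Q := fun x hx => H8.mem_cj.1 ((h.cj' g₀).cent_Q
    (hg₀ (mem_zpowers t)) ht1 (mem_centralizer_singleton_iff.1 hx.2))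
  have h8 := card_le_eight (E := E) (t := t) (fun x hx e => by
      by_contra hc
      push Not at hc
      have h3 := two _ _ (inv x hx.1 e hc.1 g hgA) ht
      exact hc.2 (inv_mul_eq_one.1 (hAE _ h3 (E.mul_mem (E.inv_mem hx)
        ⟨htN, mem_centralizer_singleton_iff.2 rfl⟩))))
    (fun x hx => by
      have : _ = (1 : G) := congrArg Subtype.val (h4 ⟨_, hEQ x hx⟩)
      refine (MulAut.conj g₀⁻¹).injective ?_
      rw [map_one, ← this]
      simp [mul_assoc]) fun x hx y hy => by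
      have : _ = (1 : G) := congrArg Subtype.val (hcm ⟨_, hEQ x hx⟩ ⟨_, hEQ y hy⟩)
      refine (MulAut.conj g₀⁻¹).injective ?_
      rw [map_mul, Hig.map_cm, map_one, ← this]
      simp [Hig.cm]
  obtain ⟨j, hj⟩ := IsPGroup.iff_card.1 ((h.cj' g₀).two.to_le (H := E) fun x hx => H8.mem_cj.2 (hEQ x hx))
  have h9 : Nat.card E ≠ 1 := fun e => ht1 (mem_bot.1 (card_eq_one.1 e ▸
    (⟨htN, mem_centralizer_singleton_iff.2 rfl⟩ : t ∈ E)))
  rw [hj] at h8 h9
  rw [hcard, hj]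
  have : j ≤ 3 := (Nat.pow_le_pow_iff_right one_lt_two).1 h8
  interval_cases j
  · exact absurd rfl h9
  all_goals simp

end ZT

end Cfsg.Agent.H7
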