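import Mathlib

/-! Arithmetic for Suzuki's theorem on Zassenhaus groups of odd degree. -/

set_option autoImplicit false

namespace Cfsg.Agent.H7.ZSA

theorem lo (e k : ℕ) (hk : 1 ≤ k) : (1 : ℚ) / (e + 1) ≤ k / (e * k + 1) := by
  have : (1 : ℚ) ≤ k := by exact_mod_cast hk
  rw [div_le_div_iff₀ (by positivity) (by positivity)]
  nlinarith

theorem up (e k : ℕ) (he : 1 ≤ e) : (k : ℚ) / (e * k + 1) < 1 / e := by
  have : (1 : ℚ) ≤ e := by exact_mod_cast he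
  rw [div_lt_div_iff₀ (by positivity) (by positivity)]
  nlinarith

theorem t28 {q n k₁ k₂ : ℕ} {ε : ℚ} (hq : q = 8 ∨ 16 ≤ q) (hn : n = q ^ 2 ∨ n = q ^ 3) (hε : 0 < ε)
    (h1 : 1 ≤ k₁) (h2 : 1 ≤ k₂) (hp : (2 * k₁ + 1) * (8 * k₂ + 1) = n + 1) (hs : 2 * (k₁ + k₂) = q)
    (h : (k₁ : ℚ) / (2 * k₁ + 1) + k₂ / (8 * k₂ + 1) = 1 / 2 - ε) : False := by
  have h3 := lo 8 k₂ h2
  rcases Nat.eq_or_lt_of_le h1 with rfl | h4
  · rcases hq with rfl | hq
    · omega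
    · have : q ^ 2 ≤ n := by
        rcases hn with rfl | rfl
        exacts [le_rfl, Nat.pow_le_pow_right (by omega) (by norm_num)]
      nlinarith
  · have h5 : (2 : ℚ) ≤ k₁ := by exact_mod_cast h4
    have : (2 : ℚ) / 5 ≤ k₁ / (2 * k₁ + 1) := by
      rw [div_le_div_iff₀ (by positivity) (by positivity)]; nlinarith
    push_cast at h3
    linarith

theorem t44 {q n k₁ k₂ : ℕ} (hq : 8 ≤ q) (hn : n = q ^ 2 ∨ n = q ^ 3)
    (hp : (4 * k₁ + 1) * (4 * k₂ + 1) = n + 1) (hs : 2 * (k₁ + k₂) = q) :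
    n = q ^ 2 ∧ ∃ d : ℤ, (q : ℤ) = 2 * d ^ 2 := by
  zify at hp hs hq
  rcases hn with rfl | rfl
  · refine ⟨rfl, k₁ - k₂, ?_⟩
    push_cast at hp
    rw [← hs] at hp ⊢
    nlinarith
  · exfalso
    push_cast at hp
    have : (q : ℤ) ^ 3 + 1 ≤ (q + 1) ^ 2 := by
      rw [← hp, ← hs]; nlinarith [sq_nonneg ((k₁ : ℤ) - k₂)]
    nlinarith

theorem t488 {q n k₁ k₂ k₃ : ℕ} (hq : 8 ≤ q) (hn : n = q ^ 2 ∨ n = q ^ 3)
    (h1 : 1 ≤ k₁) (h2 : 1 ≤ k₂) (h3 : 1 ≤ k₃)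
    (hp : (4 * k₁ + 1) * (8 * k₂ + 1) * (8 * k₃ + 1) = n + 1) (hs : 2 * (k₁ + k₂ + k₃) = q)
    (h : (k₁ : ℚ) / (4 * k₁ + 1) + k₂ / (8 * k₂ + 1) + k₃ / (8 * k₃ + 1) =
      1 / 2 - ((n : ℚ) - 1) / (2 * (n + 1) * (q - 1))) : False := by
  have hq' : (8 : ℚ) ≤ q := by exact_mod_cast hq
  have hp' : ((4 * k₁ + 1) * (8 * k₂ + 1) * (8 * k₃ + 1) : ℚ) = n + 1 := by exact_mod_cast hp
  have hq0 : (q : ℚ) - 1 ≠ 0 := by linarith
  have key : ((q : ℚ) - 1) * (2 * (8 * k₂ + 1) * (8 * k₃ + 1) + (4 * k₁ + 1) * (8 * k₂ + 1) +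
      (4 * k₁ + 1) * (8 * k₃ + 1)) = 4 * (n - 1) := by
    rw [← hp'] at h
    field_simp at h
    linear_combination (-4) * h
  have hs' : (2 * (k₁ + k₂ + k₃) : ℚ) = q := by exact_mod_cast hs
  have g1 : (1 : ℚ) ≤ k₁ := by exact_mod_cast h1
  have g2 : (1 : ℚ) ≤ k₂ := by exact_mod_cast h2
  have g3 : (1 : ℚ) ≤ k₃ := by exact_mod_cast h3
  rcases hn with rfl | rfl
  · push_cast at key
    have : (2 * (8 * k₂ + 1) * (8 * k₃ + 1) + (4 * k₁ + 1) * (8 * k₂ + 1) +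
      (4 * k₁ + 1) * (8 * k₃ + 1) : ℚ) = 4 * (q + 1) := mul_left_cancel₀ hq0 (by rw [key]; ring)
    nlinarith [mul_nonneg (sub_nonneg.2 g1) (sub_nonneg.2 g2), mul_nonneg (sub_nonneg.2 g2) (sub_nonneg.2 g3),
      mul_nonneg (sub_nonneg.2 g1) (sub_nonneg.2 g3)]
  · push_cast at key hp'
    have e1 : (2 * (8 * k₂ + 1) * (8 * k₃ + 1) + (4 * k₁ + 1) * (8 * k₂ + 1) +
      (4 * k₁ + 1) * (8 * k₃ + 1) : ℚ) = 4 * (q ^ 2 + q + 1) := mul_left_cancel₀ hq0 (by rw [key]; ring)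
    have e2 : ∀ t : ℚ, t = 4 * k₁ + 1 - q → t ^ 3 + (q - 2) * t ^ 2 + (q ^ 2 - 2 * q + 2) * t + 2 * q - 1 = 0 := by
      rintro t rfl
      linear_combination hp' - (4 * k₁ + 1) / 2 * e1 + 2 * (4 * k₁ + 1) ^ 2 * hs'
    have e3 := e2 _ rfl
    rcases le_or_gt q (4 * k₁ + 1) with h5 | h5
    · have : (0 : ℚ) ≤ 4 * k₁ + 1 - q := by
        have : (q : ℚ) ≤ 4 * k₁ + 1 := by exact_mod_cast h5
        linarith
      generalize (4 * k₁ + 1 - q : ℚ) = t at this e3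
      have : 0 ≤ t ^ 3 + (q - 2) * t ^ 2 + (q ^ 2 - 2 * q + 2) * t := by
        have : (0 : ℚ) ≤ q - 2 := by linarith
        have : (0 : ℚ) ≤ q ^ 2 - 2 * q + 2 := by nlinarith
        positivity
      linarith
    · have : (4 * k₁ + 1 - q : ℚ) ≤ -1 := by
        have : (4 * k₁ + 1 + 1 : ℚ) ≤ q := by exact_mod_cast h5
        linarith
      generalize (4 * k₁ + 1 - q : ℚ) = t at this e3
      have h6 : 2 * q ≤ t ^ 2 + (q - 2) * t + (q ^ 2 - 2 * q + 2) := by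
        nlinarith [sq_nonneg (2 * t + q - 2)]
      nlinarith

theorem amgm4 {x y z w : ℚ} (hx : 0 ≤ x) (hy : 0 ≤ y) (hz : 0 ≤ z) (hw : 0 ≤ w) :
    256 * (x * y * z * w) ≤ (x + y + z + w) ^ 4 := by
  have h1 : 4 * (x * y) ≤ (x + y) ^ 2 := by nlinarith [sq_nonneg (x - y)]
  have h2 : 4 * (z * w) ≤ (z + w) ^ 2 := by nlinarith [sq_nonneg (z - w)]
  have h3 : 4 * ((x + y) * (z + w)) ≤ (x + y + z + w) ^ 2 := by nlinarith [sq_nonneg (x + y - z - w)]
  have h4 := mul_le_mul h1 h2 (by positivity) (by positivity)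
  have h5 := pow_le_pow_left₀ (by positivity) h3 2
  nlinarith

theorem t8888 {q n k₁ k₂ k₃ k₄ : ℕ} (hq : 8 ≤ q) (hn : n = q ^ 2 ∨ n = q ^ 3)
    (hp : (8 * k₁ + 1) * (8 * k₂ + 1) * (8 * k₃ + 1) * (8 * k₄ + 1) = n + 1)
    (h : (k₁ : ℚ) / (8 * k₁ + 1) + k₂ / (8 * k₂ + 1) + k₃ / (8 * k₃ + 1) + k₄ / (8 * k₄ + 1) =
      1 / 2 - ((n : ℚ) - 1) / (2 * (n + 1) * (q - 1))) : False := by
  have hq' : (8 : ℚ) ≤ q := by exact_mod_cast hq
  have hp' : ((8 * k₁ + 1) * (8 * k₂ + 1) * (8 * k₃ + 1) * (8 * k₄ + 1) : ℚ) = n + 1 := by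
    exact_mod_cast hp
  have e : ∀ k : ℕ, (k : ℚ) / (8 * k + 1) = (1 - 1 / (8 * k + 1)) / 8 := fun k => by field_simp; ring
  have h1 := amgm4 (x := 1 / (8 * k₁ + 1)) (y := 1 / (8 * k₂ + 1)) (z := 1 / (8 * k₃ + 1))
    (w := 1 / (8 * k₄ + 1)) (by positivity) (by positivity) (by positivity) (by positivity)
  have h0 : (0 : ℚ) < q - 1 := by linarith
  have h2 : (1 : ℚ) / (8 * k₁ + 1) + 1 / (8 * k₂ + 1) + 1 / (8 * k₃ + 1) + 1 / (8 * k₄ + 1) ≤
      4 / (q - 1) := by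
    simp only [e] at h
    have : ((n : ℚ) - 1) / (2 * (n + 1) * (q - 1)) ≤ 1 / (2 * (q - 1)) := by
      rw [div_le_div_iff₀ (by positivity) (by positivity)]; nlinarith
    rw [show (4 : ℚ) / (q - 1) = 8 * (1 / (2 * (q - 1))) by field_simp; ring]
    linarith
  have h3 := h1.trans (pow_le_pow_left₀ (by positivity) h2 4)
  rw [one_div_mul_one_div, one_div_mul_one_div, one_div_mul_one_div, hp', div_pow, mul_one_div,
    div_le_div_iff₀ (by positivity) (by positivity)] at h3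
  have h4 : (n : ℚ) ≤ q ^ 3 := by
    rcases hn with rfl | rfl <;> push_cast <;> nlinarith
  have h5 : (q : ℚ) ^ 3 + 1 < (q - 1) ^ 4 := by
    obtain ⟨s, hs⟩ : ∃ s : ℚ, (q : ℚ) = s + 8 := ⟨q - 8, by ring⟩
    have : 0 ≤ s := by linarith
    rw [hs]
    have : 0 ≤ s ^ 4 + 27 * s ^ 3 + 270 * s ^ 2 + 1180 * s := by positivity
    nlinarith
  nlinarith

theorem main {q n : ℕ} (hq : q = 4 ∨ q = 8 ∨ 16 ≤ q) (hn : n = q ^ 2 ∨ n = q ^ 3) (L : List (ℕ × ℕ))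
    (hL : ∀ p ∈ L, (p.1 = 2 ∨ p.1 = 4 ∨ p.1 = 8) ∧ 1 ≤ p.2)
    (hp : (L.map fun p => p.1 * p.2 + 1).prod = n + 1) (hs : 2 * (L.map fun p => p.2).sum = q)
    (h : (L.map fun p => (p.2 : ℚ) / (p.1 * p.2 + 1)).sum =
      1 / 2 - ((n : ℚ) - 1) / (2 * (n + 1) * (q - 1))) :
    8 ≤ q ∧ n = q ^ 2 ∧ ∃ d : ℤ, (q : ℤ) = 2 * d ^ 2 := by
  have hq4 : (4 : ℚ) ≤ q := by exact_mod_cast (show 4 ≤ q by omega)
  have hn1 : q ^ 2 ≤ n := by
    rcases hn with rfl | rfl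
    exacts [le_rfl, Nat.pow_le_pow_right (by omega) (by norm_num)]
  have hn2 : (q : ℚ) ^ 2 ≤ n := by exact_mod_cast hn1
  have hε : 0 < ((n : ℚ) - 1) / (2 * (n + 1) * (q - 1)) :=
    div_pos (by nlinarith) (mul_pos (by positivity) (by linarith))
  have hε' : 8 ≤ q → ((n : ℚ) - 1) / (2 * (n + 1) * (q - 1)) < 1 / 8 := fun h8 => by
    have : (8 : ℚ) ≤ q := by exact_mod_cast h8
    rw [div_lt_div_iff₀ (mul_pos (by positivity) (by linarith)) (by norm_num)]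
    nlinarith
  match L with
  | [] => simp at hs; omega
  | [(e₁, k₁)] =>
    simp only [List.mem_cons, List.not_mem_nil, or_false, forall_eq, List.map_cons, List.map_nil,
      List.prod_cons, List.prod_nil, List.sum_cons, List.sum_nil, mul_one, add_zero] at hL hp hs h
    exfalso
    have u1 := up e₁ k₁ (by omega)
    rcases hq with rfl | hq
    · obtain rfl : k₁ = 2 := by omega
      rcases hn with rfl | rfl <;> rcases hL.1 with rfl | rfl | rfl <;>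
        first | omega | norm_num at h
    · have := hε' (by omega)
      rcases hL.1 with rfl | rfl | rfl
      · nlinarith
      all_goals push_cast at u1 h; linarith
  | [(e₁, k₁), (e₂, k₂)] =>
    simp only [List.mem_cons, List.not_mem_nil, or_false, forall_eq_or_imp, forall_eq, List.map_cons,
      List.map_nil, List.prod_cons, List.prod_nil, List.sum_cons, List.sum_nil, mul_one, add_zero]
      at hL hp hs h
    obtain ⟨⟨a1, b1⟩, a2, b2⟩ := hL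
    have u1 := up e₁ k₁ (by omega)
    have u2 := up e₂ k₂ (by omega)
    have l1 := lo e₁ k₁ b1
    have l2 := lo e₂ k₂ b2
    rcases hq with rfl | hq
    · obtain rfl : k₁ = 1 := by omega
      obtain rfl : k₂ = 1 := by omega
      rcases hn with rfl | rfl <;> rcases a1 with rfl | rfl | rfl <;> rcases a2 with rfl | rfl | rfl <;>
        norm_num at hp
    · have := hε' (by omega)
      rcases a1 with rfl | rfl | rfl <;> rcases a2 with rfl | rfl | rfl <;> push_cast at u1 u2 l1 l2 h <;>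
      first
        | (exfalso; linarith)
        | exact ⟨by omega, t44 (by omega) hn hp hs⟩
        | exact (t28 hq hn hε b1 b2 hp hs h).elim
        | exact (t28 hq hn hε b2 b1 (by rw [← hp]; ring1) (by omega) (by rw [← h]; ring1)).elim
  | [(e₁, k₁), (e₂, k₂), (e₃, k₃)] =>
    simp only [List.mem_cons, List.not_mem_nil, or_false, forall_eq_or_imp, forall_eq, List.map_cons,
      List.map_nil, List.prod_cons, List.prod_nil, List.sum_cons, List.sum_nil, mul_one, add_zero]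
      at hL hp hs h
    obtain ⟨⟨a1, b1⟩, ⟨a2, b2⟩, a3, b3⟩ := hL
    have u1 := up e₁ k₁ (by omega)
    have u2 := up e₂ k₂ (by omega)
    have u3 := up e₃ k₃ (by omega)
    have l1 := lo e₁ k₁ b1
    have l2 := lo e₂ k₂ b2
    have l3 := lo e₃ k₃ b3
    have h8 : 8 ≤ q := by omega
    have := hε' h8
    exfalso
    rcases a1 with rfl | rfl | rfl <;> rcases a2 with rfl | rfl | rfl <;>
      rcases a3 with rfl | rfl | rfl <;> push_cast at u1 u2 u3 l1 l2 l3 h <;>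
    first
      | linarith
      | exact t488 h8 hn b1 b2 b3 (by rw [← hp]; ring1) (by omega) (by rw [← h]; ring1)
      | exact t488 h8 hn b2 b1 b3 (by rw [← hp]; ring1) (by omega) (by rw [← h]; ring1)
      | exact t488 h8 hn b3 b2 b1 (by rw [← hp]; ring1) (by omega) (by rw [← h]; ring1)
  | [(e₁, k₁), (e₂, k₂), (e₃, k₃), (e₄, k₄)] =>
    simp only [List.mem_cons, List.not_mem_nil, or_false, forall_eq_or_imp, forall_eq, List.map_cons,
      List.map_nil, List.prod_cons, List.prod_nil, List.sum_cons, List.sum_nil, mul_one, add_zero]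
      at hL hp hs h
    obtain ⟨⟨a1, b1⟩, ⟨a2, b2⟩, ⟨a3, b3⟩, a4, b4⟩ := hL
    have l1 := lo e₁ k₁ b1
    have l2 := lo e₂ k₂ b2
    have l3 := lo e₃ k₃ b3
    have l4 := lo e₄ k₄ b4
    have h8 : 8 ≤ q := by omega
    exfalso
    rcases a1 with rfl | rfl | rfl <;> rcases a2 with rfl | rfl | rfl <;>
      rcases a3 with rfl | rfl | rfl <;> rcases a4 with rfl | rfl | rfl <;>
      push_cast at l1 l2 l3 l4 h <;>
    first
      | linarith
      | exact t8888 (k₁ := k₁) (k₂ := k₂) (k₃ := k₃) (k₄ := k₄) h8 hn (by rw [← hp]; ring1) (by rw [← h]; ring1)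
  | p₁ :: p₂ :: p₃ :: p₄ :: p₅ :: L =>
    exfalso
    have b : ∀ p : ℕ × ℕ, (p.1 = 2 ∨ p.1 = 4 ∨ p.1 = 8) ∧ 1 ≤ p.2 →
        (1 : ℚ) / 9 ≤ p.2 / (p.1 * p.2 + 1) := fun p hp => by
      refine le_trans ?_ (lo p.1 p.2 hp.2)
      rcases hp.1 with h | h | h <;> rw [h] <;> norm_num
    have c : 0 ≤ (L.map fun p : ℕ × ℕ => (p.2 : ℚ) / (p.1 * p.2 + 1)).sum :=
      List.sum_nonneg fun x hx => by
        obtain ⟨p, -, rfl⟩ := List.mem_map.1 hx
        positivity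
    simp only [List.map_cons, List.sum_cons] at h
    linarith [b p₁ (hL _ (by simp)), b p₂ (hL _ (by simp)), b p₃ (hL _ (by simp)),
      b p₄ (hL _ (by simp)), b p₅ (hL _ (by simp))]

end Cfsg.Agent.H7.ZSA
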