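import Cfsg.Agent.H7.ZS1
import Cfsg.Agent.H7.ZS2
import Cfsg.Agent.H7.Zass6

/-! Suzuki's theorem on Zassenhaus groups of odd degree (orders). -/

set_option autoImplicit false
set_option linter.unusedSectionVars false

open scoped Classical
open Cfsg MulAction Subgroup Cfsg.Agent.H8 Cfsg.Agent.H2

namespace Cfsg.Agent.H7

variable {G Ω : Type*} [Group G] [MulAction G Ω] {a b : Ω} {Q A : Subgroup G} [Finite G] [Finite Ω]

theorem zt_of_simple (hZ : IsZassenhausGroup G Ω) [IsSimpleGroup G] (hab : a ≠ b) (k : Ker a Q)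
    (h2 : IsPGroup 2 Q) : ZT a b Q := by
  haveI : Fact (Nat.Prime 2) := ⟨Nat.prime_two⟩
  have z := zass_z3 hZ
  have h3 := zass_three_le hZ
  refine ⟨zo_of_simple hZ hab k ?_, h2⟩
  have h4 := k.card hab.symm
  have h5 : 2 ∣ Nat.card Q := h2.card_eq_or_dvd.resolve_left (by omega)
  exact Odd.of_dvd_nat (Nat.odd_iff.2 (by omega)) (z.card_St_dvd hab)

theorem ZT.suzuki_order (h : ZT a b Q) (hna : ∃ x y : Q, x * y ≠ y * x) :
    ∃ m : ℕ, 1 ≤ m ∧ Nat.card (St G a b) + 1 = 2 ^ (2 * m + 1) ∧ Nat.card Q = (2 ^ (2 * m + 1)) ^ 2 ∧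
      ∃ (F : Type) (_ : Field F) (_ : Fintype F) (φ : F ≃+* F), Fintype.card F = 2 ^ (2 * m + 1) ∧
        Nonempty (Q ≃* suzukiTypeA F (φ : F →+* F)) := by
  haveI := Fintype.ofFinite G
  haveI : Fact (Nat.Prime 2) := ⟨Nat.prime_two⟩
  obtain ⟨-, h2, -, htwo, K, hK, hreg⟩ := h.suzuki hna
  obtain ⟨F, _, _, _, ξ, g, m, H, -⟩ := Hig.exists_HS h2 htwo hK hreg
  have hq := h.card_center fun x => ⟨H.center_sq hna, H.cen x⟩
  rw [H.card_center hna] at hq
  obtain ⟨j, -, hj⟩ := FiniteField.card F 2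
  obtain ⟨R, hR⟩ := ZTT.exists_Reps (G := G) (Ω := Ω)
  have T := h.ztt
  have hA : ∀ A ∈ R, (Nat.card A : ℚ) = ZTT.ee A * (ZTT.Al A).card + 1 := fun A hA => by
    exact_mod_cast (T.card_Al (hR.tor A hA)).symm
  have hbig := H.big
  obtain ⟨h8, hn, d, hd⟩ := ZSA.main (q := Fintype.card F) (n := Nat.card Q) (by
      rw [hj] at hbig ⊢
      generalize (j : ℕ) = j at hbig ⊢
      rcases le_or_gt 4 j with h4 | h4
      · exact Or.inr (Or.inr (Nat.pow_le_pow_right two_pos h4))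
      · interval_cases j <;> simp_all) (H.card_eq hna)
    (R.toList.map fun A => (ZTT.ee A, (ZTT.Al A).card)) (fun p hp => by
      obtain ⟨A, hA, rfl⟩ := List.mem_map.1 hp
      have hA := hR.tor A (Finset.mem_toList.1 hA)
      haveI : Nonempty Ω := ⟨a⟩
      refine ⟨h.ee_mem (H.pow_four hna) (H.cm_sq_one hna) hA, Nat.pos_of_ne_zero fun e => hA.ne_bot ?_⟩
      have := T.card_Al hA
      simp only at e
      rw [e] at this
      exact card_eq_one.1 this.symm)
    (by
      rw [List.map_map, Finset.prod_map_toList, ← T.prod_reps hR]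
      exact Finset.prod_congr rfl fun A hA => T.card_Al (hR.tor A hA))
    (by
      rw [List.map_map, Finset.sum_map_toList, hq]
      apply Nat.cast_injective (R := ℚ)
      push_cast
      rw [← h.sum_tori hR]
      congr 1
      refine Finset.sum_congr rfl fun A h1 => ?_
      have := ZTT.ee_pos A
      rw [hA A h1]
      simp only [Function.comp]
      field_simp
      ring)
    (by
      rw [List.map_map, Finset.sum_map_toList, hq]
      push_cast
      rw [add_sub_cancel_right, ← T.class_eq hR]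
      refine Finset.sum_congr rfl fun A h1 => ?_
      have := ZTT.ee_pos A
      rw [hA A h1]
      simp only [Function.comp]
      field_simp
      ring)
  have h3 : 2 ^ (j : ℕ) = 2 * d.natAbs ^ 2 := by
    rw [← hj]; zify; rw [hd, sq_abs]
  obtain ⟨s, -, hs⟩ := (Nat.dvd_prime_pow Nat.prime_two).1
    (show d.natAbs ∣ 2 ^ (j : ℕ) from h3 ▸ Dvd.dvd.mul_left (dvd_pow_self _ two_ne_zero) _)
  have h4 : Fintype.card F = 2 ^ (2 * s + 1) := by rw [hj, h3, hs]; ring
  obtain ⟨φ, -, -, hφ⟩ := H.typeA hna hn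
  refine ⟨s, Nat.pos_of_ne_zero ?_, h4 ▸ hq.symm, h4 ▸ hn, F, inferInstance, inferInstance, φ, h4, hφ⟩
  rintro rfl
  omega

theorem ZT.isSuzuki (h : ZT a b Q) (hna : ∃ x y : Q, x * y ≠ y * x) : IsSuzuki G := by
  obtain ⟨m, h1, h2, h3, -⟩ := h.suzuki_order hna
  refine ⟨h.simple, m, h1, ?_⟩
  rw [h.card_G, h3, ← h2, Nat.add_sub_cancel]; ring

end Cfsg.Agent.H7
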